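import Mathlib
import Cfsg.Agent.Lib.Classical.Herm.SU3Invol

/-!
# Coordinates on `SU₃(q)` with respect to a triple
-/

set_option autoImplicit false
set_option linter.unusedSectionVars false
set_option linter.unusedSimpArgs false
set_option linter.unusedVariables false
set_option linter.style.haveILetI false

open scoped Matrix
open Cfsg
open Cfsg.Agent.Lib.Classical.Herm.Basic Cfsg.Agent.Lib.Classical.Herm.Form
open Cfsg.Agent.Lib.Classical.Herm.GU Cfsg.Agent.Lib.Classical.Herm.SU
open Cfsg.Agent.Lib.Classical.Herm.Tv Cfsg.Agent.Lib.Classical.Herm.Comm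
open Cfsg.Agent.Lib.Classical.Herm.Unip Cfsg.Agent.Lib.Classical.Herm.SU3Sylow
open Cfsg.Agent.Lib.Classical.Herm.SU3Invol

namespace Cfsg.Agent.Lib.MinIndex.U3.Base

variable {F : Type*} [Field F] [Fintype F] {q : ℕ}

local notation "⟪" x ", " y "⟫" => hermForm _ _ q x y

variable (hF : Fintype.card F = q ^ 2) {e f w : Fin 3 → F} (ht : IsTriple q e f w)

include hF ht

/-- The matrix with columns `e, f, w` is invertible. -/
theorem det_colMat_ne : (colMat e f w).det ≠ 0 := by
  intro h
  obtain ⟨v, hv, h0⟩ := Matrix.exists_mulVec_eq_zero_iff.2 h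
  have hfe := ht.hfe hF
  have hew := ht.hew hF
  have hfw := ht.hfw hF
  have h1 : v 0 • e + v 1 • f + v 2 • w = 0 := by
    rw [← h0]
    funext i
    simp [colMat, Matrix.mulVec, dotProduct, Fin.sum_univ_three, mul_comm]
  apply hv
  have a1 := congrArg (fun z => ⟪z, f⟫) h1
  have a2 := congrArg (fun z => ⟪z, e⟫) h1
  have a3 := congrArg (fun z => ⟪z, w⟫) h1
  simp only [hermForm_add_left, hermForm_smul_left, hermForm_zero_left, ht.hef, ht.hf, ht.hwf, ht.he, ht.hwe,
    ht.hww, hfe, hew, hfw, mul_zero, mul_one, add_zero, zero_add] at a1 a2 a3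
  funext i
  fin_cases i
  · exact a1
  · exact a2
  · exact a3

/-- The coordinate matrix of an element has determinant one. -/
theorem det_coord (g : SU 3 F q) :
    (!![⟪act g e, f⟫, ⟪act g f, f⟫, ⟪act g w, f⟫;
        ⟪act g e, e⟫, ⟪act g f, e⟫, ⟪act g w, e⟫;
        ⟪act g e, w⟫, ⟪act g f, w⟫, ⟪act g w, w⟫] : Matrix (Fin 3) (Fin 3) F).det = 1 := by
  set R : Matrix (Fin 3) (Fin 3) F := !![⟪act g e, f⟫, ⟪act g f, f⟫, ⟪act g w, f⟫;
        ⟪act g e, e⟫, ⟪act g f, e⟫, ⟪act g w, e⟫;
        ⟪act g e, w⟫, ⟪act g f, w⟫, ⟪act g w, w⟫] with hR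
  have h1 := mul_colMat g e f w
  have h2 : colMat (act g e) (act g f) (act g w) = colMat e f w * R := by
    have d1 := ht.decomp hF (act g e)
    have d2 := ht.decomp hF (act g f)
    have d3 := ht.decomp hF (act g w)
    ext i j
    rw [Matrix.mul_apply, Fin.sum_univ_three]
    fin_cases j
    · change act g e i = _
      conv_lhs => rw [d1]
      simp [hR, colMat, mul_comm]
    · change act g f i = _
      conv_lhs => rw [d2]
      simp [hR, colMat, mul_comm]
    · change act g w i = _
      conv_lhs => rw [d3]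
      simp [hR, colMat, mul_comm]
  rw [h2] at h1
  have h3 := congrArg Matrix.det h1
  rw [Matrix.det_mul, Matrix.det_mul, show (mat g).det = 1 from g.1.2, one_mul] at h3
  have hne := det_colMat_ne hF ht
  exact mul_left_cancel₀ hne (by rw [mul_one]; exact h3.symm)

theorem form_w_e (g : SU 3 F q) {l : F} (hl : l ≠ 0) (h : act g e = l • e) : ⟪act g w, e⟫ = 0 := by
  have h1 := h_act (q := q) g w e
  rw [h, hermForm_smul_right, ht.hwe] at h1
  exact (mul_eq_zero.mp h1).resolve_left (pow_ne_zero _ hl)

theorem form_f_e (g : SU 3 F q) {l : F} (h : act g e = l • e) : ⟪act g f, e⟫ * l ^ q = 1 := by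
  have h1 := h_act (q := q) g f e
  rw [h, hermForm_smul_right, ht.hfe hF] at h1
  rw [mul_comm]
  exact h1

theorem form_e_f (g : SU 3 F q) {l : F} (h : act g e = l • e) : ⟪act g e, f⟫ = l := by
  rw [h, hermForm_smul_left, ht.hef, mul_one]

/-- The action on `w` of an element of the line stabiliser: the eigenvalue. -/
theorem rel_m (g : SU 3 F q) {l : F} (hl : l ≠ 0) (h : act g e = l • e) : ⟪act g w, w⟫ * l = l ^ q := by
  have h1 := det_coord hF ht g
  have h2 := form_w_e hF ht g hl h
  have h3 := form_f_e hF ht g h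
  have h4 : ⟪act g e, e⟫ = 0 := by rw [h, hermForm_smul_left, ht.he, mul_zero]
  have h5 : ⟪act g e, w⟫ = 0 := by rw [h, hermForm_smul_left, ht.hew hF, mul_zero]
  rw [Matrix.det_fin_three] at h1
  simp [form_e_f hF ht g h, h2, h4, h5] at h1
  linear_combination (l ^ q) * h1 - (⟪act g w, w⟫ * l) * h3

theorem act_w_line (g : SU 3 F q) {l : F} (hl : l ≠ 0) (h : act g e = l • e) :
    act g w = ⟪act g w, f⟫ • e + ⟪act g w, w⟫ • w := by
  have d := ht.decomp hF (act g w)
  rw [form_w_e hF ht g hl h, zero_smul, add_zero] at d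
  exact d

omit ht in
variable (q) in
/-- The coordinate `s` on the stabiliser of `e`. -/
def ss (f w : Fin 3 → F) (u : SU 3 F q) : F := hermForm 3 F q (act u w) f

omit ht in
variable (q) in
/-- The coordinate `b` on the stabiliser of `e`. -/
def bb (f : Fin 3 → F) (u : SU 3 F q) : F := hermForm 3 F q (act u f) f

section fix

variable {u v : SU 3 F q}

theorem act_w_fix (hu : act u e = e) : act u w = w + ss q f w u • e := by
  have h1 : act u e = (1 : F) • e := by rw [hu, one_smul]
  have h2 := rel_m hF ht u one_ne_zero h1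
  rw [mul_one, one_pow] at h2
  rw [act_w_line hF ht u one_ne_zero h1, h2, one_smul, add_comm]
  rfl

theorem form_f_e_fix (hu : act u e = e) : ⟪act u f, e⟫ = 1 := by
  have h1 : act u e = (1 : F) • e := by rw [hu, one_smul]
  have h2 := form_f_e hF ht u h1
  rwa [one_pow, mul_one] at h2

theorem form_f_w_fix (hu : act u e = e) : ⟪act u f, w⟫ = -(ss q f w u) ^ q := by
  have h1 := h_act (q := q) u f w
  rw [act_w_fix hF ht hu, hermForm_add_right hF, hermForm_smul_right, form_f_e_fix hF ht hu, ht.hfw hF] at h1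
  linear_combination h1

theorem act_f_fix (hu : act u e = e) : act u f = bb q f u • e + f - (ss q f w u) ^ q • w := by
  have d := ht.decomp hF (act u f)
  rw [form_f_e_fix hF ht hu, form_f_w_fix hF ht hu, one_smul, neg_smul] at d
  rw [sub_eq_add_neg]
  exact d

theorem trace_fix (hu : act u e = e) : bb q f u + bb q f u ^ q + ss q f w u ^ (q + 1) = 0 := by
  have h1 := h_act (q := q) u f f
  rw [act_f_fix hF ht hu] at h1
  have hfe := ht.hfe hF
  have hew := ht.hew hF
  have hfw := ht.hfw hF
  simp only [hermForm_add_left, hermForm_sub_left, hermForm_smul_left, hermForm_add_right hF,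
    hermForm_sub_right hF, hermForm_smul_right, ht.he, ht.hf, ht.hef, ht.hww, ht.hwe, ht.hwf, hfe, hew, hfw] at h1
  have h2 : (ss q f w u ^ q) ^ q = ss q f w u := pow_q_pow_q hF _
  rw [h2] at h1
  rw [pow_succ]
  linear_combination h1

/-- An element fixing `e` lies in the unipotent radical. -/
theorem mem_Re_of_fix (hu : act u e = e) : u ∈ Re q e := by
  refine ⟨hu, fun z hz => ⟨⟪z, w⟫ * ss q f w u, ?_⟩⟩
  have d := ht.decomp hF z
  rw [hz, zero_smul, add_zero] at d
  conv_lhs => rw [d]
  rw [act_add, act_smul, act_smul, hu, act_w_fix hF ht hu]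
  conv_rhs => rw [d]
  funext i
  simp only [hermForm_add_left, hermForm_smul_left, Pi.add_apply, Pi.smul_apply, smul_eq_mul, ht.hew hF, ht.hww]
  ring

theorem ss_mul (hu : act u e = e) (hv : act v e = e) : ss q f w (u * v) = ss q f w u + ss q f w v := by
  change ⟪act (u * v) w, f⟫ = _
  rw [act_mul, act_w_fix hF ht hv, act_add, act_smul, hu, act_w_fix hF ht hu]
  simp only [hermForm_add_left, hermForm_smul_left, ht.hwf, ht.hef]
  ring

theorem bb_mul (hu : act u e = e) (hv : act v e = e) :
    bb q f (u * v) = bb q f u + bb q f v - ss q f w v ^ q * ss q f w u := by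
  have h1 : act (u * v) f = bb q f v • e + (bb q f u • e + f - (ss q f w u) ^ q • w)
      - (ss q f w v) ^ q • (w + ss q f w u • e) := by
    rw [act_mul]
    conv_lhs => rw [act_f_fix hF ht hv, act_sub, act_add, act_smul, act_smul, hu, act_f_fix hF ht hu,
      act_w_fix hF ht hu]
  have h2 := congrArg (fun z => ⟪z, f⟫) h1
  simp only [hermForm_add_left, hermForm_sub_left, hermForm_smul_left, ht.hf, ht.hef, ht.hwf] at h2
  change bb q f (u * v) = _ at h2
  rw [h2]
  ring

theorem act_fix_mul (hu : act u e = e) (hv : act v e = e) : act (u * v) e = e := by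
  rw [act_mul, hv, hu]

theorem act_fix_inv (hu : act u e = e) : act u⁻¹ e = e := by
  conv_lhs => rw [← hu]
  exact act_inv_act u e

/-- An element with `s = 0` is a transvection. -/
theorem act_of_ss_zero (hu : act u e = e) (hs : ss q f w u = 0) (x : Fin 3 → F) :
    act u x = x + (bb q f u * ⟪x, e⟫) • e := by
  have d := ht.decomp hF x
  have h1 := act_w_fix hF ht hu
  have h2 := act_f_fix hF ht hu
  rw [hs, zero_smul, add_zero] at h1
  rw [hs, zero_pow (by have := two_le_q hF; omega), zero_smul, sub_zero] at h2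
  conv_lhs => rw [d]
  rw [act_add, act_add, act_smul, act_smul, act_smul, hu, h1, h2]
  conv_rhs => rw [d]
  funext i
  simp only [hermForm_add_left, hermForm_smul_left, Pi.add_apply, Pi.smul_apply, smul_eq_mul, ht.he, ht.hfe hF, ht.hwe]
  ring

theorem bb_trace_of_ss_zero (hu : act u e = e) (hs : ss q f w u = 0) : bb q f u + bb q f u ^ q = 0 := by
  have h1 := trace_fix hF ht hu
  rw [hs, zero_pow (by omega), add_zero] at h1
  exact h1

theorem eq_tv_of_ss_zero (hu : act u e = e) (hs : ss q f w u = 0) :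
    u = tv hF ht.he (bb_trace_of_ss_zero hF ht hu hs) := by
  apply ext_act
  intro x
  rw [act_of_ss_zero hF ht hu hs, act_tv]

/-- The commutator has `s = 0` and `b = s_u^q s_v - s_v^q s_u`. -/
theorem comm_coords (hu : act u e = e) (hv : act v e = e) :
    ss q f w (u * v * u⁻¹ * v⁻¹) = 0 ∧
      bb q f (u * v * u⁻¹ * v⁻¹) = ss q f w u ^ q * ss q f w v - ss q f w v ^ q * ss q f w u := by
  set c := u * v * u⁻¹ * v⁻¹ with hc
  have hcf : act c e = e := by
    rw [hc, act_mul, act_mul, act_mul, act_fix_inv hF ht hv, act_fix_inv hF ht hu, hv, hu]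
  have huv : u * v = c * (v * u) := by
    rw [hc]
    group
  have h1 := ss_mul hF ht hu hv
  rw [huv, ss_mul hF ht hcf (act_fix_mul hF ht hv hu), ss_mul hF ht hv hu] at h1
  have h2 : ss q f w c = 0 := by linear_combination h1
  have h3 := bb_mul hF ht hu hv
  rw [huv, bb_mul hF ht hcf (act_fix_mul hF ht hv hu), bb_mul hF ht hv hu, h2, mul_zero, sub_zero] at h3
  refine ⟨h2, ?_⟩
  linear_combination h3

/-- Commuting elements. -/
theorem comm_of_commute (hu : act u e = e) (hv : act v e = e) (h : u * v = v * u) :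
    ss q f w u ^ q * ss q f w v = ss q f w v ^ q * ss q f w u := by
  have h1 := bb_mul hF ht hu hv
  rw [h, bb_mul hF ht hv hu] at h1
  linear_combination -h1

/-- Conjugation on the coordinate `s`. -/
theorem ss_conj (g : SU 3 F q) {l : F} (hl : l ≠ 0) (h : act g e = l • e) (hu : act u e = e) :
    act (g * u * g⁻¹) e = e ∧ ss q f w (g * u * g⁻¹) * l ^ q = l ^ 2 * ss q f w u := by
  have hinv : act g⁻¹ e = l⁻¹ • e := by
    have h1 := act_inv_act g e
    rw [h, act_smul] at h1
    funext i
    have h2 := congrFun h1 i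
    simp only [Pi.smul_apply, smul_eq_mul] at h2 ⊢
    field_simp
    linear_combination h2
  have hcf : act (g * u * g⁻¹) e = e := by
    rw [act_mul, act_mul, hinv, act_smul, hu, act_smul, h, smul_smul, inv_mul_cancel₀ hl, one_smul]
  refine ⟨hcf, ?_⟩
  have hm := rel_m hF ht g hl h
  set m := ⟪act g w, w⟫ with hmdef
  have hm0 : m ≠ 0 := by
    intro h0
    rw [h0, zero_mul] at hm
    exact pow_ne_zero q hl hm.symm
  set x := ⟪act g w, f⟫ with hx
  have hgw := act_w_line hF ht g hl h
  rw [← hmdef, ← hx] at hgw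
  -- `c (g w) = g (u w)`
  have h1 : act (g * u * g⁻¹) (act g w) = act g (act u w) := by
    rw [act_mul, act_mul, act_inv_act]
  rw [act_w_fix hF ht hu, act_add, act_smul, h] at h1
  rw [hgw, act_add, act_smul, act_smul, hcf, act_w_fix hF ht hcf] at h1
  have h2 := congrArg (fun z => ⟪z, f⟫) h1
  simp only [hermForm_add_left, hermForm_smul_left, ht.hef, ht.hwf, mul_zero, mul_one, add_zero, zero_add] at h2
  -- `m s' = l s`
  have h3 : m * ss q f w (g * u * g⁻¹) = ss q f w u * l := by
    have h4 : x + m * ss q f w (g * u * g⁻¹) = x + ss q f w u * l := by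
      linear_combination h2
    exact add_left_cancel h4
  rw [← hm]
  linear_combination l * h3

end fix

omit ht in
/-- Fixing an isotropic vector means lying in the unipotent radical. -/
theorem mem_Re_iff {e : Fin 3 → F} (he : ⟪e, e⟫ = 0) (he0 : e ≠ 0) {u : SU 3 F q} : u ∈ Re q e ↔ act u e = e := by
  obtain ⟨f, w, ht⟩ := exists_triple hF he he0
  exact ⟨fun h => h.1, mem_Re_of_fix hF ht⟩

end Cfsg.Agent.Lib.MinIndex.U3.Base
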