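import Mathlib
import Cfsg.Agent.Lib.PSL2.DicksonCor

/-!
# Dickson's theorem in the form needed for `SU₃(q)`
-/

set_option autoImplicit false
set_option linter.unusedSectionVars false
set_option linter.unusedSimpArgs false
set_option linter.unusedVariables false

namespace Cfsg.Agent.Lib.MinIndex.U3.DF

open Matrix Matrix.SpecialLinearGroup Subgroup
open scoped MatrixGroups
open Cfsg.Agent.Lib.PSL2.Basic Cfsg.Agent.Lib.PSL2.Conj Cfsg.Agent.Lib.PSL2.Members
open Cfsg.Agent.Lib.PSL2.MemberCyc Cfsg.Agent.Lib.PSL2.FieldEmbed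
open Cfsg.Agent.Lib.PSL2.Dickson Cfsg.Agent.Lib.PSL2.DicksonCor

variable {F : Type*} [Field F] [Fintype F]

/-- The four alternatives of Dickson's theorem. -/
theorem dickson_four (p : ℕ) [Fact p.Prime] [CharP F p] (K : Subgroup PSL(2, F)) :
    (∃ R : Subgroup PSL(2, F), (∀ x ∈ R, ∀ y ∈ R, x * y = y * x) ∧
      ∀ x ∈ K, ∀ y ∈ K, x ∉ R → y ∉ R → x⁻¹ * y ∈ R) ∨
    (∃ v : Fin 2 → F, v ≠ 0 ∧ ∀ X : SL(2, F), mkP X ∈ K → ∃ c : F, X.1 *ᵥ v = c • v) ∨
    (Nat.card K = 12 ∨ Nat.card K = 24 ∨ Nat.card K = 60) ∨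
    (∃ q' m : ℕ, 2 ≤ q' ∧ q' ^ m = Fintype.card F ∧ q' ∣ Nat.card K ∧ Nat.card K ∣ q' * (q' ^ 2 - 1)) := by
  rcases dickson_frame p K with h | ⟨A, hA, hd, hle⟩ | ⟨A, hA, hd, hAH, hidx⟩ | ⟨g, hg⟩ |
    ⟨⟨e⟩⟩ | ⟨⟨e⟩⟩ | ⟨⟨e⟩⟩ | ⟨K', _, _, m, hm, h⟩
  · left
    refine ⟨⊥, ?_, ?_⟩
    · intro x hx y hy
      rw [Subgroup.mem_bot] at hx hy
      rw [hx, hy]
    · intro x hx y hy hx' _
      exfalso
      apply hx'
      have := (Nat.card_eq_one_iff_unique.1 h).1
      have h2 : (⟨x, hx⟩ : K) = 1 := Subsingleton.elim _ _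
      rw [Subgroup.mem_bot]
      exact congrArg Subtype.val h2
  · left
    refine ⟨cbar A, ?_, ?_⟩
    · intro x hx y hy
      obtain ⟨gen, hgen⟩ := (cbar_cyclic hA hd).1.exists_generator
      obtain ⟨a, ha⟩ := Subgroup.mem_zpowers_iff.1 (hgen ⟨x, hx⟩)
      obtain ⟨b, hb⟩ := Subgroup.mem_zpowers_iff.1 (hgen ⟨y, hy⟩)
      have h5 : (⟨x, hx⟩ : cbar A) * ⟨y, hy⟩ = ⟨y, hy⟩ * ⟨x, hx⟩ := by
        rw [← ha, ← hb, ← _root_.zpow_add, ← _root_.zpow_add, add_comm]
      exact congrArg Subtype.val h5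
    · intro x hx y hy hx' _
      exact absurd (hle hx) hx'
  · left
    refine ⟨cbar A, ?_, ?_⟩
    · intro x hx y hy
      obtain ⟨gen, hgen⟩ := (cbar_cyclic hA hd).1.exists_generator
      obtain ⟨a, ha⟩ := Subgroup.mem_zpowers_iff.1 (hgen ⟨x, hx⟩)
      obtain ⟨b, hb⟩ := Subgroup.mem_zpowers_iff.1 (hgen ⟨y, hy⟩)
      have h5 : (⟨x, hx⟩ : cbar A) * ⟨y, hy⟩ = ⟨y, hy⟩ * ⟨x, hx⟩ := by
        rw [← ha, ← hb, ← _root_.zpow_add, ← _root_.zpow_add, add_comm]
      exact congrArg Subtype.val h5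
    · intro x hx y hy hx' hy'
      have h1 := Subgroup.mul_mem_iff_of_index_two hidx (a := (⟨x, hx⟩ : K)⁻¹) (b := ⟨y, hy⟩)
      have h2 : (⟨x, hx⟩ : K)⁻¹ ∉ member K A := by
        intro h3
        apply hx'
        have h4 := (member K A).inv_mem h3
        rw [inv_inv] at h4
        exact h4
      have h3 : (⟨y, hy⟩ : K) ∉ member K A := hy'
      have h4 := h1.2 (by simp [h2, h3])
      exact h4
  · right; left
    refine ⟨fun i => (g⁻¹).1 i 0, ?_, ?_⟩
    · intro h0
      have h1 := det_entries g⁻¹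
      have h2 : (g⁻¹).1 0 0 = 0 := congrFun h0 0
      have h3 : (g⁻¹).1 1 0 = 0 := congrFun h0 1
      rw [h2, h3] at h1
      simp at h1
    · intro X hX
      have hU : (T g X).1 1 0 = 0 := hg X hX
      refine ⟨(T g X).1 0 0, ?_⟩
      have h1 : X * g⁻¹ = g⁻¹ * T g X := by
        simp only [T]
        group
      have h2 : X.1 * (g⁻¹).1 = (g⁻¹).1 * (T g X).1 := congrArg Subtype.val h1
      funext i
      have h3 := congrFun (congrFun h2 i) 0
      simp only [Matrix.mul_apply, Fin.sum_univ_two, hU, mul_zero, add_zero] at h3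
      simp only [Matrix.mulVec, dotProduct, Fin.sum_univ_two, Pi.smul_apply, smul_eq_mul]
      rw [h3, mul_comm]
  · right; right; left
    exact Or.inl (by rw [Nat.card_congr e.toEquiv, card_alt4])
  · right; right; left
    exact Or.inr (Or.inl (by rw [Nat.card_congr e.toEquiv, card_perm4]))
  · right; right; left
    exact Or.inr (Or.inr (by rw [Nat.card_congr e.toEquiv, card_alt5]))
  · right; right; right
    have hq' : 2 ≤ Fintype.card K' := Fintype.one_lt_card
    refine ⟨Fintype.card K', m, hq', hm, ?_⟩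
    rcases h with ⟨⟨e⟩⟩ | ⟨⟨e⟩⟩
    · rw [Nat.card_congr e.toEquiv]
      have h1 := card_PSL2_mul_dd K'
      constructor
      · by_cases hev : Even (Fintype.card K')
        · have h2 : dd K' = 1 := by
            unfold dd
            apply Nat.Coprime.gcd_eq_one
            rw [Nat.coprime_two_left]
            obtain ⟨r, hr⟩ := hev
            exact ⟨r - 1, by omega⟩
          rw [h2, mul_one] at h1
          rw [h1]
          exact dvd_mul_right _ _
        · have h2 : Nat.Coprime (Fintype.card K') (dd K') := by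
            have h3 : Nat.Coprime (Fintype.card K') 2 := by
              rw [Nat.coprime_two_right]
              exact Nat.not_even_iff_odd.1 hev
            exact Nat.Coprime.coprime_dvd_right (Nat.gcd_dvd_left _ _) h3
          have h3 : Fintype.card K' ∣ Nat.card PSL(2, K') * dd K' := by
            rw [h1]
            exact dvd_mul_right _ _
          exact h2.dvd_of_dvd_mul_right h3
      · rw [← h1]
        exact dvd_mul_right _ _
    · rw [Nat.card_congr e.toEquiv, card_PGL]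
      exact ⟨dvd_mul_right _ _, dvd_refl _⟩

end Cfsg.Agent.Lib.MinIndex.U3.DF
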