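import Mathlib

/-!
# A subgroup of index below the degree of a doubly transitive action is transitive
-/

set_option autoImplicit false
set_option linter.unusedSectionVars false
set_option linter.unusedSimpArgs false
set_option linter.unusedVariables false

namespace Cfsg.Agent.Lib.MinIndex.U3.Fisher

variable {G X : Type*} [Group G] [MulAction G X] [Finite G] [Finite X]

/-- Fisher's inequality, in the form needed for permutation groups. -/
theorem transitive_of_index_lt (H : Subgroup G)
    (h2 : ∀ a b a' b' : X, a ≠ b → a' ≠ b' → ∃ g : G, g • a = a' ∧ g • b = b')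
    (hidx : H.index < Nat.card X) (a b : X) : ∃ h ∈ H, h • a = b := by
  classical
  by_contra hnot
  have hab : a ≠ b := by
    rintro rfl
    exact hnot ⟨1, H.one_mem, one_smul _ _⟩
  let O : Set X := {x | ∃ h ∈ H, h • a = x}
  have hOinv : ∀ h ∈ H, ∀ x, h • x ∈ O ↔ x ∈ O := by
    intro h hh x
    constructor
    · rintro ⟨k, hk, hkx⟩
      refine ⟨h⁻¹ * k, H.mul_mem (H.inv_mem hh) hk, ?_⟩
      rw [mul_smul, hkx, inv_smul_smul]
    · rintro ⟨k, hk, hkx⟩
      exact ⟨h * k, H.mul_mem hh hk, by rw [mul_smul, hkx]⟩
  let _ : Fintype X := Fintype.ofFinite X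
  let _ : Fintype (G ⧸ H) := Fintype.ofFinite _
  let inc : X → G ⧸ H → Prop := fun x ω => (Quotient.out ω)⁻¹ • x ∈ O
  have hinc : ∀ (g : G) (x : X) (ω : G ⧸ H), inc (g • x) (g • ω) ↔ inc x ω := by
    intro g x ω
    obtain ⟨h, hh⟩ := QuotientGroup.mk_out_eq_mul H (g * Quotient.out ω)
    have h1 : g • ω = ((g * Quotient.out ω : G) : G ⧸ H) := by
      conv_lhs => rw [← QuotientGroup.out_eq' ω]
      rfl
    change (Quotient.out (g • ω))⁻¹ • (g • x) ∈ O ↔ (Quotient.out ω)⁻¹ • x ∈ O
    rw [h1, hh]
    have h3 : (g * Quotient.out ω * (h : G))⁻¹ • g • x = (h : G)⁻¹ • ((Quotient.out ω)⁻¹ • x) := by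
      rw [smul_smul, smul_smul]
      congr 1
      group
    rw [h3]
    exact hOinv _ (H.inv_mem h.2) _
  let S : X → Finset (G ⧸ H) := fun x => Finset.univ.filter (inc x)
  have hS : ∀ x ω, ω ∈ S x ↔ inc x ω := by
    intro x ω
    simp [S]
  let M : X → X → ℕ := fun x y => (S x ∩ S y).card
  have hM : ∀ (g : G) x y, M (g • x) (g • y) = M x y := by
    intro g x y
    symm
    apply Finset.card_bij (fun ω _ => g • ω)
    · intro ω hω
      rw [Finset.mem_inter, hS, hS] at hω ⊢
      exact ⟨(hinc g x ω).2 hω.1, (hinc g y ω).2 hω.2⟩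
    · intro ω _ ω' _ h
      exact MulAction.injective g h
    · intro ω hω
      refine ⟨g⁻¹ • ω, ?_, smul_inv_smul g ω⟩
      rw [Finset.mem_inter, hS, hS] at hω ⊢
      constructor
      · rw [← hinc g x, smul_inv_smul]
        exact hω.1
      · rw [← hinc g y, smul_inv_smul]
        exact hω.2
  set r := M a a with hr
  set l := M a b with hl
  have hMne : ∀ x y, x ≠ y → M x y = l := by
    intro x y hxy
    obtain ⟨g, h1, h3⟩ := h2 a b x y hab hxy
    rw [← h1, ← h3, hM]
  have hMeq : ∀ x, M x x = r := by
    intro x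
    obtain ⟨z, hz⟩ : ∃ z, x ≠ z := by
      by_cases h : x = a
      · exact ⟨b, by rw [h]; exact hab⟩
      · exact ⟨a, h⟩
    obtain ⟨g, h1, h3⟩ := h2 a b x z hab hz
    rw [← h1, hM]
  have hlr : l < r := by
    apply Finset.card_lt_card
    rw [Finset.ssubset_iff_of_subset]
    · refine ⟨((1 : G) : G ⧸ H), ?_, ?_⟩
      · rw [Finset.mem_inter, hS]
        have h4 : Quotient.out ((1 : G) : G ⧸ H) ∈ H := by
          have := QuotientGroup.out_eq' ((1 : G) : G ⧸ H)
          rw [QuotientGroup.eq] at this
          simpa using this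
        have h5 : (Quotient.out ((1 : G) : G ⧸ H))⁻¹ • a ∈ O :=
          ⟨_, H.inv_mem h4, rfl⟩
        exact ⟨h5, h5⟩
      · rw [Finset.mem_inter, hS, hS]
        rintro ⟨-, h3⟩
        have h4 : Quotient.out ((1 : G) : G ⧸ H) ∈ H := by
          have := QuotientGroup.out_eq' ((1 : G) : G ⧸ H)
          rw [QuotientGroup.eq] at this
          simpa using this
        obtain ⟨k, hk, hkx⟩ := (hOinv _ (H.inv_mem h4) b).1 h3
        exact hnot ⟨k, hk, hkx⟩
    · intro ω hω
      rw [Finset.mem_inter] at hω ⊢
      exact ⟨hω.1, hω.1⟩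
  -- the linear map
  let T : (X → ℚ) →ₗ[ℚ] (G ⧸ H → ℚ) :=
    { toFun := fun v ω => ∑ x, if inc x ω then v x else 0
      map_add' := by
        intro v v'
        funext ω
        simp only [Pi.add_apply, ← Finset.sum_add_distrib]
        apply Finset.sum_congr rfl
        intro x _
        split_ifs <;> simp
      map_smul' := by
        intro c v
        funext ω
        simp only [Pi.smul_apply, smul_eq_mul, RingHom.id_apply, Finset.mul_sum]
        apply Finset.sum_congr rfl
        intro x _
        split_ifs <;> simp }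
  have hTinj : Function.Injective T := by
    rw [← LinearMap.ker_eq_bot, LinearMap.ker_eq_bot']
    intro v hv
    have hkey : ∀ x, ((r : ℚ) - l) * v x + l * ∑ y, v y = 0 := by
      intro x
      have h1 : ∑ ω ∈ S x, (T v) ω = 0 := by
        rw [hv]
        simp
      have h3 : ∑ ω ∈ S x, (T v) ω = ∑ y, (M x y : ℚ) * v y := by
        change ∑ ω ∈ S x, (∑ y, if inc y ω then v y else 0) = _
        rw [Finset.sum_comm]
        apply Finset.sum_congr rfl
        intro y _
        have h4 : ∀ ω, (if inc y ω then v y else 0) = if ω ∈ S y then v y else 0 := by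
          intro ω
          simp only [hS]
        simp only [h4]
        rw [Finset.sum_ite_mem]
        simp only [M, Finset.sum_const, nsmul_eq_mul]
      rw [h3] at h1
      have h5 : ∑ y, (M x y : ℚ) * v y = ((r : ℚ) - l) * v x + l * ∑ y, v y := by
        have h6 : ∀ y, (M x y : ℚ) * v y = (if y = x then ((r : ℚ) - l) * v x else 0) + l * v y := by
          intro y
          by_cases h : y = x
          · subst h
            rw [hMeq, if_pos rfl]
            ring
          · rw [hMne x y (Ne.symm h), if_neg h]
            ring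
        simp only [h6, Finset.sum_add_distrib, Finset.mul_sum]
        simp
      rw [← h5]
      exact h1
    have hrl : (0 : ℚ) < (r : ℚ) - l := by
      have : (l : ℚ) < r := by exact_mod_cast hlr
      linarith
    have hconst : ∀ x y, v x = v y := by
      intro x y
      have h1 := hkey x
      have h3 := hkey y
      have h4 : ((r : ℚ) - l) * (v x - v y) = 0 := by linarith
      rcases mul_eq_zero.1 h4 with h5 | h5
      · exact absurd h5 hrl.ne'
      · linarith
    funext x
    have h1 : ∑ y, v y = (Fintype.card X : ℚ) * v x := by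
      have : ∀ y ∈ Finset.univ, v y = v x := fun y _ => hconst y x
      rw [Finset.sum_congr rfl this]
      simp
    have h3 := hkey x
    rw [h1] at h3
    have h4 : (((r : ℚ) - l) + l * Fintype.card X) * v x = 0 := by linarith
    rcases mul_eq_zero.1 h4 with h5 | h5
    · exfalso
      have h6 : (0 : ℚ) ≤ (l : ℚ) * Fintype.card X := by positivity
      linarith
    · simpa using h5
  have h5 := LinearMap.finrank_le_finrank_of_injective hTinj
  simp only [Module.finrank_fintype_fun_eq_card] at h5
  rw [Subgroup.index_eq_card, Nat.card_eq_fintype_card, Nat.card_eq_fintype_card] at hidx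
  omega

end Cfsg.Agent.Lib.MinIndex.U3.Fisher
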