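import Mathlib
import Cfsg.Agent.Lib.MinIndex.U3.Base
import Cfsg.Agent.Lib.MinIndex.U3.Fisher
import Cfsg.Agent.Lib.MinIndex.UFinal

/-!
# Isotropic points of `SU₃(q)`: the transitivity of subgroups of small index
-/

set_option autoImplicit false
set_option linter.unusedSectionVars false
set_option linter.unusedSimpArgs false
set_option linter.unusedVariables false
set_option linter.style.haveILetI false

open scoped Matrix
open Cfsg
open Cfsg.Agent.Lib.Classical.Herm.Basic Cfsg.Agent.Lib.Classical.Herm.Form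
open Cfsg.Agent.Lib.Classical.Herm.GU Cfsg.Agent.Lib.Classical.Herm.SU
open Cfsg.Agent.Lib.Classical.Herm.Tv Cfsg.Agent.Lib.Classical.Herm.Comm
open Cfsg.Agent.Lib.Classical.Herm.Unip Cfsg.Agent.Lib.Classical.Herm.SU3Sylow
open Cfsg.Agent.Lib.Classical.Herm.SU3Invol
open Cfsg.Agent.Lib.MinIndex.UFinal Cfsg.Agent.Lib.MinIndex.U3.Base Cfsg.Agent.Lib.MinIndex.U3.Fisher

namespace Cfsg.Agent.Lib.MinIndex.U3.Points

variable {F : Type*} [Field F] [Fintype F] {q : ℕ}

local notation "⟪" x ", " y "⟫" => hermForm _ _ q x y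

variable (hF : Fintype.card F = q ^ 2)

include hF

theorem finite_SU3 : Finite (SU 3 F q) := inferInstance

theorem card_SU3 : Nat.card (SU 3 F q) = q ^ 3 * (q ^ 2 - 1) * (q ^ 3 + 1) := by
  have h1 := card_SU hF (n := 3) (by norm_num)
  have hq := two_le_q hF
  simp only [Finset.prod_range_succ, Finset.prod_range_zero, one_mul] at h1
  norm_num at h1
  have h2 : (q + 1) * Nat.card (SU 3 F q) = (q + 1) * (q ^ 3 * (q ^ 2 - 1) * (q ^ 3 + 1)) := by
    rw [h1]
    ring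
  exact Nat.eq_of_mul_eq_mul_left (by omega) h2

/-- Orthogonal isotropic vectors are proportional. -/
theorem iso_eq_smul_of_perp {x y : Fin 3 → F} (hx : ⟪x, x⟫ = 0) (hx0 : x ≠ 0) (hy : ⟪y, y⟫ = 0) (hy0 : y ≠ 0)
    (h : ⟪x, y⟫ = 0) : ∃ l : F, l ≠ 0 ∧ y = l • x := by
  obtain ⟨f, w, ht⟩ := exists_triple hF hx hx0
  have h1 := ht.eq_smul_of_perp hF hy (hermForm_symm_zero hF h)
  refine ⟨_, ?_, h1⟩
  intro h0
  rw [h0, zero_smul] at h1
  exact hy0 h1

variable {e : Fin 3 → F} (he : hermForm 3 F q e e = 0) (he0 : e ≠ 0)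

omit hF in
theorem coset_eq_iff {g g' : SU 3 F q} :
    ((g : SU 3 F q ⧸ lineStab 3 q e he0) = (g' : SU 3 F q ⧸ lineStab 3 q e he0)) ↔
      ∃ l : F, l ≠ 0 ∧ act g' e = l • act g e := by
  rw [QuotientGroup.eq]
  constructor
  · rintro ⟨l, hl, h⟩
    refine ⟨l, hl, ?_⟩
    rw [act_mul] at h
    have h1 := act_act_inv g (act g' e)
    rw [h, act_smul] at h1
    exact h1.symm
  · rintro ⟨l, hl, h⟩
    refine ⟨l, hl, ?_⟩
    rw [act_mul, h, act_smul, act_inv_act]

include he he0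

theorem exists_g_eq {x : Fin 3 → F} (hx : ⟪x, x⟫ = 0) (hx0 : x ≠ 0) : ∃ g : SU 3 F q, act g e = x := by
  obtain ⟨g, -, hg⟩ := reach_iso hF (by norm_num : 3 ≤ 3) he hx he0 hx0
  exact ⟨g, hg⟩

/-- The action on the isotropic points is doubly transitive. -/
theorem two_trans (hq : 3 ≤ q) (a b a' b' : SU 3 F q ⧸ lineStab 3 q e he0) (hab : a ≠ b) (hab' : a' ≠ b') :
    ∃ g : SU 3 F q, g • a = a' ∧ g • b = b' := by
  obtain ⟨g₁, rfl⟩ := QuotientGroup.mk_surjective a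
  obtain ⟨g₂, rfl⟩ := QuotientGroup.mk_surjective b
  obtain ⟨g₃, rfl⟩ := QuotientGroup.mk_surjective a'
  obtain ⟨g₄, rfl⟩ := QuotientGroup.mk_surjective b'
  have key : ∀ g g' : SU 3 F q, ((g : SU 3 F q ⧸ lineStab 3 q e he0) ≠ (g' : SU 3 F q ⧸ lineStab 3 q e he0)) →
      ⟪act g e, act g' e⟫ ≠ 0 := by
    intro g g' hne h0
    apply hne
    rw [coset_eq_iff]
    exact iso_eq_smul_of_perp hF (by rw [h_act]; exact he) (act_ne_zero g he0) (by rw [h_act]; exact he)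
      (act_ne_zero g' he0) h0
  have c1 := key _ _ hab
  have c2 := key _ _ hab'
  set c := ⟪act g₁ e, act g₂ e⟫ with hc
  set c' := ⟪act g₃ e, act g₄ e⟫ with hc'
  obtain ⟨t, -, h1, h2⟩ := reach_pair hF (n := 3) (Or.inr ⟨le_refl 3, hq⟩)
    (x := c⁻¹ • act g₁ e) (y := act g₂ e) (x' := c'⁻¹ • act g₃ e) (y' := act g₄ e)
    (by rw [hermForm_smul_left, hermForm_smul_right, h_act, he]; ring) (by rw [h_act]; exact he)
    (by rw [hermForm_smul_left, ← hc, inv_mul_cancel₀ c1])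
    (by rw [hermForm_smul_left, hermForm_smul_right, h_act, he]; ring) (by rw [h_act]; exact he)
    (by rw [hermForm_smul_left, ← hc', inv_mul_cancel₀ c2])
  refine ⟨t, ?_, ?_⟩
  · change ((t * g₁ : SU 3 F q) : SU 3 F q ⧸ lineStab 3 q e he0) = g₃
    rw [coset_eq_iff]
    refine ⟨c' * c⁻¹, mul_ne_zero (by exact c2) (inv_ne_zero c1), ?_⟩
    rw [act_mul]
    rw [act_smul] at h1
    have h3 : act t (act g₁ e) = c • (c'⁻¹ • act g₃ e) := by
      rw [← h1, smul_smul, mul_inv_cancel₀ c1, one_smul]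
    rw [h3, smul_smul, smul_smul]
    have : c' * c⁻¹ * c * c'⁻¹ = 1 := by
      field_simp
    rw [this, one_smul]
  · change ((t * g₂ : SU 3 F q) : SU 3 F q ⧸ lineStab 3 q e he0) = g₄
    rw [coset_eq_iff]
    exact ⟨1, one_ne_zero, by rw [act_mul, h2, one_smul]⟩

theorem index_L : (lineStab 3 q e he0).index = q ^ 3 + 1 := by
  obtain ⟨f, w, ht⟩ := exists_triple hF he he0
  refine index_lineStab hF (n := 3) (by norm_num) (N := q ^ 3 + 1) ?_ he he0 ht.hef
  rw [card_isoC_if hF 3, if_neg (by decide)]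
  norm_num
  ring

theorem card_L : Nat.card (lineStab 3 q e he0) = q ^ 3 * (q ^ 2 - 1) := by
  have h1 := Subgroup.card_mul_index (lineStab 3 q e he0)
  rw [index_L hF he he0, card_SU3 hF] at h1
  exact Nat.eq_of_mul_eq_mul_right (by omega) h1

variable (H : Subgroup (SU 3 F q))

/-- A subgroup of index at most `q³` is transitive on isotropic points. -/
theorem trans_coset (hq : 3 ≤ q) (hd : H.index ≤ q ^ 3) (a b : SU 3 F q ⧸ lineStab 3 q e he0) :
    ∃ h ∈ H, h • a = b := by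
  refine transitive_of_index_lt H (two_trans hF he he0 hq) ?_ a b
  rw [← Subgroup.index_eq_card, index_L hF he he0]
  omega

theorem trans_vec (hq : 3 ≤ q) (hd : H.index ≤ q ^ 3) {x y : Fin 3 → F} (hx : ⟪x, x⟫ = 0) (hx0 : x ≠ 0)
    (hy : ⟪y, y⟫ = 0) (hy0 : y ≠ 0) : ∃ h ∈ H, ∃ c : F, c ≠ 0 ∧ act h x = c • y := by
  obtain ⟨g, rfl⟩ := exists_g_eq hF he he0 hx hx0
  obtain ⟨g', rfl⟩ := exists_g_eq hF he he0 hy hy0
  obtain ⟨h, hh, h1⟩ := trans_coset hF he he0 H hq hd (g : SU 3 F q ⧸ lineStab 3 q e he0) g'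
  change ((h * g : SU 3 F q) : SU 3 F q ⧸ lineStab 3 q e he0) = g' at h1
  rw [eq_comm, coset_eq_iff] at h1
  obtain ⟨l, hl, h2⟩ := h1
  exact ⟨h, hh, l, hl, by rw [← act_mul]; exact h2⟩

/-- The order of the stabiliser in `H` of an isotropic point. -/
theorem card_inf_mul (hq : 3 ≤ q) (hd : H.index ≤ q ^ 3) :
    Nat.card ((H ⊓ lineStab 3 q e he0 : Subgroup (SU 3 F q))) * H.index = q ^ 3 * (q ^ 2 - 1) := by
  classical
  have h1 : (lineStab 3 q e he0).relIndex H = q ^ 3 + 1 := by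
    have htr : MulAction.IsPretransitive H (SU 3 F q ⧸ lineStab 3 q e he0) := by
      refine ⟨fun a b => ?_⟩
      obtain ⟨h, hh, h2⟩ := trans_coset hF he he0 H hq hd a b
      exact ⟨⟨h, hh⟩, h2⟩
    have h2 := MulAction.index_stabilizer_of_transitive H ((1 : SU 3 F q) : SU 3 F q ⧸ lineStab 3 q e he0)
    have h3 : MulAction.stabilizer H ((1 : SU 3 F q) : SU 3 F q ⧸ lineStab 3 q e he0) =
        (lineStab 3 q e he0).subgroupOf H := by
      ext ⟨x, hx⟩
      rw [MulAction.mem_stabilizer_iff, Subgroup.mem_subgroupOf]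
      change ((x * 1 : SU 3 F q) : SU 3 F q ⧸ lineStab 3 q e he0) = (1 : SU 3 F q) ↔ _
      rw [eq_comm, QuotientGroup.eq]
      simp
    rw [h3, ← Subgroup.index_eq_card, index_L hF he he0] at h2
    exact h2
  have h2 : (H ⊓ lineStab 3 q e he0).index = H.index * (q ^ 3 + 1) := by
    rw [← Subgroup.relIndex_mul_index (inf_le_left : H ⊓ lineStab 3 q e he0 ≤ H), Subgroup.inf_relIndex_left, h1, mul_comm]
  have h3 := Subgroup.card_mul_index (H ⊓ lineStab 3 q e he0)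
  rw [h2, card_SU3 hF] at h3
  have h4 : (Nat.card ((H ⊓ lineStab 3 q e he0 : Subgroup (SU 3 F q))) * H.index) * (q ^ 3 + 1) =
      (q ^ 3 * (q ^ 2 - 1)) * (q ^ 3 + 1) := by
    rw [mul_assoc]
    exact h3
  exact Nat.eq_of_mul_eq_mul_right (by omega) h4

end Cfsg.Agent.Lib.MinIndex.U3.Points
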