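import Mathlib
import Cfsg.Agent.Lib.MinIndex.U3.Points
import Cfsg.Agent.Lib.MinIndex.U3.DF

/-!
# The stabiliser of a nondegenerate line in `SU₃(q)` and its map to `PSL₂(q²)`
-/

set_option autoImplicit false
set_option linter.unusedSectionVars false
set_option linter.unusedSimpArgs false
set_option linter.unusedVariables false
set_option linter.style.haveILetI false

open scoped Matrix MatrixGroups
open Cfsg
open Cfsg.Agent.Lib.Classical.Herm.Basic Cfsg.Agent.Lib.Classical.Herm.Form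
open Cfsg.Agent.Lib.Classical.Herm.GU Cfsg.Agent.Lib.Classical.Herm.SU
open Cfsg.Agent.Lib.Classical.Herm.Tv Cfsg.Agent.Lib.Classical.Herm.Comm
open Cfsg.Agent.Lib.Classical.Herm.Unip Cfsg.Agent.Lib.Classical.Herm.SU3Sylow
open Cfsg.Agent.Lib.Classical.Herm.SU3Invol
open Cfsg.Agent.Lib.MinIndex.UFinal Cfsg.Agent.Lib.MinIndex.U3.Base Cfsg.Agent.Lib.MinIndex.U3.Points
open Cfsg.Agent.Lib.PSL2.Basic

namespace Cfsg.Agent.Lib.MinIndex.U3.Line

variable {F : Type*} [Field F] [Fintype F] {q : ℕ}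

local notation "⟪" x ", " y "⟫" => hermForm _ _ q x y

section Triple

variable {e f w : Fin 3 → F} (ht : IsTriple q e f w)

include ht

theorem w_ne : w ≠ 0 := by
  rintro rfl
  have := ht.hww
  rw [hermForm_zero_left] at this
  exact zero_ne_one this

theorem e_ne : e ≠ 0 := by
  rintro rfl
  have := ht.hef
  rw [hermForm_zero_left] at this
  exact zero_ne_one this

variable (hF : Fintype.card F = q ^ 2)

include hF

theorem f_ne : f ≠ 0 := by
  rintro rfl
  have := ht.hfe hF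
  rw [hermForm_zero_left] at this
  exact zero_ne_one this

variable {g h : SU 3 F q}

theorem form_perp (hg : g ∈ lineStab 3 q w (w_ne ht)) {z : Fin 3 → F} (hz : ⟪z, w⟫ = 0) : ⟪act g z, w⟫ = 0 := by
  obtain ⟨m, hm, h1⟩ := hg
  have h2 := h_act (q := q) g z w
  rw [h1, hermForm_smul_right, hz] at h2
  exact (mul_eq_zero.mp h2).resolve_left (pow_ne_zero _ hm)

theorem act_perp (hg : g ∈ lineStab 3 q w (w_ne ht)) {z : Fin 3 → F} (hz : ⟪z, w⟫ = 0) :
    act g z = ⟪act g z, f⟫ • e + ⟪act g z, e⟫ • f := by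
  have d := ht.decomp hF (act g z)
  rw [form_perp ht hF hg hz, zero_smul, add_zero] at d
  exact d

theorem act_e (hg : g ∈ lineStab 3 q w (w_ne ht)) : act g e = ⟪act g e, f⟫ • e + ⟪act g e, e⟫ • f :=
  act_perp ht hF hg (ht.hew hF)

theorem act_f (hg : g ∈ lineStab 3 q w (w_ne ht)) : act g f = ⟪act g f, f⟫ • e + ⟪act g f, e⟫ • f :=
  act_perp ht hF hg (ht.hfw hF)

theorem act_w_eq (hg : g ∈ lineStab 3 q w (w_ne ht)) : act g w = ⟪act g w, w⟫ • w := by
  obtain ⟨m, hm, h1⟩ := hg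
  rw [h1, hermForm_smul_left, ht.hww, mul_one]

/-- The four coordinates of a product. -/
theorem coords_mul (hg : g ∈ lineStab 3 q w (w_ne ht)) (hh : h ∈ lineStab 3 q w (w_ne ht)) :
    ⟪act (g * h) e, f⟫ = ⟪act g e, f⟫ * ⟪act h e, f⟫ + ⟪act g f, f⟫ * ⟪act h e, e⟫ ∧
    ⟪act (g * h) f, f⟫ = ⟪act g e, f⟫ * ⟪act h f, f⟫ + ⟪act g f, f⟫ * ⟪act h f, e⟫ ∧
    ⟪act (g * h) e, e⟫ = ⟪act g e, e⟫ * ⟪act h e, f⟫ + ⟪act g f, e⟫ * ⟪act h e, e⟫ ∧
    ⟪act (g * h) f, e⟫ = ⟪act g e, e⟫ * ⟪act h f, f⟫ + ⟪act g f, e⟫ * ⟪act h f, e⟫ := by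
  have h1 : act (g * h) e = ⟪act h e, f⟫ • act g e + ⟪act h e, e⟫ • act g f := by
    rw [act_mul]
    conv_lhs => rw [act_e ht hF hh, act_add, act_smul, act_smul]
  have h2 : act (g * h) f = ⟪act h f, f⟫ • act g e + ⟪act h f, e⟫ • act g f := by
    rw [act_mul]
    conv_lhs => rw [act_f ht hF hh, act_add, act_smul, act_smul]
  rw [h1, h2]
  simp only [hermForm_add_left, hermForm_smul_left]
  refine ⟨by ring, by ring, by ring, by ring⟩

theorem det_rel (hg : g ∈ lineStab 3 q w (w_ne ht)) :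
    (⟪act g e, f⟫ * ⟪act g f, e⟫ - ⟪act g f, f⟫ * ⟪act g e, e⟫) * ⟪act g w, w⟫ = 1 := by
  have h1 := det_coord hF ht g
  have hw := act_w_eq ht hF hg
  have a1 : ⟪act g w, f⟫ = 0 := by rw [hw, hermForm_smul_left, ht.hwf, mul_zero]
  have a2 : ⟪act g w, e⟫ = 0 := by rw [hw, hermForm_smul_left, ht.hwe, mul_zero]
  have a3 : ⟪act g e, w⟫ = 0 := form_perp ht hF hg (ht.hew hF)
  have a4 : ⟪act g f, w⟫ = 0 := form_perp ht hF hg (ht.hfw hF)
  rw [Matrix.det_fin_three] at h1
  simp [a1, a2, a3, a4] at h1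
  linear_combination h1

theorem norm_w (hg : g ∈ lineStab 3 q w (w_ne ht)) : ⟪act g w, w⟫ ^ (q + 1) = 1 := by
  have hw := act_w_eq ht hF hg
  have h1 := h_act (q := q) g w w
  rw [hw, hermForm_smul_left, hermForm_smul_right, ht.hww] at h1
  rw [pow_succ]
  linear_combination h1

omit ht in
theorem exists_sq {x : F} (hx : x ^ (q + 1) = 1) : ∃ k : F, k ≠ 0 ∧ k * k = x := by
  have hx0 : x ≠ 0 := by
    rintro rfl
    rw [zero_pow (by omega)] at hx
    exact zero_ne_one hx
  have hsq : IsSquare x := by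
    by_cases hc : ringChar F = 2
    · exact FiniteField.isSquare_of_char_two hc x
    · rw [FiniteField.isSquare_iff hc hx0, hF]
      have hodd : Odd q := by
        obtain ⟨p, k, hp, hc', hk⟩ := exists_char_pow hF
        have h3 : ringChar F = p := by
          haveI := hc'
          exact ringChar.eq F p
        rw [hk]
        exact (hp.odd_of_ne_two (by rw [← h3]; exact hc)).pow
      obtain ⟨r, rfl⟩ := hodd
      have : (2 * r + 1) ^ 2 / 2 = (2 * r + 1 + 1) * r := by
        have : (2 * r + 1) ^ 2 = 2 * ((2 * r + 1 + 1) * r) + 1 := by ring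
        omega
      rw [this, pow_mul, hx, one_pow]
  obtain ⟨k, hk⟩ := hsq
  refine ⟨k, ?_, hk.symm⟩
  rintro rfl
  rw [zero_mul] at hk
  exact hx0 hk

theorem exists_kap (hg : g ∈ lineStab 3 q w (w_ne ht)) : ∃ k : F, k ≠ 0 ∧
    k * k = ⟪act g e, f⟫ * ⟪act g f, e⟫ - ⟪act g f, f⟫ * ⟪act g e, e⟫ := by
  apply exists_sq hF
  have h1 := det_rel ht hF hg
  have h2 := norm_w ht hF hg
  have h3 := congrArg (fun z => z ^ (q + 1)) h1
  simp only [mul_pow, h2, mul_one, one_pow] at h3
  exact h3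

/-- The scalar normalising the determinant. -/
noncomputable def kap (g : lineStab 3 q w (w_ne ht)) : F := Classical.choose (exists_kap ht hF g.2)

theorem kap_ne (g : lineStab 3 q w (w_ne ht)) : kap ht hF g ≠ 0 := (Classical.choose_spec (exists_kap ht hF g.2)).1

theorem kap_sq (g : lineStab 3 q w (w_ne ht)) : kap ht hF g * kap ht hF g =
    ⟪act g.1 e, f⟫ * ⟪act g.1 f, e⟫ - ⟪act g.1 f, f⟫ * ⟪act g.1 e, e⟫ :=
  (Classical.choose_spec (exists_kap ht hF g.2)).2

/-- The matrix of determinant one attached to an element stabilising `w`. -/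
noncomputable def slm (g : lineStab 3 q w (w_ne ht)) : SL(2, F) :=
  sl2 ((kap ht hF g)⁻¹ * ⟪act g.1 e, f⟫) ((kap ht hF g)⁻¹ * ⟪act g.1 f, f⟫)
    ((kap ht hF g)⁻¹ * ⟪act g.1 e, e⟫) ((kap ht hF g)⁻¹ * ⟪act g.1 f, e⟫) (by
      have h1 := kap_sq ht hF g
      have h2 := kap_ne ht hF g
      field_simp
      linear_combination -h1)

/-- The map to `PSL₂(q²)`. -/
noncomputable def phi : lineStab 3 q w (w_ne ht) →* PSL(2, F) :=
  MonoidHom.mk' (fun g => mkP (slm ht hF g)) (by
    intro a b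
    rw [← map_mul, mkP_eq_iff]
    have ha := kap_sq ht hF a
    have hb := kap_sq ht hF b
    have hab := kap_sq ht hF (a * b)
    have ha0 := kap_ne ht hF a
    have hb0 := kap_ne ht hF b
    have hab0 := kap_ne ht hF (a * b)
    obtain ⟨c1, c2, c3, c4⟩ := coords_mul ht hF a.2 b.2
    change ⟪act (a.1 * b.1) e, f⟫ = _ at c1
    have hsq : kap ht hF (a * b) * kap ht hF (a * b) = (kap ht hF a * kap ht hF b) * (kap ht hF a * kap ht hF b) := by
      have e1 : ((a * b : lineStab 3 q w (w_ne ht)) : SU 3 F q) = a.1 * b.1 := rfl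
      rw [hab, e1, c1, c2, c3, c4]
      linear_combination (-(kap ht hF a * kap ht hF a) - (⟪act a.1 e, f⟫ * ⟪act a.1 f, e⟫ - ⟪act a.1 f, f⟫ * ⟪act a.1 e, e⟫)) * hb * 0 + (kap ht hF b * kap ht hF b) * (-ha) + (⟪act a.1 e, f⟫ * ⟪act a.1 f, e⟫ - ⟪act a.1 f, f⟫ * ⟪act a.1 e, e⟫) * (-hb)
    simp only [act_mul] at c1 c2 c3 c4
    rcases mul_self_eq_mul_self_iff.1 hsq with h | h
    · left
      apply ext2
      · simp [slm, h, c1]
        field_simp
      · simp [slm, h, c2]
        field_simp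
      · simp [slm, h, c3]
        field_simp
      · simp [slm, h, c4]
        field_simp
    · right
      apply ext2
      · simp [slm, h, c1]
        field_simp
      · simp [slm, h, c2]
        field_simp
      · simp [slm, h, c3]
        field_simp
      · simp [slm, h, c4]
        field_simp)

theorem phi_apply (g : lineStab 3 q w (w_ne ht)) : phi ht hF g = mkP (slm ht hF g) := rfl

/-- The elements acting as a scalar on the line. -/
theorem phi_eq_one_iff (g : lineStab 3 q w (w_ne ht)) :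
    phi ht hF g = 1 ↔ ⟪act g.1 f, f⟫ = 0 ∧ ⟪act g.1 e, e⟫ = 0 ∧ ⟪act g.1 e, f⟫ = ⟪act g.1 f, e⟫ := by
  rw [phi_apply, mkP_eq_one_iff]
  have h0 := kap_ne ht hF g
  have hs := kap_sq ht hF g
  constructor
  · rintro (h | h)
    · have h00 := congrArg (fun X : SL(2, F) => X.1 0 0) h
      have h01 := congrArg (fun X : SL(2, F) => X.1 0 1) h
      have h10 := congrArg (fun X : SL(2, F) => X.1 1 0) h
      have h11 := congrArg (fun X : SL(2, F) => X.1 1 1) h
      simp [slm, h0] at h00 h01 h10 h11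
      refine ⟨h01, h10, ?_⟩
      field_simp at h00 h11
      rw [h00, h11]
    · have h00 := congrArg (fun X : SL(2, F) => X.1 0 0) h
      have h01 := congrArg (fun X : SL(2, F) => X.1 0 1) h
      have h10 := congrArg (fun X : SL(2, F) => X.1 1 0) h
      have h11 := congrArg (fun X : SL(2, F) => X.1 1 1) h
      simp [slm, h0] at h00 h01 h10 h11
      refine ⟨h01, h10, ?_⟩
      field_simp at h00 h11
      rw [h00, h11]
  · rintro ⟨h1, h2, h3⟩
    rw [h1, h2, ← h3] at hs
    have h4 : kap ht hF g * kap ht hF g = ⟪act g.1 e, f⟫ * ⟪act g.1 e, f⟫ := by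
      rw [hs]
      ring
    rcases mul_self_eq_mul_self_iff.1 h4 with h5 | h5
    · left
      apply ext2
      · simp [slm, ← h5, h0]
      · simp [slm, h1]
      · simp [slm, h2]
      · simp [slm, ← h3, ← h5, h0]
    · right
      apply ext2
      · simp [slm]
        rw [show ⟪act g.1 e, f⟫ = - kap ht hF g by rw [h5]; ring]
        field_simp
      · simp [slm, h1]
      · simp [slm, h2]
      · simp [slm, ← h3]
        rw [show ⟪act g.1 e, f⟫ = - kap ht hF g by rw [h5]; ring]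
        field_simp

end Triple

end Cfsg.Agent.Lib.MinIndex.U3.Line
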