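import Mathlib
import Cfsg.Agent.Lib.MinIndex.U3.Line

/-!
# Subgroups of the stabiliser of a nondegenerate line transitive on its isotropic points
-/

set_option autoImplicit false
set_option linter.unusedSectionVars false
set_option linter.unusedSimpArgs false
set_option linter.unusedVariables false
set_option linter.style.haveILetI false

open scoped Matrix MatrixGroups
open Cfsg
open Cfsg.Agent.Lib.Classical.Herm.Basic Cfsg.Agent.Lib.Classical.Herm.Form
open Cfsg.Agent.Lib.Classical.Herm.GU Cfsg.Agent.Lib.Classical.Herm.SU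
open Cfsg.Agent.Lib.Classical.Herm.Tv Cfsg.Agent.Lib.Classical.Herm.Comm
open Cfsg.Agent.Lib.Classical.Herm.Unip Cfsg.Agent.Lib.Classical.Herm.SU3Sylow
open Cfsg.Agent.Lib.Classical.Herm.SU3Invol Cfsg.Agent.Lib.Classical.Herm.Subfield
open Cfsg.Agent.Lib.MinIndex.UFinal Cfsg.Agent.Lib.MinIndex.U3.Base Cfsg.Agent.Lib.MinIndex.U3.Points
open Cfsg.Agent.Lib.MinIndex.U3.Line Cfsg.Agent.Lib.MinIndex.U3.DF
open Cfsg.Agent.Lib.PSL2.Basic

namespace Cfsg.Agent.Lib.MinIndex.U3.LineMain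

/-- A subgroup given by the fibres of a surjection. -/
theorem index_eq_of_fiber {Γ Y : Type*} [Group Γ] (E : Subgroup Γ) (π : Γ → Y) (hs : Function.Surjective π)
    (hf : ∀ a b, π a = π b ↔ a⁻¹ * b ∈ E) : E.index = Nat.card Y := by
  rw [Subgroup.index_eq_card]
  apply Nat.card_congr
  refine Equiv.ofBijective (Quotient.lift π (fun a b h => (hf a b).2 (QuotientGroup.leftRel_apply.1 h))) ⟨?_, ?_⟩
  · intro a b
    induction a using QuotientGroup.induction_on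
    induction b using QuotientGroup.induction_on
    intro h
    exact QuotientGroup.eq.2 ((hf _ _).1 h)
  · intro y
    obtain ⟨a, rfl⟩ := hs y
    exact ⟨(a : Γ ⧸ E), rfl⟩

/-- Index at most two, elementwise. -/
theorem index_le_two {Γ : Type*} [Group Γ] (A : Subgroup Γ) (h : ∀ a b, a ∉ A → b ∉ A → a⁻¹ * b ∈ A) :
    A.index ≤ 2 := by
  by_cases h0 : ∃ a₀, a₀ ∉ A
  · obtain ⟨a₀, ha₀⟩ := h0
    rw [Subgroup.index_eq_card]
    have hs : Function.Surjective (fun b : Bool => if b then ((1 : Γ) : Γ ⧸ A) else ((a₀ : Γ) : Γ ⧸ A)) := by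
      intro x
      induction x using QuotientGroup.induction_on with
      | H x =>
        by_cases hx : x ∈ A
        · refine ⟨true, ?_⟩
          simp only [if_true]
          rw [QuotientGroup.eq]
          simpa using hx
        · refine ⟨false, ?_⟩
          simp only [Bool.false_eq_true, if_false]
          rw [QuotientGroup.eq]
          exact h _ _ ha₀ hx
    have := Nat.card_le_card_of_surjective _ hs
    simpa using this
  · push Not at h0
    have : A = ⊤ := by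
      rw [eq_top_iff]
      intro x _
      exact h0 x
    rw [this, Subgroup.index_top]
    norm_num

variable {F : Type*} [Field F] [Fintype F] {q : ℕ}

local notation "⟪" x ", " y "⟫" => hermForm _ _ q x y

variable (hF : Fintype.card F = q ^ 2)

include hF

/-- The number of elements with trace zero. -/
theorem card_T : Nat.card {y : F // y + y ^ q = 0} = q := by
  obtain ⟨y₀, h0, hy⟩ := exists_trace_zero hF
  refine Eq.trans ?_ (card_fixed hF)
  symm
  apply Nat.card_congr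
  refine
    { toFun := fun x => ⟨x.1 * y₀, ?_⟩
      invFun := fun y => ⟨y.1 / y₀, ?_⟩
      left_inv := ?_
      right_inv := ?_ }
  · rw [mul_pow, x.2, hy]
    ring
  · have h1 : y.1 ^ q = - y.1 := by linear_combination y.2
    rw [div_pow, h1, hy]
    field_simp
  · intro x
    apply Subtype.ext
    change x.1 * y₀ / y₀ = x.1
    field_simp
  · intro y
    apply Subtype.ext
    change y.1 / y₀ * y₀ = y.1
    field_simp

variable {e f w : Fin 3 → F} (ht : IsTriple q e f w)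

include ht

/-- The elements acting as scalars on the line. -/
noncomputable def Sc : Subgroup (SU 3 F q) := (phi ht hF).ker.map (lineStab 3 q w (w_ne ht)).subtype

theorem mem_Sc {g : SU 3 F q} : g ∈ Sc hF ht ↔ ∃ hg : g ∈ lineStab 3 q w (w_ne ht), phi ht hF ⟨g, hg⟩ = 1 := by
  constructor
  · rintro ⟨⟨g', hg'⟩, h1, rfl⟩
    exact ⟨hg', h1⟩
  · rintro ⟨hg, h1⟩
    exact ⟨⟨g, hg⟩, h1, rfl⟩

/-- The restriction of `phi`. -/
noncomputable def phiOn (A : Subgroup (SU 3 F q)) (hA : A ≤ lineStab 3 q w (w_ne ht)) : A →* PSL(2, F) :=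
  (phi ht hF).comp (Subgroup.inclusion hA)

/-- The image of `A` in `PSL₂(q²)`. -/
noncomputable def Kof (A : Subgroup (SU 3 F q)) (hA : A ≤ lineStab 3 q w (w_ne ht)) : Subgroup PSL(2, F) :=
  (phiOn hF ht A hA).range

theorem card_Kof (A : Subgroup (SU 3 F q)) (hA : A ≤ lineStab 3 q w (w_ne ht)) :
    Nat.card (Kof hF ht A hA) * Nat.card ↥(A ⊓ Sc hF ht) = Nat.card A := by
  have h1 := Subgroup.card_mul_index (phiOn hF ht A hA).ker
  rw [Subgroup.index_ker] at h1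
  have h2 : ((phiOn hF ht A hA).ker).map A.subtype = A ⊓ Sc hF ht := by
    ext g
    constructor
    · rintro ⟨⟨g', hg'⟩, h3, rfl⟩
      refine ⟨hg', (mem_Sc hF ht).2 ⟨hA hg', h3⟩⟩
    · rintro ⟨h3, h4⟩
      obtain ⟨hg, h5⟩ := (mem_Sc hF ht).1 h4
      exact ⟨⟨g, h3⟩, h5, rfl⟩
  have h3 : Nat.card ↥(A ⊓ Sc hF ht) = Nat.card (phiOn hF ht A hA).ker := by
    rw [← h2]
    exact Subgroup.card_map_of_injective A.subtype_injective
  rw [h3, mul_comm]
  exact h1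

theorem Kof_mono {A A' : Subgroup (SU 3 F q)} (hA : A' ≤ lineStab 3 q w (w_ne ht)) (hle : A ≤ A') :
    Kof hF ht A (hle.trans hA) ≤ Kof hF ht A' hA := by
  rintro x ⟨⟨g, hg⟩, rfl⟩
  exact ⟨⟨g, hle hg⟩, rfl⟩

theorem mem_Kof {A : Subgroup (SU 3 F q)} (hA : A ≤ lineStab 3 q w (w_ne ht)) {g : SU 3 F q} (hg : g ∈ A) :
    phi ht hF ⟨g, hA hg⟩ ∈ Kof hF ht A hA :=
  ⟨⟨g, hg⟩, rfl⟩

/-- Coordinates of an isotropic vector in the line. -/
theorem iso_coords {x : Fin 3 → F} (hx : ⟪x, x⟫ = 0) (hxw : ⟪x, w⟫ = 0) :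
    ⟪x, f⟫ * ⟪x, e⟫ ^ q + ⟪x, e⟫ * ⟪x, f⟫ ^ q = 0 := by
  have d := ht.decomp hF x
  rw [hxw, zero_smul, add_zero] at d
  have h1 := hx
  rw [d] at h1
  simp only [hermForm_add_left, hermForm_add_right hF, hermForm_smul_left, hermForm_smul_right, ht.he, ht.hf,
    ht.hef, ht.hfe hF] at h1
  linear_combination h1

theorem ratio_trace {x : Fin 3 → F} (hx : ⟪x, x⟫ = 0) (hxw : ⟪x, w⟫ = 0) (h : ⟪x, e⟫ ≠ 0) :
    ⟪x, f⟫ / ⟪x, e⟫ + (⟪x, f⟫ / ⟪x, e⟫) ^ q = 0 := by
  have h1 := iso_coords hF ht hx hxw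
  rw [div_pow]
  have h2 : ⟪x, e⟫ ^ q ≠ 0 := pow_ne_zero _ h
  field_simp
  linear_combination h1

/-- Transitivity on the isotropic points of the line gives the index of the point stabiliser. -/
theorem index_of_trans {Γ : Subgroup (SU 3 F q)} (hΓ : Γ ≤ lineStab 3 q w (w_ne ht))
    (htr : ∀ x : Fin 3 → F, ⟪x, x⟫ = 0 → x ≠ 0 → ⟪x, w⟫ = 0 → ∃ h ∈ Γ, ∃ c : F, c ≠ 0 ∧ act h e = c • x) :
    ((lineStab 3 q e (e_ne ht)).subgroupOf Γ).index = q + 1 := by
  classical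
  have hiso : ∀ g : Γ, ⟪act g.1 e, act g.1 e⟫ = 0 := fun g => by rw [h_act]; exact ht.he
  have hperp : ∀ g : Γ, ⟪act g.1 e, w⟫ = 0 := fun g => form_perp ht hF (hΓ g.2) (ht.hew hF)
  let π : Γ → Option {y : F // y + y ^ q = 0} := fun g =>
    if h : ⟪act g.1 e, e⟫ = 0 then none
    else some ⟨⟪act g.1 e, f⟫ / ⟪act g.1 e, e⟫, ratio_trace hF ht (hiso g) (hperp g) h⟩
  have hs : Function.Surjective π := by
    intro y
    rcases y with _ | ⟨y, hy⟩
    · refine ⟨1, ?_⟩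
      simp only [π]
      rw [dif_pos]
      change ⟪act (1 : SU 3 F q) e, e⟫ = 0
      rw [act_one]
      exact ht.he
    · have h1 : ⟪f + y • e, f + y • e⟫ = 0 := by
        simp only [hermForm_add_left, hermForm_add_right hF, hermForm_smul_left, hermForm_smul_right, ht.he,
          ht.hf, ht.hef, ht.hfe hF]
        linear_combination hy
      have h2 : ⟪f + y • e, w⟫ = 0 := by
        simp only [hermForm_add_left, hermForm_smul_left, ht.hew hF, ht.hfw hF, mul_zero, add_zero]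
      have h3 : f + y • e ≠ 0 := by
        intro h0
        have h4 := congrArg (fun z => ⟪z, e⟫) h0
        simp only [hermForm_add_left, hermForm_smul_left, hermForm_zero_left, ht.he, ht.hfe hF, mul_zero,
          add_zero] at h4
        exact one_ne_zero h4
      obtain ⟨h, hh, c, hc, hhe⟩ := htr _ h1 h3 h2
      refine ⟨⟨h, hh⟩, ?_⟩
      have h5 : ⟪act h e, e⟫ = c := by
        rw [hhe]
        simp only [hermForm_add_left, hermForm_smul_left, ht.he, ht.hfe hF, mul_zero, add_zero, mul_one]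
      have h6 : ⟪act h e, f⟫ = c * y := by
        rw [hhe]
        simp only [hermForm_add_left, hermForm_smul_left, ht.hf, ht.hef, mul_zero, zero_add, mul_one]
      simp only [π]
      rw [dif_neg (by rw [h5]; exact hc)]
      congr 1
      apply Subtype.ext
      change ⟪act h e, f⟫ / ⟪act h e, e⟫ = y
      rw [h5, h6]
      field_simp
  have hf' : ∀ a b : Γ, π a = π b ↔ a⁻¹ * b ∈ (lineStab 3 q e (e_ne ht)).subgroupOf Γ := by
    intro a b
    rw [Subgroup.mem_subgroupOf]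
    have da := act_e ht hF (hΓ a.2)
    have db := act_e ht hF (hΓ b.2)
    have ha0 := act_ne_zero a.1 (e_ne ht)
    have hb0 := act_ne_zero b.1 (e_ne ht)
    have key1 : ∀ (x y : Fin 3 → F) (x₁ y₁ : F), x₁ ≠ 0 → x = x₁ • e → y = y₁ • e → y = (y₁ / x₁) • x := by
      intro x y x₁ y₁ h1 h2 h3
      rw [h2, h3, smul_smul, div_mul_cancel₀ _ h1]
    have key2 : ∀ (x y : Fin 3 → F) (x₁ x₂ y₁ y₂ : F), x₂ ≠ 0 → y₂ ≠ 0 → x₁ * y₂ = y₁ * x₂ →
        x = x₁ • e + x₂ • f → y = y₁ • e + y₂ • f → y = (y₂ / x₂) • x := by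
      intro x y x₁ x₂ y₁ y₂ h1 h2 h3 h4 h5
      rw [h4, h5]
      funext i
      simp only [Pi.add_apply, Pi.smul_apply, smul_eq_mul]
      field_simp
      linear_combination (-(e i)) * h3
    constructor
    · intro h
      suffices hs : ∃ l : F, l ≠ 0 ∧ act b.1 e = l • act a.1 e by
        obtain ⟨l, hl, h1⟩ := hs
        refine ⟨l, hl, ?_⟩
        change act (a.1⁻¹ * b.1) e = _
        rw [act_mul, h1, act_smul, act_inv_act]
      by_cases h1 : ⟪act a.1 e, e⟫ = 0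
      · by_cases h2 : ⟪act b.1 e, e⟫ = 0
        · rw [h1, zero_smul, add_zero] at da
          rw [h2, zero_smul, add_zero] at db
          have h3 : ⟪act a.1 e, f⟫ ≠ 0 := by
            intro h0
            rw [h0, zero_smul] at da
            exact ha0 da
          have h4 : ⟪act b.1 e, f⟫ ≠ 0 := by
            intro h0
            rw [h0, zero_smul] at db
            exact hb0 db
          refine ⟨⟪act b.1 e, f⟫ / ⟪act a.1 e, f⟫, div_ne_zero h4 h3, key1 _ _ _ _ h3 da db⟩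
        · simp only [π] at h
          rw [dif_pos h1, dif_neg h2] at h
          simp at h
      · by_cases h2 : ⟪act b.1 e, e⟫ = 0
        · simp only [π] at h
          rw [dif_neg h1, dif_pos h2] at h
          simp at h
        · simp only [π] at h
          rw [dif_neg h1, dif_neg h2] at h
          have h3 : ⟪act a.1 e, f⟫ / ⟪act a.1 e, e⟫ = ⟪act b.1 e, f⟫ / ⟪act b.1 e, e⟫ :=
            congrArg Subtype.val (Option.some.inj h)
          refine ⟨⟪act b.1 e, e⟫ / ⟪act a.1 e, e⟫, div_ne_zero h2 h1, ?_⟩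
          have h4 : ⟪act a.1 e, f⟫ * ⟪act b.1 e, e⟫ = ⟪act b.1 e, f⟫ * ⟪act a.1 e, e⟫ := by
            field_simp at h3
            linear_combination h3
          exact key2 _ _ _ _ _ _ h1 h2 h4 da db
    · rintro ⟨l, hl, h1⟩
      have h2 : act b.1 e = l • act a.1 e := by
        change act (a.1⁻¹ * b.1) e = _ at h1
        rw [act_mul] at h1
        have h3 := act_act_inv a.1 (act b.1 e)
        rw [h1, act_smul] at h3
        exact h3.symm
      have h3 : ⟪act b.1 e, e⟫ = l * ⟪act a.1 e, e⟫ := by rw [h2, hermForm_smul_left]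
      have h4 : ⟪act b.1 e, f⟫ = l * ⟪act a.1 e, f⟫ := by rw [h2, hermForm_smul_left]
      by_cases h5 : ⟪act a.1 e, e⟫ = 0
      · have h6 : ⟪act b.1 e, e⟫ = 0 := by rw [h3, h5, mul_zero]
        simp only [π]
        rw [dif_pos h5, dif_pos h6]
      · have h6 : ⟪act b.1 e, e⟫ ≠ 0 := by
          rw [h3]
          exact mul_ne_zero hl h5
        simp only [π]
        rw [dif_neg h5, dif_neg h6]
        congr 1
        apply Subtype.ext
        change ⟪act a.1 e, f⟫ / ⟪act a.1 e, e⟫ = ⟪act b.1 e, f⟫ / ⟪act b.1 e, e⟫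
        rw [h3, h4]
        field_simp
  rw [index_eq_of_fiber _ π hs hf', Finite.card_option, card_T hF]

theorem card_of_trans {Γ : Subgroup (SU 3 F q)} (hΓ : Γ ≤ lineStab 3 q w (w_ne ht))
    (htr : ∀ x : Fin 3 → F, ⟪x, x⟫ = 0 → x ≠ 0 → ⟪x, w⟫ = 0 → ∃ h ∈ Γ, ∃ c : F, c ≠ 0 ∧ act h e = c • x) :
    Nat.card Γ = (q + 1) * Nat.card ↥(Γ ⊓ lineStab 3 q e (e_ne ht)) := by
  have h1 := Subgroup.card_mul_index ((lineStab 3 q e (e_ne ht)).subgroupOf Γ)
  rw [index_of_trans hF ht hΓ htr] at h1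
  rw [← h1, mul_comm]
  congr 1
  have h2 := Subgroup.subgroupOf_map_subtype (lineStab 3 q e (e_ne ht)) Γ
  rw [inf_comm] at h2
  rw [← h2]
  exact (Subgroup.card_map_of_injective Γ.subtype_injective).symm

omit hF in
theorem sc_of_three_aux : True := trivial

variable {g : SU 3 F q}

/-- An element fixing the point `e` and two further points of the line acts as a scalar on it. -/
theorem three (hg : g ∈ lineStab 3 q w (w_ne ht)) (hge : ⟪act g e, e⟫ = 0) {x y : Fin 3 → F}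
    (hxw : ⟪x, w⟫ = 0) (hyw : ⟪y, w⟫ = 0) (hx : ⟪x, e⟫ ≠ 0) (hy : ⟪y, e⟫ ≠ 0)
    (hd : ⟪x, f⟫ * ⟪y, e⟫ ≠ ⟪y, f⟫ * ⟪x, e⟫) {a b : F} (ha : act g x = a • x) (hb : act g y = b • y) :
    phi ht hF ⟨g, hg⟩ = 1 := by
  rw [phi_eq_one_iff]
  have hgs : ∀ z : Fin 3 → F, ⟪z, w⟫ = 0 → ⟪act g z, e⟫ = ⟪z, e⟫ * ⟪act g f, e⟫ ∧
      ⟪act g z, f⟫ = ⟪z, f⟫ * ⟪act g e, f⟫ + ⟪z, e⟫ * ⟪act g f, f⟫ := by
    intro z hz
    have d := ht.decomp hF z
    rw [hz, zero_smul, add_zero] at d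
    have h1 : act g z = ⟪z, f⟫ • act g e + ⟪z, e⟫ • act g f := by
      conv_lhs => rw [d, act_add, act_smul, act_smul]
    rw [h1]
    simp only [hermForm_add_left, hermForm_smul_left, hge, mul_zero, zero_add, and_self]
  obtain ⟨x1, x2⟩ := hgs x hxw
  obtain ⟨y1, y2⟩ := hgs y hyw
  rw [ha, hermForm_smul_left] at x1 x2
  rw [hb, hermForm_smul_left] at y1 y2
  have hxa : a = ⟪act g f, e⟫ := by
    apply mul_right_cancel₀ hx
    rw [x1]
    ring
  have hyb : b = ⟪act g f, e⟫ := by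
    apply mul_right_cancel₀ hy
    rw [y1]
    ring
  rw [hxa] at x2
  rw [hyb] at y2
  have hAD : ⟪act g e, f⟫ = ⟪act g f, e⟫ := by
    have h3 : (⟪x, f⟫ * ⟪y, e⟫ - ⟪y, f⟫ * ⟪x, e⟫) * (⟪act g e, f⟫ - ⟪act g f, e⟫) = 0 := by
      linear_combination (-⟪y, e⟫) * x2 + ⟪x, e⟫ * y2
    rcases mul_eq_zero.1 h3 with h4 | h4
    · exact absurd (sub_eq_zero.1 h4) hd
    · exact sub_eq_zero.1 h4
  refine ⟨?_, hge, hAD⟩
  apply (mul_eq_zero.1 (?_ : ⟪x, e⟫ * ⟪act g f, f⟫ = 0)).resolve_left hx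
  rw [hAD] at x2
  linear_combination -x2

/-- A common eigenvector. -/
theorem all_sc_of_common {Γ : Subgroup (SU 3 F q)} (hΓ : Γ ≤ lineStab 3 q w (w_ne ht))
    (htr : ∀ x : Fin 3 → F, ⟪x, x⟫ = 0 → x ≠ 0 → ⟪x, w⟫ = 0 → ∃ h ∈ Γ, ∃ c : F, c ≠ 0 ∧ act h e = c • x)
    {z : Fin 3 → F} (hz0 : z ≠ 0) (hzw : ⟪z, w⟫ = 0) (hcom : ∀ g ∈ Γ, ∃ c : F, act g z = c • z)
    (hg : g ∈ Γ) (hge : g ∈ lineStab 3 q e (e_ne ht)) : phi ht hF ⟨g, hΓ hg⟩ = 1 := by
  have hfe := ht.hfe hF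
  have dz := ht.decomp hF z
  rw [hzw, zero_smul, add_zero] at dz
  have hzz : ⟪z, z⟫ = ⟪z, f⟫ * ⟪z, e⟫ ^ q + ⟪z, e⟫ * ⟪z, f⟫ ^ q := by
    conv_lhs => rw [dz]
    simp only [hermForm_add_left, hermForm_add_right hF, hermForm_smul_left, hermForm_smul_right, ht.he, ht.hf,
      ht.hef, hfe]
    ring
  by_cases hiso : ⟪z, z⟫ = 0
  · exfalso
    obtain ⟨h', hh', c', hc', h1⟩ := htr z hiso hz0 hzw
    have key : ∀ x : Fin 3 → F, ⟪x, x⟫ = 0 → x ≠ 0 → ⟪x, w⟫ = 0 → ∃ k : F, x = k • z := by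
      intro x hx hx0 hxw
      obtain ⟨h, hh, c, hc, h2⟩ := htr x hx hx0 hxw
      obtain ⟨c₀, h3⟩ := hcom (h * h'⁻¹) (Γ.mul_mem hh (Γ.inv_mem hh'))
      have h4 : act h'⁻¹ z = c'⁻¹ • e := by
        have h5 := act_inv_act h' e
        rw [h1, act_smul] at h5
        funext i
        have h6 := congrFun h5 i
        simp only [Pi.smul_apply, smul_eq_mul] at h6 ⊢
        field_simp
        linear_combination h6
      rw [act_mul, h4, act_smul, h2, smul_smul] at h3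
      refine ⟨(c'⁻¹ * c)⁻¹ * c₀, ?_⟩
      rw [mul_smul, ← h3, smul_smul, inv_mul_cancel₀ (mul_ne_zero (inv_ne_zero hc') hc), one_smul]
    by_cases h0 : ⟪z, e⟫ = 0
    · obtain ⟨k, hk⟩ := key f ht.hf (f_ne ht hF) (ht.hfw hF)
      have h2 := congrArg (fun v => ⟪v, e⟫) hk
      simp only [hermForm_smul_left, h0, mul_zero, hfe] at h2
      exact one_ne_zero h2
    · obtain ⟨k, hk⟩ := key e ht.he (e_ne ht) (ht.hew hF)
      have h2 := congrArg (fun v => ⟪v, e⟫) hk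
      simp only [hermForm_smul_left, ht.he] at h2
      have h3 : k = 0 := (mul_eq_zero.1 h2.symm).resolve_right h0
      rw [h3, zero_smul] at hk
      exact e_ne ht hk
  · obtain ⟨l, hl, hgl⟩ := hge
    have hge' : ⟪act g e, e⟫ = 0 := by rw [hgl, hermForm_smul_left, ht.he, mul_zero]
    obtain ⟨c, hc⟩ := hcom g hg
    have hc0 : c ≠ 0 := by
      rintro rfl
      rw [zero_smul] at hc
      exact act_ne_zero g hz0 hc
    have hze : ⟪z, e⟫ ≠ 0 := by
      intro h0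
      apply hiso
      rw [hzz, h0, zero_pow (by have := two_le_q hF; omega)]
      ring
    -- the perpendicular vector
    set t₁ := ⟪e, z⟫ with ht₁
    set t₂ := ⟪f, z⟫ with ht₂
    have ht₁' : t₁ = ⟪z, e⟫ ^ q := by rw [ht₁, hermForm_pow_q hF]
    have ht₂' : t₂ = ⟪z, f⟫ ^ q := by rw [ht₂, hermForm_pow_q hF]
    have ht₁0 : t₁ ≠ 0 := by
      rw [ht₁']
      exact pow_ne_zero _ hze
    set z₁ := t₂ • e - t₁ • f with hz₁
    have a1 : ⟪z₁, w⟫ = 0 := by
      simp only [hz₁, hermForm_sub_left, hermForm_smul_left, ht.hew hF, ht.hfw hF, mul_zero, sub_zero]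
    have a2 : ⟪z₁, e⟫ = -t₁ := by
      simp only [hz₁, hermForm_sub_left, hermForm_smul_left, ht.he, hfe, mul_zero, mul_one, zero_sub]
    have a3 : ⟪z₁, f⟫ = t₂ := by
      simp only [hz₁, hermForm_sub_left, hermForm_smul_left, ht.hf, ht.hef, mul_zero, mul_one, sub_zero]
    have a4 : ⟪z₁, z⟫ = 0 := by
      simp only [hz₁, hermForm_sub_left, hermForm_smul_left, ← ht₁, ← ht₂]
      ring
    -- `g z₁` is a multiple of `z₁`
    have b1 : ⟪act g z₁, z⟫ = 0 := by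
      have h1 := h_act (q := q) g z₁ z
      rw [hc, hermForm_smul_right, a4] at h1
      exact (mul_eq_zero.1 h1).resolve_left (pow_ne_zero _ hc0)
    have b2 := act_perp ht hF (hΓ hg) a1
    set y := act g z₁ with hy
    have b3 : ⟪y, f⟫ * t₁ + ⟪y, e⟫ * t₂ = 0 := by
      have h1 := b1
      rw [b2] at h1
      simp only [hermForm_add_left, hermForm_smul_left, ← ht₁, ← ht₂] at h1
      exact h1
    have b4 : y = (-(⟪y, e⟫ / t₁)) • z₁ := by
      conv_lhs => rw [b2]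
      rw [hz₁]
      funext i
      simp only [Pi.add_apply, Pi.smul_apply, Pi.sub_apply, smul_eq_mul]
      field_simp
      linear_combination (e i) * b3
    refine three hF ht (hΓ hg) hge' hzw a1 hze (by rw [a2]; exact neg_ne_zero.2 ht₁0) ?_ hc b4
    rw [a2, a3, ht₁', ht₂']
    intro h0
    apply hiso
    rw [hzz]
    linear_combination -h0

/-- Two vectors of the line, neither orthogonal to `e`, with proportional coordinates. -/
theorem prop_of_cross {x y : Fin 3 → F} (hxw : ⟪x, w⟫ = 0) (hyw : ⟪y, w⟫ = 0) (hx : ⟪x, e⟫ ≠ 0)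
    (h : ⟪x, f⟫ * ⟪y, e⟫ = ⟪y, f⟫ * ⟪x, e⟫) : y = (⟪y, e⟫ / ⟪x, e⟫) • x := by
  have dx := ht.decomp hF x
  have dy := ht.decomp hF y
  rw [hxw, zero_smul, add_zero] at dx
  rw [hyw, zero_smul, add_zero] at dy
  generalize ⟪x, f⟫ = x₁ at *
  generalize ⟪x, e⟫ = x₂ at *
  generalize ⟪y, f⟫ = y₁ at *
  generalize ⟪y, e⟫ = y₂ at *
  rw [dx, dy]
  funext i
  simp only [Pi.add_apply, Pi.smul_apply, smul_eq_mul]
  field_simp
  linear_combination (-(e i)) * h

/-- An abelian subgroup of index at most two forces a small point stabiliser. -/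
theorem card_le_two_of_abelian (hq : 4 ≤ q) {Γ : Subgroup (SU 3 F q)} (hΓ : Γ ≤ lineStab 3 q w (w_ne ht))
    (htr : ∀ x : Fin 3 → F, ⟪x, x⟫ = 0 → x ≠ 0 → ⟪x, w⟫ = 0 → ∃ h ∈ Γ, ∃ c : F, c ≠ 0 ∧ act h e = c • x)
    (R : Subgroup PSL(2, F)) (hR : ∀ x ∈ R, ∀ y ∈ R, x * y = y * x)
    (hR2 : ∀ x ∈ Kof hF ht Γ hΓ, ∀ y ∈ Kof hF ht Γ hΓ, x ∉ R → y ∉ R → x⁻¹ * y ∈ R) :
    Nat.card (Kof hF ht (Γ ⊓ lineStab 3 q e (e_ne ht)) (inf_le_left.trans hΓ)) ≤ 2 := by
  classical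
  by_contra hcon
  push Not at hcon
  set Ke := Kof hF ht (Γ ⊓ lineStab 3 q e (e_ne ht)) (inf_le_left.trans hΓ) with hKe
  have hKeK : Ke ≤ Kof hF ht Γ hΓ := Kof_mono hF ht hΓ inf_le_left
  let _ : Fintype Ke := Fintype.ofFinite _
  rw [Nat.card_eq_fintype_card, Fintype.two_lt_card_iff] at hcon
  obtain ⟨a, b, c, hab, hac, hbc⟩ := hcon
  -- a nontrivial element of `Ke` in `R`
  obtain ⟨z, hz, hz1, hzR⟩ : ∃ z ∈ Ke, z ≠ 1 ∧ z ∈ R := by
    have hx : (a.1⁻¹ * b.1) ∈ Ke := Ke.mul_mem (Ke.inv_mem a.2) b.2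
    have hy : (a.1⁻¹ * c.1) ∈ Ke := Ke.mul_mem (Ke.inv_mem a.2) c.2
    have hx1 : a.1⁻¹ * b.1 ≠ 1 := by
      intro h0
      exact hab (Subtype.ext (inv_mul_eq_one.1 h0))
    have hy1 : a.1⁻¹ * c.1 ≠ 1 := by
      intro h0
      exact hac (Subtype.ext (inv_mul_eq_one.1 h0))
    by_cases h1 : a.1⁻¹ * b.1 ∈ R
    · exact ⟨_, hx, hx1, h1⟩
    by_cases h2 : a.1⁻¹ * c.1 ∈ R
    · exact ⟨_, hy, hy1, h2⟩
    refine ⟨_, Ke.mul_mem (Ke.inv_mem hx) hy, ?_, hR2 _ (hKeK hx) _ (hKeK hy) h1 h2⟩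
    intro h0
    apply hbc
    apply Subtype.ext
    have h3 := inv_mul_eq_one.1 h0
    exact mul_left_cancel h3
  obtain ⟨⟨g₀, hg₀⟩, rfl⟩ := hz
  have hg₀Γ : g₀ ∈ Γ := hg₀.1
  obtain ⟨l, hl, hgl⟩ := hg₀.2
  have hge' : ⟪act g₀ e, e⟫ = 0 := by rw [hgl, hermForm_smul_left, ht.he, mul_zero]
  have hz' : phi ht hF ⟨g₀, hΓ hg₀Γ⟩ ∈ R := hzR
  have hz1' : phi ht hF ⟨g₀, hΓ hg₀Γ⟩ ≠ 1 := hz1
  -- the preimage of `R`
  let ψ := phiOn hF ht Γ hΓ
  let A : Subgroup Γ := R.comap ψ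
  have hA2 : A.index ≤ 2 := by
    apply index_le_two
    intro u v hu hv
    have h1 := hR2 (ψ u) ⟨u, rfl⟩ (ψ v) ⟨v, rfl⟩ hu hv
    change ψ (u⁻¹ * v) ∈ R
    rw [map_mul, map_inv]
    exact h1
  -- `g₀` fixes all points in the `A`-orbit of `e`
  have hfix : ∀ r : Γ, r ∈ A → ∃ k : F, act g₀ (act r.1 e) = k • act r.1 e := by
    intro r hr
    have hr' : phi ht hF ⟨r.1, hΓ r.2⟩ ∈ R := hr
    have hcomm := hR _ hr' _ hz'
    let R₀ : lineStab 3 q w (w_ne ht) := ⟨r.1, hΓ r.2⟩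
    let G₀ : lineStab 3 q w (w_ne ht) := ⟨g₀, hΓ hg₀Γ⟩
    have h1 : phi ht hF (R₀⁻¹ * G₀ * R₀ * G₀⁻¹) = 1 := by
      simp only [map_mul, map_inv]
      change (phi ht hF R₀)⁻¹ * phi ht hF G₀ * phi ht hF R₀ * (phi ht hF G₀)⁻¹ = 1
      change phi ht hF R₀ * phi ht hF G₀ = phi ht hF G₀ * phi ht hF R₀ at hcomm
      rw [mul_assoc ((phi ht hF R₀)⁻¹), ← hcomm]
      group
    obtain ⟨-, h2, -⟩ := (phi_eq_one_iff ht hF _).1 h1
    set c₀ : lineStab 3 q w (w_ne ht) := R₀⁻¹ * G₀ * R₀ * G₀⁻¹ with hc₀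
    have h3 := act_e ht hF c₀.2
    rw [h2, zero_smul, add_zero] at h3
    set t := ⟪act c₀.1 e, f⟫ with htdef
    refine ⟨l * t, ?_⟩
    -- `r⁻¹ g₀ r = c₀ g₀`
    have h4 : r.1⁻¹ * g₀ * r.1 = c₀.1 * g₀ := by
      simp only [hc₀, Subgroup.coe_mul, Subgroup.coe_inv]
      change r.1⁻¹ * g₀ * r.1 = r.1⁻¹ * g₀ * r.1 * g₀⁻¹ * g₀
      group
    have h5 : act (r.1⁻¹ * g₀ * r.1) e = (l * t) • e := by
      rw [h4, act_mul, hgl, act_smul, h3, smul_smul]
    have h6 : act g₀ (act r.1 e) = act r.1 (act (r.1⁻¹ * g₀ * r.1) e) := by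
      rw [← act_mul, ← act_mul]
      congr 1
      group
    rw [h6, h5, act_smul]
  -- a large orbit
  let E : Subgroup Γ := (lineStab 3 q e (e_ne ht)).subgroupOf Γ
  have hE : E.index = q + 1 := index_of_trans hF ht hΓ htr
  have hrel : 3 ≤ E.relIndex A := by
    have h1 : (A ⊓ E).index = E.relIndex A * A.index := by
      rw [← Subgroup.relIndex_mul_index (inf_le_left : A ⊓ E ≤ A), Subgroup.inf_relIndex_left]
    have h2 : E.index ∣ (A ⊓ E).index := Subgroup.index_dvd_of_le inf_le_right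
    have h3 : (A ⊓ E).index ≠ 0 := Subgroup.index_ne_zero_of_finite
    have h4 := Nat.le_of_dvd (Nat.pos_of_ne_zero h3) h2
    rw [hE, h1] at h4
    have h5 : E.relIndex A * A.index ≤ E.relIndex A * 2 := Nat.mul_le_mul_left _ hA2
    omega
  have hrel' : 2 < Nat.card (A ⧸ E.subgroupOf A) := by
    have : Nat.card (A ⧸ E.subgroupOf A) = E.relIndex A := rfl
    omega
  let _ : Fintype (A ⧸ E.subgroupOf A) := Fintype.ofFinite _
  let o : A ⧸ E.subgroupOf A := ((1 : A) : A ⧸ E.subgroupOf A)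
  have hcard : 1 < (Finset.univ.erase o).card := by
    rw [Finset.card_erase_of_mem (Finset.mem_univ _), Finset.card_univ]
    rw [Nat.card_eq_fintype_card] at hrel'
    omega
  obtain ⟨x, hx, y, hy, hxy⟩ := Finset.one_lt_card.1 hcard
  obtain ⟨r₁, rfl⟩ := QuotientGroup.mk_surjective x
  obtain ⟨r₂, rfl⟩ := QuotientGroup.mk_surjective y
  have hr₁ : r₁.1.1 ∉ lineStab 3 q e (e_ne ht) := by
    intro h0
    apply (Finset.mem_erase.1 hx).1
    symm
    rw [QuotientGroup.eq, Subgroup.mem_subgroupOf]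
    simp only [inv_one, one_mul]
    exact h0
  have hr₂ : r₂.1.1 ∉ lineStab 3 q e (e_ne ht) := by
    intro h0
    apply (Finset.mem_erase.1 hy).1
    symm
    rw [QuotientGroup.eq, Subgroup.mem_subgroupOf]
    simp only [inv_one, one_mul]
    exact h0
  have hr₁₂ : r₁.1.1⁻¹ * r₂.1.1 ∉ lineStab 3 q e (e_ne ht) := by
    intro h0
    apply hxy
    rw [QuotientGroup.eq, Subgroup.mem_subgroupOf]
    exact h0
  have hnon : ∀ r : Γ, r.1 ∉ lineStab 3 q e (e_ne ht) → ⟪act r.1 e, e⟫ ≠ 0 := by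
    intro r hr h0
    apply hr
    obtain ⟨l', hl', h1⟩ := iso_eq_smul_of_perp hF ht.he (e_ne ht) (by rw [h_act]; exact ht.he)
      (act_ne_zero r.1 (e_ne ht)) (hermForm_symm_zero hF h0)
    exact ⟨l', hl', h1⟩
  have hxw := form_perp ht hF (hΓ r₁.1.2) (ht.hew hF)
  have hyw := form_perp ht hF (hΓ r₂.1.2) (ht.hew hF)
  obtain ⟨k₁, hk₁⟩ := hfix r₁.1 r₁.2
  obtain ⟨k₂, hk₂⟩ := hfix r₂.1 r₂.2
  refine hz1' (three hF ht (hΓ hg₀Γ) hge' hxw hyw (hnon _ hr₁) (hnon _ hr₂) ?_ hk₁ hk₂)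
  intro h0
  have h1 := prop_of_cross hF ht hxw hyw (hnon _ hr₁) h0
  apply hr₁₂
  have hl0 := div_ne_zero (hnon _ hr₂) (hnon _ hr₁)
  generalize ⟪act r₂.1.1 e, e⟫ / ⟪act r₁.1.1 e, e⟫ = l' at h1 hl0
  exact ⟨l', hl0, by rw [act_mul, h1, act_smul, act_inv_act]⟩

/-- The numerical form of Dickson's theorem for a transitive subgroup. -/
theorem line_main (p : ℕ) [Fact p.Prime] [CharP F p] (hq : 4 ≤ q) {Γ : Subgroup (SU 3 F q)}
    (hΓ : Γ ≤ lineStab 3 q w (w_ne ht))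
    (htr : ∀ x : Fin 3 → F, ⟪x, x⟫ = 0 → x ≠ 0 → ⟪x, w⟫ = 0 → ∃ h ∈ Γ, ∃ c : F, c ≠ 0 ∧ act h e = c • x) :
    Nat.card (Kof hF ht Γ hΓ) =
        (q + 1) * Nat.card (Kof hF ht (Γ ⊓ lineStab 3 q e (e_ne ht)) (inf_le_left.trans hΓ)) ∧
    (Nat.card (Kof hF ht (Γ ⊓ lineStab 3 q e (e_ne ht)) (inf_le_left.trans hΓ)) ≤ 2 ∨
      (Nat.card (Kof hF ht Γ hΓ) = 12 ∨ Nat.card (Kof hF ht Γ hΓ) = 24 ∨ Nat.card (Kof hF ht Γ hΓ) = 60) ∨
      ∃ q' m : ℕ, 2 ≤ q' ∧ q' ^ m = q ^ 2 ∧ q' ∣ Nat.card (Kof hF ht Γ hΓ) ∧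
        Nat.card (Kof hF ht Γ hΓ) ∣ q' * (q' ^ 2 - 1)) := by
  constructor
  · have h1 := card_Kof hF ht Γ hΓ
    have h2 := card_Kof hF ht (Γ ⊓ lineStab 3 q e (e_ne ht)) (inf_le_left.trans hΓ)
    have h3 := card_of_trans hF ht hΓ htr
    have hSc : (Γ ⊓ lineStab 3 q e (e_ne ht)) ⊓ Sc hF ht = Γ ⊓ Sc hF ht := by
      ext g
      constructor
      · rintro ⟨⟨a, -⟩, b⟩
        exact ⟨a, b⟩
      · rintro ⟨a, b⟩
        refine ⟨⟨a, ?_⟩, b⟩
        obtain ⟨hg, h4⟩ := (mem_Sc hF ht).1 b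
        obtain ⟨-, h5, -⟩ := (phi_eq_one_iff ht hF _).1 h4
        have h6 := act_e ht hF hg
        rw [h5, zero_smul, add_zero] at h6
        refine ⟨_, ?_, h6⟩
        intro h0
        rw [h0, zero_smul] at h6
        exact act_ne_zero g (e_ne ht) h6
    rw [hSc] at h2
    rw [h3, ← h2] at h1
    have hpos : 0 < Nat.card ↥(Γ ⊓ Sc hF ht) := Nat.card_pos
    apply Nat.eq_of_mul_eq_mul_right hpos
    rw [h1]
    ring
  · rcases dickson_four p (Kof hF ht Γ hΓ) with ⟨R, hR, hR2⟩ | ⟨v, hv0, hv⟩ | h | ⟨q', m, h1, h2, h3, h4⟩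
    · left
      exact card_le_two_of_abelian hF ht hq hΓ htr R hR hR2
    · left
      set z := v 0 • e + v 1 • f with hz
      have hz0 : z ≠ 0 := by
        intro h0
        apply hv0
        have a1 := congrArg (fun u => ⟪u, f⟫) h0
        have a2 := congrArg (fun u => ⟪u, e⟫) h0
        simp only [hz, hermForm_add_left, hermForm_smul_left, hermForm_zero_left, ht.hef, ht.hf, ht.he, ht.hfe hF,
          mul_zero, mul_one, add_zero, zero_add] at a1 a2
        funext i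
        fin_cases i
        · exact a1
        · exact a2
      have hzw : ⟪z, w⟫ = 0 := by
        simp only [hz, hermForm_add_left, hermForm_smul_left, ht.hew hF, ht.hfw hF, mul_zero, add_zero]
      have hcom : ∀ g ∈ Γ, ∃ c : F, act g z = c • z := by
        intro g hg
        obtain ⟨c, hc⟩ := hv (slm ht hF ⟨g, hΓ hg⟩) (mem_Kof hF ht hΓ hg)
        have h00 := congrFun hc 0
        have h01 := congrFun hc 1
        have hk := kap_ne ht hF ⟨g, hΓ hg⟩
        simp only [slm, sl2_coe, Matrix.mulVec, dotProduct, Fin.sum_univ_two, Matrix.of_apply, Matrix.cons_val',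
          Matrix.cons_val_zero, Matrix.cons_val_one, Matrix.cons_val_fin_one, Pi.smul_apply, smul_eq_mul] at h00 h01
        set κ := kap ht hF ⟨g, hΓ hg⟩ with hκ
        have e1 : ⟪act g e, f⟫ * v 0 + ⟪act g f, f⟫ * v 1 = κ * c * v 0 := by
          have : κ⁻¹ * ⟪act g e, f⟫ * v 0 + κ⁻¹ * ⟪act g f, f⟫ * v 1 = c * v 0 := by simpa using h00
          field_simp at this
          linear_combination this
        have e2 : ⟪act g e, e⟫ * v 0 + ⟪act g f, e⟫ * v 1 = κ * c * v 1 := by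
          have : κ⁻¹ * ⟪act g e, e⟫ * v 0 + κ⁻¹ * ⟪act g f, e⟫ * v 1 = c * v 1 := by simpa using h01
          field_simp at this
          linear_combination this
        refine ⟨κ * c, ?_⟩
        have de := act_e ht hF (hΓ hg)
        have df := act_f ht hF (hΓ hg)
        rw [hz, act_add, act_smul, act_smul]
        conv_lhs => rw [de, df]
        funext i
        simp only [Pi.add_apply, Pi.smul_apply, smul_eq_mul]
        linear_combination (e i) * e1 + (f i) * e2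
      have htriv : Kof hF ht (Γ ⊓ lineStab 3 q e (e_ne ht)) (inf_le_left.trans hΓ) = ⊥ := by
        rw [Subgroup.eq_bot_iff_forall]
        rintro x ⟨⟨g, hg⟩, rfl⟩
        exact all_sc_of_common hF ht hΓ htr hz0 hzw hcom hg.1 hg.2
      rw [htriv, Subgroup.card_bot]
      norm_num
    · right; left
      exact h
    · right; right
      exact ⟨q', m, h1, by rw [h2, hF], h3, h4⟩

end Cfsg.Agent.Lib.MinIndex.U3.LineMain
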