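import Mathlib
import Cfsg.Agent.Lib.MinIndex.U3.LineMain

/-!
# The stabiliser of an isotropic point: local computations
-/

set_option autoImplicit false
set_option linter.unusedSectionVars false
set_option linter.unusedSimpArgs false
set_option linter.unusedVariables false
set_option linter.style.haveILetI false

open scoped Matrix MatrixGroups
open Cfsg
open Cfsg.Agent.Lib.Classical.Herm.Basic Cfsg.Agent.Lib.Classical.Herm.Form
open Cfsg.Agent.Lib.Classical.Herm.GU Cfsg.Agent.Lib.Classical.Herm.SU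
open Cfsg.Agent.Lib.Classical.Herm.Tv Cfsg.Agent.Lib.Classical.Herm.Comm
open Cfsg.Agent.Lib.Classical.Herm.Unip Cfsg.Agent.Lib.Classical.Herm.SU3Sylow
open Cfsg.Agent.Lib.Classical.Herm.SU3Invol Cfsg.Agent.Lib.Classical.Herm.Subfield
open Cfsg.Agent.Lib.MinIndex.UFinal Cfsg.Agent.Lib.MinIndex.U3.Base Cfsg.Agent.Lib.MinIndex.U3.Points
open Cfsg.Agent.Lib.MinIndex.U3.Line Cfsg.Agent.Lib.MinIndex.U3.LineMain
open Cfsg.Agent.Lib.PSL2.Basic

namespace Cfsg.Agent.Lib.MinIndex.U3.Local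

variable {F : Type*} [Field F] [Fintype F] {q : ℕ}

local notation "⟪" x ", " y "⟫" => hermForm _ _ q x y

variable (hF : Fintype.card F = q ^ 2)

/-- A subgroup contains no nontrivial transvection. -/
def NoTv (q : ℕ) (hF : Fintype.card F = q ^ 2) (H : Subgroup (SU 3 F q)) : Prop :=
  ∀ (x : Fin 3 → F) (hx : hermForm 3 F q x x = 0) (c : F) (hc : c + c ^ q = 0), x ≠ 0 → c ≠ 0 → tv hF hx hc ∉ H

include hF

/-- Transitivity of a subgroup on the isotropic points. -/
theorem exists_tv_of_trans {H : Subgroup (SU 3 F q)}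
    (hT : ∀ x y : Fin 3 → F, ⟪x, x⟫ = 0 → x ≠ 0 → ⟪y, y⟫ = 0 → y ≠ 0 → ∃ h ∈ H, ∃ c : F, c ≠ 0 ∧ act h x = c • y)
    (hN : ¬ NoTv q hF H) {x : Fin 3 → F} (hx : ⟪x, x⟫ = 0) (hx0 : x ≠ 0) :
    ∃ (c : F) (hc : c + c ^ q = 0), c ≠ 0 ∧ tv hF hx hc ∈ H := by
  unfold NoTv at hN
  push Not at hN
  obtain ⟨y, hy, c, hc, hy0, hc0, hm⟩ := hN
  obtain ⟨h, hh, k, hk, h1⟩ := hT y x hy hy0 hx hx0
  have h2 := H.mul_mem (H.mul_mem hh hm) (H.inv_mem hh)
  rw [conj_tv hF h hy (by rw [h_act]; exact hy) hc] at h2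
  have hN' : (k ^ q * k) ^ q = k ^ q * k := by
    rw [mul_pow, pow_q_pow_q hF, mul_comm]
  have hd : (c * (k ^ q * k)) + (c * (k ^ q * k)) ^ q = 0 := by
    rw [mul_pow, hN']
    linear_combination (k ^ q * k) * hc
  refine ⟨_, hd, mul_ne_zero hc0 (mul_ne_zero (pow_ne_zero _ hk) hk), ?_⟩
  convert h2 using 1
  apply ext_act
  intro z
  rw [act_tv, act_tv, h1, hermForm_smul_right]
  funext i
  simp only [Pi.add_apply, Pi.smul_apply, smul_eq_mul]
  ring

variable {e f w : Fin 3 → F} (ht : IsTriple q e f w)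

include ht

/-- The character of the stabiliser of an isotropic point. -/
noncomputable def lamL : lineStab 3 q e (e_ne ht) →* Fˣ :=
  MonoidHom.mk' (fun g => Units.mk0 ⟪act g.1 e, f⟫ (by
    obtain ⟨g, l, hl, h⟩ := g
    simp only
    rw [h, hermForm_smul_left, ht.hef, mul_one]
    exact hl)) (by
    rintro ⟨a, l, hl, h⟩ ⟨b, l', hl', h'⟩
    apply Units.ext
    simp only [Units.val_mk0, Units.val_mul]
    change ⟪act (a * b) e, f⟫ = _
    rw [act_mul, h', act_smul, h]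
    simp only [hermForm_smul_left, ht.hef]
    ring)

theorem lamL_apply (g : lineStab 3 q e (e_ne ht)) : ((lamL ht g : Fˣ) : F) = ⟪act g.1 e, f⟫ := rfl

theorem act_e_of_mem {g : SU 3 F q} (hg : g ∈ lineStab 3 q e (e_ne ht)) : act g e = ⟪act g e, f⟫ • e := by
  obtain ⟨l, hl, h⟩ := hg
  rw [h, hermForm_smul_left, ht.hef, mul_one]

/-- The restriction to a subgroup. -/
noncomputable def lamOn (A : Subgroup (SU 3 F q)) (hA : A ≤ lineStab 3 q e (e_ne ht)) : A →* Fˣ :=
  (lamL ht).comp (Subgroup.inclusion hA)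

theorem lamOn_apply (A : Subgroup (SU 3 F q)) (hA : A ≤ lineStab 3 q e (e_ne ht)) (g : A) :
    ((lamOn ht A hA g : Fˣ) : F) = ⟪act g.1 e, f⟫ := rfl

theorem card_lam (A : Subgroup (SU 3 F q)) (hA : A ≤ lineStab 3 q e (e_ne ht)) :
    Nat.card (lamOn ht A hA).range * Nat.card ↥(A ⊓ Re q e) = Nat.card A := by
  have h1 := Subgroup.card_mul_index (lamOn ht A hA).ker
  rw [Subgroup.index_ker] at h1
  have h2 : ((lamOn ht A hA).ker).map A.subtype = A ⊓ Re q e := by
    ext g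
    constructor
    · rintro ⟨⟨g', hg'⟩, h3, rfl⟩
      refine ⟨hg', (mem_Re_iff hF ht.he (e_ne ht)).2 ?_⟩
      have h4 : ((lamOn ht A hA ⟨g', hg'⟩ : Fˣ) : F) = 1 := by
        rw [MonoidHom.mem_ker.1 h3]
        rfl
      rw [lamOn_apply hF ht] at h4
      have h5 := act_e_of_mem hF ht (hA hg')
      rw [h4, one_smul] at h5
      exact h5
    · rintro ⟨h3, h4⟩
      have h5 := (mem_Re_iff hF ht.he (e_ne ht)).1 h4
      refine ⟨⟨g, h3⟩, ?_, rfl⟩
      rw [SetLike.mem_coe, MonoidHom.mem_ker]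
      apply Units.ext
      rw [lamOn_apply hF ht]
      change ⟪act g e, f⟫ = 1
      rw [h5, ht.hef]
  have h3 : Nat.card ↥(A ⊓ Re q e) = Nat.card (lamOn ht A hA).ker := by
    rw [← h2]
    exact Subgroup.card_map_of_injective A.subtype_injective
  rw [h3, mul_comm]
  exact h1

theorem act_one_of_ss_zero {u : SU 3 F q} (hu : act u e = e) (hs : ss q f w u = 0) (hb : bb q f u = 0) : u = 1 := by
  apply ext_act
  intro x
  rw [act_of_ss_zero hF ht hu hs, hb, act_one]
  simp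

theorem ss_one : ss q f w (1 : SU 3 F q) = 0 := by
  unfold ss
  rw [act_one, ht.hwf]

theorem ss_inv {u : SU 3 F q} (hu : act u e = e) : ss q f w u⁻¹ = - ss q f w u := by
  have h1 := ss_mul hF ht (act_fix_inv hF ht hu) hu
  rw [inv_mul_cancel, ss_one hF ht] at h1
  linear_combination -h1

section NoTv

variable {H : Subgroup (SU 3 F q)} (hN : NoTv q hF H)

include hN

/-- In the absence of transvections an element fixing `e` is determined by `s`. -/
theorem eq_one_of_ss {u : SU 3 F q} (hH : u ∈ H) (hu : act u e = e) (hs : ss q f w u = 0) : u = 1 := by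
  by_cases hb : bb q f u = 0
  · exact act_one_of_ss_zero hF ht hu hs hb
  · exfalso
    have h1 := eq_tv_of_ss_zero hF ht hu hs
    rw [h1] at hH
    exact hN e ht.he _ _ (e_ne ht) hb hH

theorem comm_in_H {u v : SU 3 F q} (hu : u ∈ H) (hv : v ∈ H) (hue : act u e = e) (hve : act v e = e) :
    ss q f w u ^ q * ss q f w v = ss q f w v ^ q * ss q f w u := by
  obtain ⟨h1, -⟩ := comm_coords hF ht (w := w) hue hve
  have h2 : act (u * v * u⁻¹ * v⁻¹) e = e := by
    rw [act_mul, act_mul, act_mul, act_fix_inv hF ht hve, act_fix_inv hF ht hue, hve, hue]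
  have h3 := eq_one_of_ss hF ht hN (H.mul_mem (H.mul_mem (H.mul_mem hu hv) (H.inv_mem hu)) (H.inv_mem hv)) h2 h1
  apply comm_of_commute hF ht hue hve
  have h4 : u * v * u⁻¹ * v⁻¹ * (v * u) = v * u := by rw [h3, one_mul]
  rw [← h4]
  group

theorem ss_inj {u v : SU 3 F q} (hu : u ∈ H) (hv : v ∈ H) (hue : act u e = e) (hve : act v e = e)
    (h : ss q f w u = ss q f w v) : u = v := by
  have h1 : ss q f w (u⁻¹ * v) = 0 := by
    rw [ss_mul hF ht (act_fix_inv hF ht hue) hve, ss_inv hF ht hue, h]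
    ring
  have h2 := eq_one_of_ss hF ht hN (H.mul_mem (H.inv_mem hu) hv)
    (by rw [act_mul, hve, act_fix_inv hF ht hue]) h1
  exact (inv_mul_eq_one.1 h2)

/-- The order bound. -/
theorem card_A_le {u₀ : SU 3 F q} (hu₀ : u₀ ∈ H) (hue : act u₀ e = e) (hne : u₀ ≠ 1) :
    Nat.card ↥(H ⊓ Re q e) ≤ q := by
  classical
  have hs₀ : ss q f w u₀ ≠ 0 := fun h0 => hne (eq_one_of_ss hF ht hN hu₀ hue h0)
  have hfix : ∀ v : ↥(H ⊓ Re q e), (ss q f w v.1 / ss q f w u₀) ^ q = ss q f w v.1 / ss q f w u₀ := by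
    intro v
    have h1 := comm_in_H hF ht hN hu₀ v.2.1 hue v.2.2.1
    rw [div_pow]
    have h2 : ss q f w u₀ ^ q ≠ 0 := pow_ne_zero _ hs₀
    field_simp
    linear_combination -h1
  let φ : ↥(H ⊓ Re q e) → {x : F // x ^ q = x} := fun v => ⟨ss q f w v.1 / ss q f w u₀, hfix v⟩
  have hφ : Function.Injective φ := by
    intro a b hab
    have h1 : ss q f w a.1 / ss q f w u₀ = ss q f w b.1 / ss q f w u₀ := congrArg Subtype.val hab
    have h2 : ss q f w a.1 = ss q f w b.1 := by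
      field_simp at h1
      exact h1
    exact Subtype.ext (ss_inj hF ht hN a.2.1 b.2.1 a.2.2.1 b.2.2.1 h2)
  have h3 := Nat.card_le_card_of_injective φ hφ
  rwa [card_fixed hF] at h3

/-- The character values on the stabiliser if `H` contains a nontrivial element fixing `e`. -/
theorem lam_cube {u₀ g : SU 3 F q} (hu₀ : u₀ ∈ H) (hue : act u₀ e = e) (hne : u₀ ≠ 1) (hg : g ∈ H) {l : F}
    (hl : l ≠ 0) (hgl : act g e = l • e) : (l ^ q) ^ 3 = l ^ 3 := by
  have hs₀ : ss q f w u₀ ≠ 0 := fun h0 => hne (eq_one_of_ss hF ht hN hu₀ hue h0)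
  obtain ⟨h1, h2⟩ := ss_conj hF ht (f := f) (w := w) (u := u₀) g hl hgl hue
  have h3 := comm_in_H hF ht hN hu₀ (H.mul_mem (H.mul_mem hg hu₀) (H.inv_mem hg)) hue h1
  set s := ss q f w u₀ with hs
  set s' := ss q f w (g * u₀ * g⁻¹) with hs'
  have h4 : s' ^ q * l = (l ^ q) ^ 2 * s ^ q := by
    have h5 := congrArg (fun z => z ^ q) h2
    simp only [mul_pow, pow_q_pow_q hF] at h5
    rw [h5]
    ring
  have h6 : s ^ q * s ≠ 0 := mul_ne_zero (pow_ne_zero _ hs₀) hs₀
  apply mul_left_cancel₀ h6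
  linear_combination (-(s * l ^ q)) * h4 + (-(l * l ^ q)) * h3 + (l * s ^ q) * h2

/-- In even characteristic, the subgroup fixing `e` is trivial. -/
theorem eq_one_of_char_two (h2 : (2 : F) = 0) {u : SU 3 F q} (hH : u ∈ H) (hu : act u e = e) : u = 1 := by
  have h3 := ss_mul hF ht hu hu
  have h4 := bb_mul hF ht (w := w) hu hu
  have h5 : ss q f w (u * u) = 0 := by
    rw [h3]
    linear_combination (ss q f w u) * h2
  have h6 := eq_one_of_ss hF ht hN (H.mul_mem hH hH) (by rw [act_mul, hu, hu]) h5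
  rw [h6] at h4
  have h7 : bb q f (1 : SU 3 F q) = 0 := by
    unfold bb
    rw [act_one, ht.hf]
  rw [h7] at h4
  have h8 : ss q f w u ^ (q + 1) = 0 := by
    rw [pow_succ]
    linear_combination h4 + (bb q f u) * h2
  have h9 : ss q f w u = 0 := (pow_eq_zero_iff (by omega)).1 h8
  exact eq_one_of_ss hF ht hN hH hu h9

end NoTv

end Cfsg.Agent.Lib.MinIndex.U3.Local
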