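import Mathlib
import Cfsg.Agent.Lib.MinIndex.U3.Local

/-!
# Subgroups without transvections, `q` even
-/

set_option autoImplicit false
set_option linter.unusedSectionVars false
set_option linter.unusedSimpArgs false
set_option linter.unusedVariables false
set_option linter.style.haveILetI false

open scoped Matrix MatrixGroups
open Cfsg
open Cfsg.Agent.Lib.Classical.Herm.Basic Cfsg.Agent.Lib.Classical.Herm.Form
open Cfsg.Agent.Lib.Classical.Herm.GU Cfsg.Agent.Lib.Classical.Herm.SU
open Cfsg.Agent.Lib.Classical.Herm.Tv Cfsg.Agent.Lib.Classical.Herm.Comm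
open Cfsg.Agent.Lib.Classical.Herm.Unip Cfsg.Agent.Lib.Classical.Herm.SU3Sylow
open Cfsg.Agent.Lib.Classical.Herm.SU3Invol Cfsg.Agent.Lib.Classical.Herm.Subfield
open Cfsg.Agent.Lib.MinIndex.UFinal Cfsg.Agent.Lib.MinIndex.U3.Base Cfsg.Agent.Lib.MinIndex.U3.Points
open Cfsg.Agent.Lib.MinIndex.U3.Line Cfsg.Agent.Lib.MinIndex.U3.LineMain Cfsg.Agent.Lib.MinIndex.U3.Local

namespace Cfsg.Agent.Lib.MinIndex.U3.EvenCase

variable {F : Type*} [Field F] [Fintype F] {q : ℕ}

local notation "⟪" x ", " y "⟫" => hermForm _ _ q x y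

variable (hF : Fintype.card F = q ^ 2)

include hF

theorem card_H_eq {e : Fin 3 → F} (he : ⟪e, e⟫ = 0) (he0 : e ≠ 0) (H : Subgroup (SU 3 F q)) (hq : 3 ≤ q)
    (hd : H.index ≤ q ^ 3) :
    Nat.card H = (q ^ 3 + 1) * Nat.card ↥(H ⊓ lineStab 3 q e he0) := by
  have h1 := card_inf_mul hF he he0 H hq hd
  have h2 := Subgroup.card_mul_index H
  rw [card_SU3 hF, ← h1] at h2
  have h3 : H.index ≠ 0 := Subgroup.index_ne_zero_of_finite
  apply Nat.eq_of_mul_eq_mul_right (Nat.pos_of_ne_zero h3)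
  rw [h2]
  ring

/-- A fixed second point. -/
theorem exists_second_point {e f w : Fin 3 → F} (ht : IsTriple q e f w) {g : SU 3 F q} {l : F} (hl : l ≠ 0)
    (hgl : act g e = l • e) (h1 : l ^ (q + 1) ≠ 1) (h2 : ∀ n m : F, n * l ^ q = 1 → m * l = l ^ q → n ≠ m) :
    ∃ f' : Fin 3 → F, ⟪f', f'⟫ = 0 ∧ ⟪e, f'⟫ = 1 ∧ ∃ n : F, n * l ^ q = 1 ∧ act g f' = n • f' := by
  have hn := form_f_e hF ht g hgl
  have hm := rel_m hF ht g hl hgl
  set n := ⟪act g f, e⟫ with hndef
  set m := ⟪act g w, w⟫ with hmdef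
  have hnm : n ≠ m := h2 n m hn hm
  have hnl : n ≠ l := by
    intro h0
    apply h1
    rw [pow_succ, mul_comm]
    rw [h0] at hn
    exact hn
  have hgw := act_w_line hF ht g hl hgl
  rw [← hmdef] at hgw
  set x := ⟪act g w, f⟫ with hx
  have hgf := ht.decomp hF (act g f)
  rw [← hndef] at hgf
  set y := ⟪act g f, f⟫ with hy
  set z := ⟪act g f, w⟫ with hz
  have hnm' : n - m ≠ 0 := sub_ne_zero.2 hnm
  have hnl' : n - l ≠ 0 := sub_ne_zero.2 hnl
  set c := z / (n - m) with hc
  set d := (y + c * x) / (n - l) with hd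
  have hc' : c * (n - m) = z := by rw [hc]; field_simp
  have hd' : d * (n - l) = y + c * x := by rw [hd]; field_simp
  have hact : act g (f + c • w + d • e) = n • (f + c • w + d • e) := by
    rw [act_add, act_add, act_smul, act_smul, hgl, hgw, hgf]
    funext i
    simp only [Pi.add_apply, Pi.smul_apply, smul_eq_mul]
    linear_combination (-(e i)) * hd' + (-(w i)) * hc'
  set f' := f + c • w + d • e with hf'
  have hn0 : n ^ (q + 1) ≠ 1 := by
    intro h0
    apply h1
    have h3 : (n * l ^ q) ^ (q + 1) = 1 := by rw [hn, one_pow]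
    rw [mul_pow, h0, one_mul, ← pow_mul, mul_comm q, pow_mul, pow_succ, mul_pow, pow_q_pow_q hF] at h3
    rw [pow_succ, mul_comm]
    exact h3
  have hiso : ⟪f', f'⟫ = 0 := by
    have h3 := h_act (q := q) g f' f'
    rw [hact, hermForm_smul_left, hermForm_smul_right] at h3
    have h4 : (n ^ (q + 1) - 1) * ⟪f', f'⟫ = 0 := by
      rw [pow_succ]
      linear_combination h3
    exact (mul_eq_zero.1 h4).resolve_left (sub_ne_zero.2 hn0)
  have hef' : ⟪e, f'⟫ = 1 := by
    rw [hf']
    simp only [hermForm_add_right hF, hermForm_smul_right, ht.hef, ht.hew hF, ht.he, mul_zero, add_zero]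
  exact ⟨f', hiso, hef', n, hn, hact⟩

variable {e f w : Fin 3 → F} (ht : IsTriple q e f w) {H : Subgroup (SU 3 F q)}

include ht

/-- The case of even `q` without transvections. -/
theorem case_even (hq : 3 ≤ q) (h2 : (2 : F) = 0) (hN : NoTv q hF H)
    (hT : ∀ x y : Fin 3 → F, ⟪x, x⟫ = 0 → x ≠ 0 → ⟪y, y⟫ = 0 → y ≠ 0 → ∃ h ∈ H, ∃ c : F, c ≠ 0 ∧ act h x = c • y)
    (hd : H.index ≤ q ^ 3) : False := by
  classical
  have he0 := e_ne ht
  have hA : ∀ u ∈ H, act u e = e → u = 1 := fun u hu hue => eq_one_of_char_two hF ht hN h2 hu hue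
  have hqq : 1 ≤ q ^ 2 - 1 := by
    have : 9 ≤ q ^ 2 := by nlinarith
    omega
  set HL := H ⊓ lineStab 3 q e he0 with hHL
  have hc1 := card_inf_mul hF ht.he he0 H hq hd
  have hge : q ^ 2 - 1 ≤ Nat.card HL := by
    by_contra hcon
    push Not at hcon
    have h3 : Nat.card HL * H.index < (q ^ 2 - 1) * q ^ 3 := by
      have h4 : Nat.card HL * H.index ≤ Nat.card HL * q ^ 3 := Nat.mul_le_mul_left _ hd
      have h5 : Nat.card HL * q ^ 3 < (q ^ 2 - 1) * q ^ 3 :=
        Nat.mul_lt_mul_of_lt_of_le hcon (le_refl _) (by positivity)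
      omega
    rw [hc1] at h3
    have h4 : q ^ 3 * (q ^ 2 - 1) = (q ^ 2 - 1) * q ^ 3 := mul_comm _ _
    omega
  have hle : HL ≤ lineStab 3 q e he0 := inf_le_right
  set ψ := lamOn ht HL hle with hψ
  have hinj : Function.Injective ψ := by
    rw [injective_iff_map_eq_one]
    intro a ha
    have h3 : ⟪act a.1 e, f⟫ = 1 := by
      have : ((ψ a : Fˣ) : F) = 1 := by rw [ha]; rfl
      exact this
    have h4 := act_e_of_mem hF ht (hle a.2)
    rw [h3, one_smul] at h4
    exact Subtype.ext (hA a.1 a.2.1 h4)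
  have hcardU : Nat.card Fˣ = q ^ 2 - 1 := by
    rw [Nat.card_units, Nat.card_eq_fintype_card, hF]
  have hrange : ψ.range = ⊤ := by
    apply Subgroup.eq_top_of_card_eq
    have h3 : Nat.card ψ.range = Nat.card HL := Nat.card_congr (MonoidHom.ofInjective hinj).symm.toEquiv
    have h4 : Nat.card ψ.range ≤ Nat.card Fˣ := Subgroup.card_le_card_group _
    omega
  have hcardHL : Nat.card HL = q ^ 2 - 1 := by
    have h3 : Nat.card ψ.range = Nat.card HL := Nat.card_congr (MonoidHom.ofInjective hinj).symm.toEquiv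
    rw [hrange, Subgroup.card_top, hcardU] at h3
    exact h3.symm
  -- a generator of the character group
  obtain ⟨gen, hgen⟩ := IsCyclic.exists_generator (α := Fˣ)
  have hord : orderOf gen = q ^ 2 - 1 := by
    rw [← hcardU]
    exact orderOf_eq_card_of_forall_mem_zpowers hgen
  have hpow : ∀ n : ℕ, (gen : F) ^ n = 1 → q ^ 2 - 1 ∣ n := by
    intro n hn
    rw [← hord]
    apply orderOf_dvd_of_pow_eq_one
    apply Units.ext
    simpa using hn
  obtain ⟨⟨g, hgH⟩, hg⟩ : gen ∈ ψ.range := by rw [hrange]; trivial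
  set l : F := (↑gen : F) with hl
  have hl0 : l ≠ 0 := gen.ne_zero
  have hgl0 : ⟪act g e, f⟫ = l := by
    have := congrArg (fun u : Fˣ => (u : F)) hg
    exact this
  have hgl : act g e = l • e := by
    have h4 := act_e_of_mem hF ht (hle hgH)
    rwa [hgl0] at h4
  have hsq : q ^ 2 - 1 = (q - 1) * (q + 1) := by
    obtain ⟨r, rfl⟩ : ∃ r, q = r + 1 := ⟨q - 1, by omega⟩
    simp only [Nat.add_sub_cancel]
    have : (r + 1) ^ 2 = r * (r + 1 + 1) + 1 := by ring
    omega
  have hbig : q + 1 < q ^ 2 - 1 := by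
    rw [hsq]
    have : 2 ≤ q - 1 := by omega
    nlinarith
  have h1' : l ^ (q + 1) ≠ 1 := by
    intro h0
    have := Nat.le_of_dvd (by omega) (hpow _ h0)
    omega
  have hbig2 : 2 * q - 1 < q ^ 2 - 1 := by
    have h3 : 2 * q + 1 ≤ q ^ 2 := by nlinarith
    omega
  have h2' : ∀ n m : F, n * l ^ q = 1 → m * l = l ^ q → n ≠ m := by
    rintro n m hn hm rfl
    have h3 : (l ^ q) ^ 2 = l := by
      have : n * l * l ^ q = l ^ q * l ^ q := by rw [hm]
      linear_combination (-1 : F) * this + l * hn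
    have h4 : l ^ (2 * q - 1) = 1 := by
      have h5 : l ^ (2 * q - 1) * l = l := by
        rw [← pow_succ, show 2 * q - 1 + 1 = q * 2 by omega, pow_mul]
        exact h3
      exact mul_right_cancel₀ hl0 (by rw [h5, one_mul])
    have := Nat.le_of_dvd (by omega) (hpow _ h4)
    omega
  obtain ⟨f', hf', hef', n, hn, hgf'⟩ := exists_second_point hF ht hl0 hgl h1' h2'
  obtain ⟨w', ht'⟩ := exists_triple_of_pair hF ht.he hf' hef'
  -- every element of the point stabiliser fixes the second point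
  have hfix : ∀ k ∈ HL, ∃ c : F, act k f' = c • f' := by
    intro k hk
    obtain ⟨j, hj⟩ : ∃ j : ℕ, gen ^ j = ψ ⟨k, hk⟩ := by
      have h3 : ψ ⟨k, hk⟩ ∈ Submonoid.powers gen := by
        rw [mem_powers_iff_mem_zpowers]
        exact hgen _
      exact h3
    have h3 : (⟨g, hgH⟩ : HL) ^ j = ⟨k, hk⟩ := by
      apply hinj
      rw [map_pow, hg, hj]
    have h4 : k = g ^ j := by
      have := congrArg Subtype.val h3
      simpa using this.symm
    refine ⟨n ^ j, ?_⟩
    rw [h4]
    clear hj h3 h4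
    induction j with
    | zero => simp
    | succ j ih =>
      rw [pow_succ, act_mul, hgf', act_smul, ih, smul_smul, pow_succ, mul_comm]
  obtain ⟨h, hh, c, hc, hhe⟩ := hT e f' ht.he he0 hf' (fun h0 => by
    rw [h0, hermForm_zero_right hF] at hef'
    exact zero_ne_one hef')
  have hn0 : n ≠ 0 := by
    rintro rfl
    rw [zero_mul] at hn
    exact zero_ne_one hn
  -- `k = h⁻¹ g h` lies in the point stabiliser
  have hinv : act h⁻¹ f' = c⁻¹ • e := by
    have h5 := act_inv_act h e
    rw [hhe, act_smul] at h5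
    funext i
    have h6 := congrFun h5 i
    simp only [Pi.smul_apply, smul_eq_mul] at h6 ⊢
    field_simp
    linear_combination h6
  have hk : h⁻¹ * g * h ∈ HL := by
    refine ⟨H.mul_mem (H.mul_mem (H.inv_mem hh) hgH.1) hh, n, hn0, ?_⟩
    rw [act_mul, act_mul, hhe, act_smul, hgf', act_smul, act_smul, hinv, smul_smul, smul_smul]
    congr 1
    field_simp
  obtain ⟨c₁, hc₁⟩ := hfix _ hk
  set y := act h f' with hy
  have hgy : act g y = c₁ • y := by
    have h3 : act h (act (h⁻¹ * g * h) f') = act g y := by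
      rw [hy, ← act_mul, ← act_mul]
      congr 1
      group
    rw [← h3, hc₁, act_smul]
  have hy0 : y ≠ 0 := act_ne_zero h (fun h0 => by
    rw [h0, hermForm_zero_right hF] at hef'
    exact zero_ne_one hef')
  have hyy : ⟪y, y⟫ = 0 := by rw [hy, h_act]; exact hf'
  -- eigenvalues
  have hm' := rel_m hF ht' g hl0 hgl
  set m := ⟪act g w', w'⟫ with hm
  have hgw' : act g w' = m • w' := by
    have h3 := act_w_line hF ht' g hl0 hgl
    rw [← hm] at h3
    have h4 : ⟪act g w', f'⟫ = 0 := by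
      have h5 := h_act (q := q) g w' f'
      rw [hgf', hermForm_smul_right, ht'.hwf] at h5
      exact (mul_eq_zero.1 h5).resolve_left (pow_ne_zero _ hn0)
    rw [h4, zero_smul, zero_add] at h3
    exact h3
  have hnm : n ≠ m := h2' n m hn hm'
  have hnl : n ≠ l := by
    intro h0
    apply h1'
    rw [pow_succ, mul_comm]
    rw [h0] at hn
    exact hn
  have hml : m ≠ l := by
    intro h0
    rw [h0] at hm'
    have h4 : l ^ (q - 2) = 1 := by
      have h5 : l ^ (q - 2) * (l * l) = l * l := by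
        rw [← pow_two, ← pow_add, show q - 2 + 2 = q by omega, pow_two]
        exact hm'.symm
      exact mul_right_cancel₀ (mul_ne_zero hl0 hl0) (by rw [h5, one_mul])
    have := Nat.le_of_dvd (by omega) (hpow _ h4)
    omega
  have dy := ht'.decomp hF y
  set y₁ := ⟪y, f'⟫ with hy₁
  set y₂ := ⟪y, e⟫ with hy₂
  set y₃ := ⟪y, w'⟫ with hy₃
  have hact_y : act g y = (y₁ * l) • e + (y₂ * n) • f' + (y₃ * m) • w' := by
    conv_lhs => rw [dy]
    rw [act_add, act_add, act_smul, act_smul, act_smul, hgl, hgf', hgw']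
    funext i
    simp only [Pi.add_apply, Pi.smul_apply, smul_eq_mul]
    ring
  have c1 : y₁ * l = c₁ * y₁ := by
    have h3 := congrArg (fun v => ⟪v, f'⟫) hgy
    simp only [hact_y, hermForm_add_left, hermForm_smul_left, ht'.hef, ht'.hf, ht'.hwf, ← hy₁] at h3
    linear_combination h3
  have c2 : y₂ * n = c₁ * y₂ := by
    have h3 := congrArg (fun v => ⟪v, e⟫) hgy
    simp only [hact_y, hermForm_add_left, hermForm_smul_left, ht'.he, ht'.hfe hF, ht'.hwe, ← hy₂] at h3
    linear_combination h3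
  have c3 : y₃ * m = c₁ * y₃ := by
    have h3 := congrArg (fun v => ⟪v, w'⟫) hgy
    simp only [hact_y, hermForm_add_left, hermForm_smul_left, ht'.hew hF, ht'.hfw hF, ht'.hww, ← hy₃] at h3
    linear_combination h3
  have hy3 : y₃ = 0 := by
    by_contra h3
    have h4 : m = c₁ := mul_left_cancel₀ h3 (by rw [c3]; ring)
    have h5 : y₁ = 0 := by
      by_contra h6
      exact hml.symm (mul_left_cancel₀ h6 (by rw [c1, h4]; ring))
    have h7 : y₂ = 0 := by
      by_contra h6
      exact hnm (mul_left_cancel₀ h6 (by rw [c2, h4]; ring))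
    rw [h5, h7, zero_smul, zero_smul, zero_add, zero_add] at dy
    have h8 := hyy
    rw [dy] at h8
    simp only [hermForm_smul_left, hermForm_smul_right, ht'.hww] at h8
    rw [mul_one] at h8
    rcases mul_eq_zero.1 h8 with h9 | h9
    · exact h3 ((pow_eq_zero_iff (by omega)).1 h9)
    · exact h3 h9
  have hy2 : y₂ = 0 := by
    by_contra h3
    have h4 : n = c₁ := mul_left_cancel₀ h3 (by rw [c2]; ring)
    have h5 : y₁ = 0 := by
      by_contra h6
      exact hnl.symm (mul_left_cancel₀ h6 (by rw [c1, h4]; ring))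
    rw [h5, hy3, zero_smul, zero_smul, zero_add, add_zero] at dy
    -- `h f' = y₂ f' = (y₂ / c) h e`
    have h6 : act h (c⁻¹ • (y₂⁻¹ * c) • f') = act h (c⁻¹ • (y₂ ⁻¹ * c) • f') := rfl
    have h7 : act h f' = (y₂ * c⁻¹) • act h e := by
      rw [hhe, smul_smul]
      have h8 : y₂ * c⁻¹ * c = y₂ := by field_simp
      rw [h8]
      exact dy
    have h8 : f' = (y₂ * c⁻¹) • e := by
      have h9 := act_inv_act h f'
      rw [h7, act_smul, act_inv_act] at h9
      exact h9.symm
    have h9 := ht'.hfe hF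
    rw [h8, hermForm_smul_left, ht'.he, mul_zero] at h9
    exact zero_ne_one h9
  have hy1 : y₁ ≠ 0 := by
    intro h0
    rw [h0, hy2, hy3, zero_smul, zero_smul, zero_smul, add_zero, add_zero] at dy
    exact hy0 dy
  have hhy : act h f' = y₁ • e := by
    rw [hy2, hy3, zero_smul, zero_smul, add_zero, add_zero] at dy
    exact dy
  -- `h²` fixes the point `e` but `h` does not
  have hh2 : h * h ∈ lineStab 3 q e he0 := by
    refine ⟨c * y₁, mul_ne_zero hc hy1, ?_⟩
    rw [act_mul, hhe, act_smul, hhy, smul_smul]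
  have hhL : h ∉ lineStab 3 q e he0 := by
    rintro ⟨t, ht0, h3⟩
    rw [hhe] at h3
    have h4 := congrArg (fun v => ⟪v, f'⟫) h3
    simp only [hermForm_smul_left, ht'.hf, ht'.hef, mul_zero, mul_one] at h4
    exact ht0 h4.symm
  -- parity
  have hevenq : Even q := by
    by_contra h3
    exact two_ne_zero_of_odd hF (Nat.not_even_iff_odd.1 h3) h2
  have hcardH := card_H_eq hF ht.he he0 H hq hd
  rw [← hHL, hcardHL] at hcardH
  have hodd : Odd (Nat.card H) := by
    rw [hcardH]
    apply Odd.mul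
    · exact Even.add_one (hevenq.pow_of_ne_zero (by norm_num))
    · rw [hsq]
      obtain ⟨r, hr⟩ := hevenq
      apply Odd.mul
      · exact ⟨r - 1, by omega⟩
      · exact ⟨r, by omega⟩
  have hord2 : Odd (orderOf h) := by
    have h3 : orderOf (⟨h, hh⟩ : H) ∣ Nat.card H := orderOf_dvd_natCard _
    rw [Subgroup.orderOf_mk] at h3
    exact Odd.of_dvd_nat hodd h3
  obtain ⟨s, hs⟩ := hord2
  apply hhL
  have h3 : h ^ (2 * s + 1) = 1 := by
    rw [← hs]
    exact pow_orderOf_eq_one h
  have h4 : h = (h * h) ^ (s + 1) := by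
    rw [← pow_two, ← pow_mul, show 2 * (s + 1) = 2 * s + 1 + 1 by ring, pow_succ, h3, one_mul]
  rw [h4]
  exact Subgroup.pow_mem _ hh2 _

end Cfsg.Agent.Lib.MinIndex.U3.EvenCase
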