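import Mathlib
import Cfsg.Agent.Lib.MinIndex.U3.EvenCase
import Cfsg.Agent.Lib.Classical.Herm.Gen

/-!
# Reflections in a subgroup, `q` odd
-/

set_option autoImplicit false
set_option linter.unusedSectionVars false
set_option linter.unusedSimpArgs false
set_option linter.unusedVariables false
set_option linter.style.haveILetI false

open scoped Matrix MatrixGroups
open Cfsg
open Cfsg.Agent.Lib.Classical.Herm.Basic Cfsg.Agent.Lib.Classical.Herm.Form
open Cfsg.Agent.Lib.Classical.Herm.GU Cfsg.Agent.Lib.Classical.Herm.SU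
open Cfsg.Agent.Lib.Classical.Herm.Tv Cfsg.Agent.Lib.Classical.Herm.Comm
open Cfsg.Agent.Lib.Classical.Herm.Unip Cfsg.Agent.Lib.Classical.Herm.SU3Sylow
open Cfsg.Agent.Lib.Classical.Herm.SU3Invol Cfsg.Agent.Lib.Classical.Herm.Subfield
open Cfsg.Agent.Lib.Classical.Herm.Gen
open Cfsg.Agent.Lib.MinIndex.UFinal Cfsg.Agent.Lib.MinIndex.U3.Base Cfsg.Agent.Lib.MinIndex.U3.Points
open Cfsg.Agent.Lib.MinIndex.U3.Line Cfsg.Agent.Lib.MinIndex.U3.LineMain Cfsg.Agent.Lib.MinIndex.U3.Local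
open Cfsg.Agent.Lib.MinIndex.U3.EvenCase

namespace Cfsg.Agent.Lib.MinIndex.U3.Kzero

variable {F : Type*} [Field F] [Fintype F] {q : ℕ}

local notation "⟪" x ", " y "⟫" => hermForm _ _ q x y

variable (hF : Fintype.card F = q ^ 2)

include hF

/-- A triple through a given point and a given unit vector orthogonal to it. -/
theorem exists_triple_of_perp {e w : Fin 3 → F} (he : ⟪e, e⟫ = 0) (he0 : e ≠ 0) (hww : ⟪w, w⟫ = 1)
    (hwe : ⟪w, e⟫ = 0) : ∃ f, IsTriple q e f w := by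
  have hew := hermForm_symm_zero hF hwe
  obtain ⟨f₁, hf₁, hef₁⟩ := exists_partner hF he he0
  have hf₁e := hermForm_symm_one hF hef₁
  set a := ⟪f₁, w⟫ with ha
  set f₂ := f₁ - a • w with hf₂
  set c := ⟪f₂, f₂⟫ with hc
  have hcq : (-c) ^ q = -c := by
    rw [pow_q_neg hF, hc, hermForm_self_pow_q hF]
  obtain ⟨t, ht⟩ := exists_trace_eq hF hcq
  refine ⟨f₂ + t • e, ⟨he, ?_, ?_, hwe, ?_, hww⟩⟩
  · have h1 : ⟪f₂, e⟫ = 1 := by
      simp only [hf₂, hermForm_sub_left, hermForm_smul_left, hwe, hf₁e, mul_zero, sub_zero]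
    have h2 : ⟪e, f₂⟫ = 1 := hermForm_symm_one hF h1
    simp only [hermForm_add_left, hermForm_add_right hF, hermForm_smul_left, hermForm_smul_right, he, h1, h2, ← hc]
    linear_combination ht
  · have h1 : ⟪e, f₂⟫ = 1 := by
      simp only [hf₂, hermForm_sub_right hF, hermForm_smul_right, hew, hef₁, mul_zero, sub_zero]
    simp only [hermForm_add_right hF, hermForm_smul_right, he, h1, mul_zero, add_zero]
  · have h1 : ⟪w, f₂⟫ = 0 := by
      have h3 : ⟪w, f₁⟫ = a ^ q := by rw [ha, hermForm_pow_q hF]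
      simp only [hf₂, hermForm_sub_right hF, hermForm_smul_right, h3, hww, mul_one, sub_self]
    simp only [hermForm_add_right hF, hermForm_smul_right, h1, hwe, mul_zero, add_zero]

/-- A unit vector is orthogonal to an isotropic vector. -/
theorem exists_iso_perp {v : Fin 3 → F} (hv : ⟪v, v⟫ = 1) : ∃ x : Fin 3 → F, x ≠ 0 ∧ ⟪x, x⟫ = 0 ∧ ⟪x, v⟫ = 0 := by
  obtain ⟨b, hb, hvb⟩ := exists_second hF hv
  obtain ⟨c, hc⟩ := exists_third hF hv hb hvb
  obtain ⟨θ, hθ⟩ := exists_theta hF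
  have hbc := hc.hbc
  have hcb := hermForm_symm_zero hF hbc
  refine ⟨b + θ • c, ?_, ?_, ?_⟩
  · intro h0
    have h1 := congrArg (fun z => ⟪z, b⟫) h0
    simp only [hermForm_add_left, hermForm_smul_left, hb, hcb, hermForm_zero_left, mul_zero, add_zero] at h1
    exact one_ne_zero h1
  · simp only [hermForm_add_left, hermForm_add_right hF, hermForm_smul_left, hermForm_smul_right, hb, hbc, hcb, hc.hc]
    linear_combination hθ
  · simp only [hermForm_add_left, hermForm_smul_left, hermForm_symm_zero hF hvb, hermForm_symm_zero hF hc.hac]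
    ring

section

variable {H : Subgroup (SU 3 F q)}

/-- A reflection in `H` whose axis is orthogonal to a given point. -/
theorem exists_refl_perp (h2 : (2 : F) ≠ 0) {e : Fin 3 → F} (he : ⟪e, e⟫ = 0) (he0 : e ≠ 0)
    (hT : ∀ x y : Fin 3 → F, ⟪x, x⟫ = 0 → x ≠ 0 → ⟪y, y⟫ = 0 → y ≠ 0 → ∃ h ∈ H, ∃ c : F, c ≠ 0 ∧ act h x = c • y)
    (heven : 2 ∣ Nat.card H) : ∃ τ ∈ H, ∃ w, IsRefl q τ w ∧ ⟪w, e⟫ = 0 := by
  obtain ⟨t, ht⟩ := exists_prime_orderOf_dvd_card' (G := H) (p := 2) heven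
  have ht1 : (t : SU 3 F q) ≠ 1 := by
    intro h0
    have h3 : t = 1 := Subtype.ext h0
    rw [h3, orderOf_one] at ht
    omega
  have htt : (t : SU 3 F q) * t = 1 := by
    have h3 := pow_orderOf_eq_one t
    rw [ht, pow_two] at h3
    exact congrArg Subtype.val h3
  obtain ⟨v, hv⟩ := exists_isRefl_of_invol hF h2 ht1 htt
  obtain ⟨x, hx0, hx, hxv⟩ := exists_iso_perp hF hv.1
  obtain ⟨h, hh, c, hc, hhx⟩ := hT x e hx hx0 he he0
  refine ⟨h * t * h⁻¹, H.mul_mem (H.mul_mem hh t.2) (H.inv_mem hh), act h v, hv.conj h, ?_⟩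
  have h3 : ⟪act h v, c • e⟫ = 0 := by
    rw [← hhx, h_act]
    exact hermForm_symm_zero hF hxv
  rw [hermForm_smul_right] at h3
  exact (mul_eq_zero.1 h3).resolve_left (pow_ne_zero _ hc)

/-- The key conjugation. -/
theorem exists_corr (p : ℕ) [Fact p.Prime] [CharP F p] (h2 : (2 : F) ≠ 0) {e w : Fin 3 → F} (he : ⟪e, e⟫ = 0)
    {τ : SU 3 F q} (hτ : τ ∈ H) (hr : IsRefl q τ w) (hwe : ⟪w, e⟫ = 0) {h₀ : SU 3 F q} (hh₀ : h₀ ∈ H)
    {x : Fin 3 → F} (hx : ⟪x, x⟫ = 0) (hx0 : x ≠ 0) (hxw : ⟪x, w⟫ = 0) {c : F} (hc : c ≠ 0) (hh : act h₀ e = c • x) :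
    ∃ y ∈ H, act y x = x ∧ ∃ m : F, m ≠ 0 ∧ act (y * h₀) w = m • w := by
  have hp2 : p ≠ 2 := by
    rintro rfl
    apply h2
    have := CharP.cast_eq_zero F 2
    exact_mod_cast this
  have hpodd : Odd p := (Fact.out : p.Prime).odd_of_ne_two hp2
  obtain ⟨τ', hτ'⟩ : ∃ t, t = h₀ * τ * h₀⁻¹ := ⟨_, rfl⟩
  have hr' : IsRefl q τ' (act h₀ w) := by
    rw [hτ']
    exact hr.conj h₀
  have hxw' : ⟪x, act h₀ w⟫ = 0 := by
    have h3 : c • x = act h₀ e := hh.symm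
    have h4 : ⟪c • x, act h₀ w⟫ = 0 := by
      rw [h3, h_act]
      exact hermForm_symm_zero hF hwe
    rw [hermForm_smul_left] at h4
    exact (mul_eq_zero.1 h4).resolve_left hc
  obtain ⟨r, hrdef⟩ : ∃ r, r = τ * τ' := ⟨_, rfl⟩
  have hrH : r ∈ H := by
    rw [hrdef, hτ']
    exact H.mul_mem hτ (H.mul_mem (H.mul_mem hh₀ hτ) (H.inv_mem hh₀))
  have hrx : act r x = x := by
    rw [hrdef, act_mul, hr'.act_perp hF hxw', act_neg, hr.act_perp hF hxw]
    simp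
  have hrRe : r ∈ Re q x := (mem_Re_iff hF hx hx0).2 hrx
  obtain ⟨k, hk⟩ := (isPGroup_Re (q := q) p x) ⟨r, hrRe⟩
  have hk' : r ^ p ^ k = 1 := congrArg Subtype.val hk
  obtain ⟨n, hn⟩ : ∃ n, p ^ k + 1 = 2 * n := by
    have := (hpodd.pow (n := k)).add_one
    obtain ⟨n, hn⟩ := this
    exact ⟨n, by omega⟩
  obtain ⟨y, hy⟩ : ∃ y, y = r ^ n := ⟨_, rfl⟩
  have hyy : y * y = r := by
    rw [hy, ← pow_add, ← two_mul, ← hn, pow_succ, hk', one_mul]
  have hyH : y ∈ H := by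
    rw [hy]
    exact H.pow_mem hrH n
  have hτ2 := hr.mul_self hF
  have hτ'2 := hr'.mul_self hF
  have hτinv : τ⁻¹ = τ := inv_eq_of_mul_eq_one_left hτ2
  have hτ'inv : τ'⁻¹ = τ' := inv_eq_of_mul_eq_one_left hτ'2
  have hconj : τ' * r * τ'⁻¹ = r⁻¹ := by
    rw [hrdef, mul_inv_rev, hτ'inv, hτinv]
    rw [mul_assoc, mul_assoc, hτ'2, mul_one]
  have hconj2 : τ' * y * τ'⁻¹ = y⁻¹ := by
    rw [hy, ← conj_pow, hconj, inv_pow]
  have hfin : y * τ' * y⁻¹ = τ := by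
    have h3 : τ' * y⁻¹ = y * τ' := by
      have h4 : y = τ' * y⁻¹ * τ'⁻¹ := by
        have h5 := congrArg (fun z => z⁻¹) hconj2
        simp only [mul_inv_rev, inv_inv, mul_assoc] at h5
        rw [mul_assoc]
        exact h5.symm
      conv_rhs => rw [h4]
      simp only [mul_assoc, inv_mul_cancel, mul_one, hτ'inv, hτ'2]
    rw [mul_assoc, h3, ← mul_assoc, hyy, hrdef, mul_assoc, hτ'2, mul_one]
  have hyx : act y x = x := by
    have hpow : ∀ m : ℕ, act (r ^ m) x = x := by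
      intro m
      induction m with
      | zero => simp
      | succ m ih =>
        rw [pow_succ, act_mul, hrx, ih]
    rw [hy]
    exact hpow n
  refine ⟨y, hyH, hyx, ?_⟩
  -- `y h₀` commutes with `τ`
  have hc1 : (y * h₀) * τ * (y * h₀)⁻¹ = τ := by
    calc (y * h₀) * τ * (y * h₀)⁻¹ = y * (h₀ * τ * h₀⁻¹) * y⁻¹ := by group
      _ = y * τ' * y⁻¹ := by rw [hτ']
      _ = τ := hfin
  have hr2 : IsRefl q τ (act (y * h₀) w) := by
    have := hr.conj (y * h₀)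
    rwa [hc1] at this
  obtain ⟨h3, h4⟩ := hr.eq_smul hF h2 hr2
  refine ⟨_, ?_, h3⟩
  intro h0
  rw [h0, zero_pow (by omega)] at h4
  exact zero_ne_one h4

end

end Cfsg.Agent.Lib.MinIndex.U3.Kzero
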