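import Mathlib
import Cfsg.Agent.Lib.MinIndex.U3.Kzero

/-!
# Subgroups without transvections, `q` odd
-/

set_option autoImplicit false
set_option linter.unusedSectionVars false
set_option linter.unusedSimpArgs false
set_option linter.unusedVariables false
set_option linter.style.haveILetI false

open scoped Matrix MatrixGroups
open Cfsg
open Cfsg.Agent.Lib.Classical.Herm.Basic Cfsg.Agent.Lib.Classical.Herm.Form
open Cfsg.Agent.Lib.Classical.Herm.GU Cfsg.Agent.Lib.Classical.Herm.SU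
open Cfsg.Agent.Lib.Classical.Herm.Tv Cfsg.Agent.Lib.Classical.Herm.Comm
open Cfsg.Agent.Lib.Classical.Herm.Unip Cfsg.Agent.Lib.Classical.Herm.SU3Sylow
open Cfsg.Agent.Lib.Classical.Herm.SU3Invol Cfsg.Agent.Lib.Classical.Herm.Subfield
open Cfsg.Agent.Lib.MinIndex.UFinal Cfsg.Agent.Lib.MinIndex.U3.Base Cfsg.Agent.Lib.MinIndex.U3.Points
open Cfsg.Agent.Lib.MinIndex.U3.Line Cfsg.Agent.Lib.MinIndex.U3.LineMain Cfsg.Agent.Lib.MinIndex.U3.Local
open Cfsg.Agent.Lib.MinIndex.U3.EvenCase Cfsg.Agent.Lib.MinIndex.U3.Kzero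

namespace Cfsg.Agent.Lib.MinIndex.U3.OddCase

/-- The arithmetic when `H` contains nontrivial elements fixing `e`. -/
theorem num2 {q a E : ℕ} (hq : 3 ≤ q) (ha : a ≤ q) (h : q ^ 2 - 1 ≤ a * E) (h1 : E ∣ 3 * (q - 1))
    (h2 : E ∣ q ^ 2 - 1) : 3 ∣ q + 1 ∧ 3 * (q - 1) ≤ 2 * E := by
  have hqE : q ≤ E := by
    by_contra hcon
    push Not at hcon
    have h3 : a * E ≤ q * (q - 1) := Nat.mul_le_mul ha (by omega)
    obtain ⟨r, rfl⟩ : ∃ r, q = r + 1 := ⟨q - 1, by omega⟩
    simp only [Nat.add_sub_cancel] at h3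
    have h4 : (r + 1) ^ 2 = (r + 1) * r + r + 1 := by ring
    omega
  constructor
  · by_contra hcon
    have hc : Nat.Coprime 3 (q + 1) := (Nat.Prime.coprime_iff_not_dvd Nat.prime_three).2 hcon
    have hsq : q ^ 2 - 1 = (q + 1) * (q - 1) := by
      obtain ⟨r, rfl⟩ : ∃ r, q = r + 1 := ⟨q - 1, by omega⟩
      simp only [Nat.add_sub_cancel]
      have : (r + 1) ^ 2 = (r + 1 + 1) * r + 1 := by ring
      omega
    have h3 : E ∣ Nat.gcd (3 * (q - 1)) ((q + 1) * (q - 1)) := Nat.dvd_gcd h1 (by rw [← hsq]; exact h2)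
    rw [Nat.gcd_mul_right, hc.gcd_eq_one, one_mul] at h3
    have := Nat.le_of_dvd (by omega) h3
    omega
  · obtain ⟨k, hk⟩ := h1
    have hk0 : k ≠ 0 := by
      rintro rfl
      omega
    have hk2 : k ≤ 2 := by
      by_contra hcon
      push Not at hcon
      have : E * 3 ≤ E * k := Nat.mul_le_mul_left _ hcon
      omega
    have : E * k ≤ E * 2 := Nat.mul_le_mul_left _ hk2
    omega

variable {F : Type*} [Field F] [Fintype F] {q : ℕ}

local notation "⟪" x ", " y "⟫" => hermForm _ _ q x y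

/-- Roots of unity. -/
theorem card_pow_eq_one_le {n : ℕ} (hn : 0 < n) : Nat.card {t : F // t ^ n = 1} ≤ n := by
  classical
  have h1 : Nat.card {t : F // t ^ n = 1} = ((Polynomial.nthRoots n (1 : F)).toFinset).card := by
    rw [Nat.card_eq_fintype_card, Fintype.card_subtype]
    congr 1
    ext x
    simp [Polynomial.mem_nthRoots hn]
  rw [h1]
  exact (Multiset.toFinset_card_le _).trans (Polynomial.card_nthRoots n 1)

/-- A subgroup of the units with a given exponent. -/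
theorem card_dvd_of_exponent (C : Subgroup Fˣ) {n : ℕ} (h : ∀ x ∈ C, x ^ n = 1) : Nat.card C ∣ n := by
  obtain ⟨g, hg⟩ := IsCyclic.exists_generator (α := C)
  rw [← orderOf_eq_card_of_forall_mem_zpowers hg]
  apply orderOf_dvd_of_pow_eq_one
  apply Subtype.ext
  exact h _ g.2

variable (hF : Fintype.card F = q ^ 2)

include hF

variable {e f w : Fin 3 → F} (ht : IsTriple q e f w) {H : Subgroup (SU 3 F q)}

include ht

theorem mem_Gamma_iff_aux : True := trivial

/-- The subgroup `Γ`: the stabiliser in `H` of the line of `w`. -/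
theorem trans_Gamma (p : ℕ) [Fact p.Prime] [CharP F p] (h2 : (2 : F) ≠ 0) {τ : SU 3 F q} (hτ : τ ∈ H)
    (hr : IsRefl q τ w)
    (hT : ∀ x y : Fin 3 → F, ⟪x, x⟫ = 0 → x ≠ 0 → ⟪y, y⟫ = 0 → y ≠ 0 → ∃ h ∈ H, ∃ c : F, c ≠ 0 ∧ act h x = c • y)
    (x : Fin 3 → F) (hx : ⟪x, x⟫ = 0) (hx0 : x ≠ 0) (hxw : ⟪x, w⟫ = 0) :
    ∃ h ∈ H ⊓ lineStab 3 q w (w_ne ht), ∃ c : F, c ≠ 0 ∧ act h e = c • x := by
  obtain ⟨h₀, hh₀, c, hc, h1⟩ := hT e x ht.he (e_ne ht) hx hx0
  obtain ⟨y, hy, hyx, m, hm, hm2⟩ := exists_corr hF p h2 ht.he hτ hr ht.hwe hh₀ hx hx0 hxw hc h1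
  refine ⟨y * h₀, ⟨H.mul_mem hy hh₀, m, hm, hm2⟩, c, hc, ?_⟩
  rw [act_mul, h1, act_smul, hyx]

/-- The values of the character on the point stabiliser in `Γ`. -/
theorem range_Gamma (p : ℕ) [Fact p.Prime] [CharP F p] (h2 : (2 : F) ≠ 0) {τ : SU 3 F q} (hτ : τ ∈ H)
    (hr : IsRefl q τ w) :
    (lamOn ht ((H ⊓ lineStab 3 q w (w_ne ht)) ⊓ lineStab 3 q e (e_ne ht)) inf_le_right).range =
      (lamOn ht (H ⊓ lineStab 3 q e (e_ne ht)) inf_le_right).range := by
  apply le_antisymm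
  · rintro x ⟨⟨g, hg⟩, rfl⟩
    exact ⟨⟨g, hg.1.1, hg.2⟩, rfl⟩
  · rintro x ⟨⟨g, hg⟩, rfl⟩
    obtain ⟨l, hl, hgl⟩ := hg.2
    obtain ⟨y, hy, hyx, m, hm, hm2⟩ := exists_corr hF p h2 ht.he hτ hr ht.hwe hg.1 ht.he (e_ne ht) (ht.hew hF) hl hgl
    have hact : act (y * g) e = act g e := by
      rw [act_mul, hgl, act_smul, hyx]
    refine ⟨⟨y * g, ⟨H.mul_mem hy hg.1, m, hm, hm2⟩, l, hl, by rw [hact, hgl]⟩, ?_⟩
    apply Units.ext
    rw [lamOn_apply hF ht, lamOn_apply hF ht]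
    simp only
    rw [hact]

/-- In the absence of transvections the character is injective on the point stabiliser in `Γ`. -/
theorem fix_Gamma_eq_one (hN : NoTv q hF H) {k : SU 3 F q} (hk : k ∈ H) (hkw : k ∈ lineStab 3 q w (w_ne ht))
    (hke : act k e = e) : k = 1 := by
  apply eq_one_of_ss hF ht hN hk hke
  obtain ⟨m, hm, h1⟩ := hkw
  unfold ss
  rw [h1, hermForm_smul_left, ht.hwf, mul_zero]

theorem card_Gamma_L (p : ℕ) [Fact p.Prime] [CharP F p] (h2 : (2 : F) ≠ 0) {τ : SU 3 F q} (hτ : τ ∈ H)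
    (hr : IsRefl q τ w) (hN : NoTv q hF H) :
    Nat.card ↥((H ⊓ lineStab 3 q w (w_ne ht)) ⊓ lineStab 3 q e (e_ne ht)) =
      Nat.card (lamOn ht (H ⊓ lineStab 3 q e (e_ne ht)) inf_le_right).range := by
  have h1 := card_lam hF ht ((H ⊓ lineStab 3 q w (w_ne ht)) ⊓ lineStab 3 q e (e_ne ht)) inf_le_right
  rw [range_Gamma hF ht p h2 hτ hr] at h1
  have h3 : ((H ⊓ lineStab 3 q w (w_ne ht)) ⊓ lineStab 3 q e (e_ne ht)) ⊓ Re q e = ⊥ := by
    rw [Subgroup.eq_bot_iff_forall]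
    rintro k ⟨⟨⟨hk, hkw⟩, -⟩, hRe⟩
    exact fix_Gamma_eq_one hF ht hN hk hkw hRe.1
  rw [h3, Subgroup.card_bot, mul_one] at h1
  exact h1.symm

/-- The kernel of the map to `PSL₂`. -/
theorem card_Sc_le (hN : NoTv q hF H) (n : ℕ) (hn : 0 < n)
    (hpow : ∀ k ∈ H, ∀ l : F, l ≠ 0 → act k e = l • e → l ^ (q + 1) = 1 → l ^ n = 1) :
    Nat.card ↥(((H ⊓ lineStab 3 q w (w_ne ht)) ⊓ lineStab 3 q e (e_ne ht)) ⊓ Sc hF ht) ≤ n := by
  classical
  have hval : ∀ k : ↥(((H ⊓ lineStab 3 q w (w_ne ht)) ⊓ lineStab 3 q e (e_ne ht)) ⊓ Sc hF ht),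
      ⟪act k.1 e, f⟫ ^ n = 1 := by
    rintro ⟨k, ⟨⟨hk, hkw⟩, hke⟩, hSc⟩
    obtain ⟨hg, h1⟩ := (mem_Sc hF ht).1 hSc
    obtain ⟨h3, h4, h5⟩ := (phi_eq_one_iff ht hF _).1 h1
    simp only at h3 h4 h5 ⊢
    have h6 := act_e_of_mem hF ht hke
    have hne : ⟪act k e, f⟫ ≠ 0 := by
      intro h0
      rw [h0, zero_smul] at h6
      exact act_ne_zero k (e_ne ht) h6
    apply hpow k hk _ hne h6
    have h7 := form_f_e hF ht k h6
    rw [← h5] at h7
    rw [pow_succ, mul_comm]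
    exact h7
  let φ : ↥(((H ⊓ lineStab 3 q w (w_ne ht)) ⊓ lineStab 3 q e (e_ne ht)) ⊓ Sc hF ht) → {t : F // t ^ n = 1} :=
    fun k => ⟨⟪act k.1 e, f⟫, hval k⟩
  have hφ : Function.Injective φ := by
    rintro ⟨a, ⟨⟨ha, haw⟩, hae⟩, ha2⟩ ⟨b, ⟨⟨hb, hbw⟩, hbe⟩, hb2⟩ hab
    have h1 : ⟪act a e, f⟫ = ⟪act b e, f⟫ := congrArg Subtype.val hab
    have h3 := act_e_of_mem hF ht hae
    have h4 := act_e_of_mem hF ht hbe
    have hne : ⟪act a e, f⟫ ≠ 0 := by
      intro h0
      rw [h0, zero_smul] at h3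
      exact act_ne_zero a (e_ne ht) h3
    have h5 : act (a⁻¹ * b) e = e := by
      rw [act_mul, h4, ← h1, act_smul]
      have h6 := act_inv_act a e
      rw [h3, act_smul] at h6
      exact h6
    have h6 := fix_Gamma_eq_one hF ht hN (H.mul_mem (H.inv_mem ha) hb)
      ((lineStab 3 q w (w_ne ht)).mul_mem ((lineStab 3 q w (w_ne ht)).inv_mem haw) hbw) h5
    apply Subtype.ext
    exact inv_mul_eq_one.1 h6
  exact (Nat.card_le_card_of_injective φ hφ).trans (card_pow_eq_one_le hn)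

/-- The contradiction. -/
theorem odd_contra (p : ℕ) [Fact p.Prime] [CharP F p] (hpq : p ∣ q) (h2 : (2 : F) ≠ 0) (hq4 : 4 ≤ q) {τ : SU 3 F q}
    (hτ : τ ∈ H) (hr : IsRefl q τ w) (hN : NoTv q hF H)
    (hT : ∀ x y : Fin 3 → F, ⟪x, x⟫ = 0 → x ≠ 0 → ⟪y, y⟫ = 0 → y ≠ 0 → ∃ h ∈ H, ∃ c : F, c ≠ 0 ∧ act h x = c • y)
    (n : ℕ) (hn : 0 < n)
    (hpow : ∀ k ∈ H, ∀ l : F, l ≠ 0 → act k e = l • e → l ^ (q + 1) = 1 → l ^ n = 1)
    (hnum : ∀ κ : ℕ, κ * n ≥ Nat.card (lamOn ht (H ⊓ lineStab 3 q e (e_ne ht)) inf_le_right).range →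
      3 ≤ κ ∧ (q + 1) * κ ≠ 12 ∧ (q + 1) * κ ≠ 24 ∧ (q + 1) * κ ≠ 60) : False := by
  set Γ := H ⊓ lineStab 3 q w (w_ne ht) with hΓdef
  have hΓ : Γ ≤ lineStab 3 q w (w_ne ht) := inf_le_right
  have htr := trans_Gamma hF ht p h2 hτ hr hT
  obtain ⟨h1, h3⟩ := line_main hF ht p hq4 hΓ htr
  set κ := Nat.card (Kof hF ht (Γ ⊓ lineStab 3 q e (e_ne ht)) (inf_le_left.trans hΓ)) with hκ
  have h4 := card_Kof hF ht (Γ ⊓ lineStab 3 q e (e_ne ht)) (inf_le_left.trans hΓ)
  rw [← hκ, card_Gamma_L hF ht p h2 hτ hr hN] at h4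
  have h5 := card_Sc_le hF ht hN n hn hpow
  set E := Nat.card (lamOn ht (H ⊓ lineStab 3 q e (e_ne ht)) inf_le_right).range with hE
  set z := Nat.card ↥((Γ ⊓ lineStab 3 q e (e_ne ht)) ⊓ Sc hF ht) with hz
  have h6 : κ * n ≥ E := by
    rw [← h4]
    exact Nat.mul_le_mul_left _ h5
  obtain ⟨h7, h8, h8', h8''⟩ := hnum κ h6
  have hEd : E ∣ q ^ 2 - 1 := by
    have := Subgroup.card_subgroup_dvd_card (lamOn ht (H ⊓ lineStab 3 q e (e_ne ht)) inf_le_right).range
    have hcardU : Nat.card Fˣ = q ^ 2 - 1 := by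
      rw [Nat.card_units, Nat.card_eq_fintype_card, hF]
    rwa [hcardU] at this
  have hκd : κ ∣ q ^ 2 - 1 := (Dvd.intro _ h4).trans hEd
  rcases h3 with h3 | h3 | ⟨q', m, h9, h10, h11, h12⟩
  · omega
  · rw [h1] at h3
    omega
  · -- the prime divides the order of the image
    have hm : m ≠ 0 := by
      rintro rfl
      rw [pow_zero] at h10
      have : 16 ≤ q ^ 2 := by nlinarith
      omega
    have hpq' : p ∣ q' := by
      obtain ⟨r, hr1, hr2⟩ := Nat.exists_prime_and_dvd (by omega : q' ≠ 1)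
      have h13 : r ∣ q ^ 2 := by
        rw [← h10]
        exact dvd_pow hr2 hm
      have h14 : r ∣ q := hr1.dvd_of_dvd_pow h13
      obtain ⟨p', k, hp', hc', hk⟩ := exists_char_pow hF
      have hpp' : p = p' := CharP.eq F ‹CharP F p› hc'
      subst hpp'
      rw [hk] at h14
      have h15 := hr1.dvd_of_dvd_pow h14
      rw [(Nat.prime_dvd_prime_iff_eq hr1 hp').1 h15] at hr2
      exact hr2
    have hp1 : p ∣ (q + 1) * κ := by
      rw [h1] at h11
      exact hpq'.trans h11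
    have hpp := (Fact.out : p.Prime)
    have hq1 : 1 ≤ q ^ 2 := by nlinarith
    have hndiv : ∀ a : ℕ, p ∣ q → p ∣ a → (a = q + 1 ∨ a = q ^ 2 - 1) → False := by
      rintro a h13 h14 (rfl | rfl)
      · have : p ∣ 1 := (Nat.dvd_add_right h13).1 h14
        exact hpp.one_lt.ne' (Nat.dvd_one.1 this)
      · have h15 : p ∣ q ^ 2 := dvd_pow h13 (by norm_num)
        have h16 : p ∣ 1 := by
          have h17 : q ^ 2 - 1 + 1 = q ^ 2 := by omega
          have h18 := (Nat.dvd_add_right h14).1 (by rw [h17]; exact h15)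
          exact h18
        exact hpp.one_lt.ne' (Nat.dvd_one.1 h16)
    rcases hpp.dvd_mul.1 hp1 with h13 | h13
    · exact hndiv _ hpq h13 (Or.inl rfl)
    · exact hndiv _ hpq (h13.trans hκd) (Or.inr rfl)

/-- The main theorem for subgroups without transvections, `q` odd. -/
theorem case_odd_main (p : ℕ) [Fact p.Prime] [CharP F p] (hpq : p ∣ q) (hodd : Odd q) (hq3 : 3 ≤ q) (hq5 : q ≠ 5)
    (hN : NoTv q hF H) (hd : H.index ≤ q ^ 3)
    (hT : ∀ x y : Fin 3 → F, ⟪x, x⟫ = 0 → x ≠ 0 → ⟪y, y⟫ = 0 → y ≠ 0 → ∃ h ∈ H, ∃ c : F, c ≠ 0 ∧ act h x = c • y)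
    {τ : SU 3 F q} (hτ : τ ∈ H) (hr : IsRefl q τ w) :
    (q = 3 ∧ Nat.card H = 224) ∨
      (q = 11 ∧ Nat.card ↥(H ⊓ lineStab 3 q e (e_ne ht)) = 330 ∧ Nat.card ↥(H ⊓ Re q e) = 11) := by
  classical
  have h2 : (2 : F) ≠ 0 := two_ne_zero_of_odd hF hodd
  have he0 := e_ne ht
  set HL := H ⊓ lineStab 3 q e he0 with hHL
  have hc1 := card_inf_mul hF ht.he he0 H hq3 hd
  have hcardH := card_H_eq hF ht.he he0 H hq3 hd
  have hge : q ^ 2 - 1 ≤ Nat.card HL := by
    by_contra hcon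
    push Not at hcon
    have h3 : Nat.card HL * H.index < (q ^ 2 - 1) * q ^ 3 := by
      have h4 : Nat.card HL * H.index ≤ Nat.card HL * q ^ 3 := Nat.mul_le_mul_left _ hd
      have h5 : Nat.card HL * q ^ 3 < (q ^ 2 - 1) * q ^ 3 :=
        Nat.mul_lt_mul_of_lt_of_le hcon (le_refl _) (by positivity)
      omega
    rw [hc1] at h3
    have h4 : q ^ 3 * (q ^ 2 - 1) = (q ^ 2 - 1) * q ^ 3 := mul_comm _ _
    omega
  have hcl := card_lam hF ht HL inf_le_right
  set E := Nat.card (lamOn ht HL inf_le_right).range with hE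
  have hEd : E ∣ q ^ 2 - 1 := by
    have := Subgroup.card_subgroup_dvd_card (lamOn ht HL inf_le_right).range
    have hcardU : Nat.card Fˣ = q ^ 2 - 1 := by
      rw [Nat.card_units, Nat.card_eq_fintype_card, hF]
    rwa [hcardU] at this
  have hq2 : 9 ≤ q ^ 2 := by nlinarith
  have hHLRe : HL ⊓ Re q e = H ⊓ Re q e := by
    ext g
    constructor
    · rintro ⟨⟨a, -⟩, b⟩
      exact ⟨a, b⟩
    · rintro ⟨a, b⟩
      exact ⟨⟨a, 1, one_ne_zero, by rw [b.1, one_smul]⟩, b⟩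
  rw [hHLRe] at hcl
  set a := Nat.card ↥(H ⊓ Re q e) with ha
  by_cases hA : ∃ u₀ ∈ H, act u₀ e = e ∧ u₀ ≠ 1
  · -- nontrivial elements fixing `e`
    obtain ⟨u₀, hu₀, hue, hne⟩ := hA
    have haq : a ≤ q := card_A_le hF ht hN hu₀ hue hne
    have hcube : ∀ g ∈ H, ∀ l : F, l ≠ 0 → act g e = l • e → (l ^ q) ^ 3 = l ^ 3 :=
      fun g hg l hl hgl => lam_cube hF ht hN hu₀ hue hne hg hl hgl
    have hexp : E ∣ 3 * (q - 1) := by
      apply card_dvd_of_exponent
      rintro x ⟨⟨g, hg⟩, rfl⟩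
      apply Units.ext
      rw [Units.val_pow_eq_pow_val, lamOn_apply hF ht, Units.val_one]
      have h5 := act_e_of_mem hF ht hg.2
      set l := ⟪act g e, f⟫ with hl
      have hl0 : l ≠ 0 := by
        intro h0
        rw [h0, zero_smul] at h5
        exact act_ne_zero g he0 h5
      have h6 := hcube g hg.1 l hl0 h5
      have h7 : l ^ (3 * (q - 1)) * l ^ 3 = l ^ 3 := by
        rw [← pow_add, show 3 * (q - 1) + 3 = q * 3 by omega, pow_mul]
        exact h6
      exact mul_right_cancel₀ (pow_ne_zero 3 hl0) (by rw [h7, one_mul])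
    obtain ⟨h3q, h2E⟩ := num2 hq3 haq (by rw [← hcl, mul_comm] at hge; exact hge) hexp hEd
    -- the exceptional value
    by_cases hq11 : q = 11
    · right
      refine ⟨hq11, ?_⟩
      -- `a` is a power of `11`
      have ha1 : a ≠ 1 := by
        intro h0
        have h1 : (⟨u₀, hu₀, (mem_Re_iff hF ht.he he0).2 hue⟩ : ↥(H ⊓ Re q e)) = 1 :=
          (Nat.card_eq_one_iff_unique.1 h0).1.elim _ _
        exact hne (congrArg Subtype.val h1)
      have hpp : p = 11 := by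
        rw [hq11] at hpq
        exact (Nat.prime_dvd_prime_iff_eq (Fact.out : p.Prime) (by norm_num : Nat.Prime 11)).1 hpq
      have hP : IsPGroup p ↥(H ⊓ Re q e) := IsPGroup.to_le (isPGroup_Re (q := q) p e) inf_le_right
      obtain ⟨j, hj⟩ := IsPGroup.iff_card.1 hP
      rw [← ha] at hj
      have ha11 : a = 11 := by
        rcases j with _ | j
        · simp at hj
          exact absurd hj ha1
        · have : p ∣ a := by
            rw [hj, pow_succ]
            exact dvd_mul_left _ _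
          rw [hpp] at this
          have h5 : 0 < a := Nat.card_pos
          have := Nat.le_of_dvd h5 this
          omega
      -- the order of `E`
      have hτe : act τ e = (-1 : F) • e := by
        rw [hr.act_perp hF (ht.hew hF), neg_one_smul]
      have hτL : τ ∈ HL := ⟨hτ, -1, by
        rw [ne_eq, neg_eq_zero]
        exact one_ne_zero, hτe⟩
      have hE2 : 2 ∣ E := by
        let x₀ : (lamOn ht HL inf_le_right).range := ⟨lamOn ht HL inf_le_right ⟨τ, hτL⟩, ⟨_, rfl⟩⟩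
        have hval : ((x₀.1 : Fˣ) : F) = -1 := by
          change ⟪act τ e, f⟫ = -1
          rw [hτe, hermForm_smul_left, ht.hef, mul_one]
        have hx1 : x₀ ≠ 1 := by
          intro h0
          have h5 : ((x₀.1 : Fˣ) : F) = 1 := by
            rw [h0]
            rfl
          rw [hval] at h5
          apply h2
          linear_combination -h5
        have hxx : x₀ ^ 2 = 1 := by
          apply Subtype.ext
          apply Units.ext
          simp only [Subgroup.coe_pow, Units.val_pow_eq_pow_val, hval, Subgroup.coe_one, Units.val_one]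
          ring
        have hord : orderOf x₀ = 2 := orderOf_eq_prime hxx hx1
        rw [← hord]
        exact orderOf_dvd_natCard x₀
      have hE30 : E = 30 := by
        obtain ⟨k, hk⟩ := hexp
        rw [hq11] at hk h2E
        norm_num at hk h2E
        have hk2 : k ≤ 2 := by
          by_contra hcon
          push Not at hcon
          have : E * 3 ≤ E * k := Nat.mul_le_mul_left _ hcon
          omega
        interval_cases k <;> omega
      rw [← hcl, hE30, ha11]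
      exact ⟨rfl, rfl⟩
    · -- `q ≥ 17`
      have hq17 : 17 ≤ q := by
        obtain ⟨r, hr⟩ := hodd
        obtain ⟨s, hs⟩ := h3q
        omega
      exfalso
      refine odd_contra hF ht p hpq h2 (by omega) hτ hr hN hT 6 (by norm_num) ?_ ?_
      · intro k hk l hl hkl hn
        have h6 := hcube k hk l hl hkl
        have h7 : l ^ q * l = 1 := by
          rw [← pow_succ]
          exact hn
        have h8 : (l ^ q * l) ^ 3 = 1 := by rw [h7, one_pow]
        rw [mul_pow, h6] at h8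
        rw [show (6 : ℕ) = 3 + 3 by norm_num, pow_add]
        exact h8
      · intro κ hκ
        have hκ' : κ * 6 ≥ E := hκ
        have h9 : 3 * (q - 1) ≤ 12 * κ := by omega
        have h10 : 4 ≤ κ := by omega
        have h11 : 72 ≤ (q + 1) * κ := by
          have h12 : (q + 1) * (q - 1) ≤ (q + 1) * (4 * κ) := Nat.mul_le_mul_left _ (by omega)
          obtain ⟨r, rfl⟩ : ∃ r, q = r + 17 := ⟨q - 17, by omega⟩
          simp only [show r + 17 - 1 = r + 16 by omega] at h12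
          nlinarith
        refine ⟨by omega, by omega, by omega, by omega⟩
  · -- no nontrivial elements fixing `e`
    push Not at hA
    have hA1 : H ⊓ Re q e = ⊥ := by
      rw [Subgroup.eq_bot_iff_forall]
      rintro u ⟨hu, hu'⟩
      exact hA u hu hu'.1
    have ha1 : a = 1 := by
      rw [ha, hA1, Subgroup.card_bot]
    rw [ha1, mul_one] at hcl
    have hEge : q ^ 2 - 1 ≤ E := by rw [hcl]; exact hge
    have hE1 : E = q ^ 2 - 1 := le_antisymm (Nat.le_of_dvd (by omega) hEd) hEge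
    by_cases hq3' : q = 3
    · left
      subst hq3'
      refine ⟨rfl, ?_⟩
      rw [hcardH, ← hHL, ← hcl, hE1]
      norm_num
    · exfalso
      have hq7 : 7 ≤ q := by
        obtain ⟨r, hr⟩ := hodd
        omega
      refine odd_contra hF ht p hpq h2 (by omega) hτ hr hN hT (q + 1) (by omega) (fun _ _ _ _ _ h => h) ?_
      intro κ hκ
      rw [← hE, hE1] at hκ
      have hsq : q ^ 2 - 1 = (q - 1) * (q + 1) := by
        obtain ⟨r, rfl⟩ : ∃ r, q = r + 1 := ⟨q - 1, by omega⟩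
        simp only [Nat.add_sub_cancel]
        have : (r + 1) ^ 2 = r * (r + 1 + 1) + 1 := by ring
        omega
      rw [hsq] at hκ
      have h6 : q - 1 ≤ κ := Nat.le_of_mul_le_mul_right hκ (by omega)
      refine ⟨by omega, ?_⟩
      by_cases hq7' : q = 7
      · subst hq7'
        refine ⟨by omega, by omega, by omega⟩
      · have hq9 : 9 ≤ q := by
          obtain ⟨r, hr⟩ := hodd
          omega
        have h7 : (q + 1) * (q - 1) ≤ (q + 1) * κ := Nat.mul_le_mul_left _ h6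
        have h8 : 80 ≤ (q + 1) * (q - 1) := by
          obtain ⟨r, rfl⟩ : ∃ r, q = r + 9 := ⟨q - 9, by omega⟩
          simp only [show r + 9 - 1 = r + 8 by omega]
          nlinarith
        refine ⟨by omega, by omega, by omega⟩

end Cfsg.Agent.Lib.MinIndex.U3.OddCase
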