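import Mathlib
import Cfsg.Agent.Lib.MinIndex.U3.OddCase

/-!
# Elements without eigenvectors in `SU₃(q)`
-/

set_option autoImplicit false
set_option linter.unusedSectionVars false
set_option linter.unusedSimpArgs false
set_option linter.unusedVariables false
set_option linter.style.haveILetI false

open scoped Matrix MatrixGroups
open Cfsg
open Cfsg.Agent.Lib.Classical.Herm.Basic Cfsg.Agent.Lib.Classical.Herm.Form
open Cfsg.Agent.Lib.Classical.Herm.GU Cfsg.Agent.Lib.Classical.Herm.SU
open Cfsg.Agent.Lib.Classical.Herm.Tv Cfsg.Agent.Lib.Classical.Herm.Comm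
open Cfsg.Agent.Lib.Classical.Herm.Unip Cfsg.Agent.Lib.Classical.Herm.SU3Sylow
open Cfsg.Agent.Lib.Classical.Herm.SU3Invol Cfsg.Agent.Lib.Classical.Herm.Subfield
open Cfsg.Agent.Lib.MinIndex.UFinal Cfsg.Agent.Lib.MinIndex.U3.Base Cfsg.Agent.Lib.MinIndex.U3.Points
open Cfsg.Agent.Lib.MinIndex.U3.Line Cfsg.Agent.Lib.MinIndex.U3.LineMain Cfsg.Agent.Lib.MinIndex.U3.Local
open Cfsg.Agent.Lib.MinIndex.U3.EvenCase Cfsg.Agent.Lib.MinIndex.U3.Kzero

namespace Cfsg.Agent.Lib.MinIndex.U3.Eigen

variable {F : Type*} [Field F] [Fintype F] {q : ℕ}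

local notation "⟪" x ", " y "⟫" => hermForm _ _ q x y

/-- The stabiliser of a vector. -/
def stabVec (q : ℕ) (v : Fin 3 → F) : Subgroup (SU 3 F q) where
  carrier := {g | act g v = v}
  mul_mem' := by
    intro a b ha hb
    change act (a * b) v = v
    rw [act_mul, show act b v = v from hb, show act a v = v from ha]
  one_mem' := act_one _
  inv_mem' := by
    intro a ha
    change act a⁻¹ v = v
    conv_lhs => rw [← show act a v = v from ha]
    exact act_inv_act a v

theorem mem_stabVec {v : Fin 3 → F} {g : SU 3 F q} : g ∈ stabVec q v ↔ act g v = v := Iff.rfl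

variable (hF : Fintype.card F = q ^ 2)

include hF

theorem card_stabVec {v : Fin 3 → F} (hv : ⟪v, v⟫ = 1) : Nat.card (stabVec q v) = q * (q ^ 2 - 1) := by
  have hq := two_le_q hF
  let π : SU 3 F q → {x : Fin 3 → F // ⟪x, x⟫ = 1} := fun g => ⟨act g v, by rw [h_act]; exact hv⟩
  have hs : Function.Surjective π := by
    rintro ⟨x, hx⟩
    obtain ⟨g, hg⟩ := exists_act_eq hF hv hx
    exact ⟨g, Subtype.ext hg⟩
  have hf : ∀ a b, π a = π b ↔ a⁻¹ * b ∈ stabVec q v := by
    intro a b
    constructor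
    · intro h
      have h1 : act a v = act b v := congrArg Subtype.val h
      change act (a⁻¹ * b) v = v
      rw [act_mul, ← h1, act_inv_act]
    · intro h
      apply Subtype.ext
      change act a v = act b v
      have h1 : act (a⁻¹ * b) v = v := h
      rw [act_mul] at h1
      have h2 := act_act_inv a (act b v)
      rw [h1] at h2
      exact h2
  have h1 := index_eq_of_fiber _ π hs hf
  rw [card_unit hF] at h1
  have h2 := Subgroup.card_mul_index (stabVec q v)
  rw [h1, card_SU3 hF] at h2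
  have h3 : 0 < q ^ 2 * (q ^ 3 + 1) := by positivity
  apply Nat.eq_of_mul_eq_mul_right h3
  rw [h2]
  ring

/-- An element of a prime order not dividing the order of the relevant stabilisers has no eigenvector. -/
theorem no_eigen {r : ℕ} (hr : r.Prime) (hrq : ¬ r ∣ q) (hr1 : ¬ r ∣ q ^ 2 - 1) {g : SU 3 F q} (hg : orderOf g = r)
    {y : Fin 3 → F} (hy0 : y ≠ 0) {c : F} (h : act g y = c • y) : False := by
  have hq := two_le_q hF
  have hc0 : c ≠ 0 := by
    rintro rfl
    rw [zero_smul] at h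
    exact act_ne_zero g hy0 h
  by_cases hiso : ⟪y, y⟫ = 0
  · have hgL : g ∈ lineStab 3 q y hy0 := ⟨c, hc0, h⟩
    have h1 : orderOf (⟨g, hgL⟩ : lineStab 3 q y hy0) ∣ Nat.card (lineStab 3 q y hy0) := orderOf_dvd_natCard _
    rw [Subgroup.orderOf_mk, hg, card_L hF hiso hy0] at h1
    rcases hr.dvd_mul.1 h1 with h2 | h2
    · exact hrq (hr.dvd_of_dvd_pow h2)
    · exact hr1 h2
  · have h1 := h_act (q := q) g y y
    rw [h, hermForm_smul_left, hermForm_smul_right] at h1
    have h2 : c ^ (q + 1) = 1 := by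
      have h3 : (c ^ (q + 1) - 1) * ⟪y, y⟫ = 0 := by
        rw [pow_succ]
        linear_combination h1
      exact sub_eq_zero.1 ((mul_eq_zero.1 h3).resolve_right hiso)
    have hpow : ∀ n : ℕ, act (g ^ n) y = c ^ n • y := by
      intro n
      induction n with
      | zero => simp
      | succ n ih =>
        rw [pow_succ, act_mul, h, act_smul, ih, smul_smul, pow_succ, mul_comm]
    have h3 : c ^ r = 1 := by
      have h4 := hpow r
      rw [← hg, pow_orderOf_eq_one, act_one] at h4
      rw [hg] at h4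
      have h5 : (c ^ r - 1) • y = 0 := by
        rw [sub_smul, one_smul, ← h4, sub_self]
      rcases smul_eq_zero.1 h5 with h6 | h6
      · exact sub_eq_zero.1 h6
      · exact absurd h6 hy0
    have hcop : Nat.Coprime r (q + 1) := by
      rw [Nat.Prime.coprime_iff_not_dvd hr]
      intro h4
      apply hr1
      have hsq : q ^ 2 - 1 = (q + 1) * (q - 1) := by
        obtain ⟨s, rfl⟩ : ∃ s, q = s + 1 := ⟨q - 1, by omega⟩
        simp only [Nat.add_sub_cancel]
        have : (s + 1) ^ 2 = (s + 1 + 1) * s + 1 := by ring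
        omega
      rw [hsq]
      exact h4.trans (dvd_mul_right _ _)
    have h4 : c = 1 := by
      have h5 := (pow_gcd_eq_one (a := c) (m := r) (n := q + 1)).2 ⟨h3, h2⟩
      rw [hcop.gcd_eq_one, pow_one] at h5
      exact h5
    rw [h4, one_smul] at h
    obtain ⟨k, hk⟩ := exists_norm_eq hF ⟪y, y⟫ hiso (hermForm_self_pow_q hF 3 y)
    have hk0 : k ≠ 0 := by
      rintro rfl
      rw [zero_pow (by omega)] at hk
      exact hiso hk.symm
    have hv : ⟪k⁻¹ • y, k⁻¹ • y⟫ = 1 := by
      rw [hermForm_smul_left, hermForm_smul_right, ← hk, pow_succ, inv_pow]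
      have : k ^ q ≠ 0 := pow_ne_zero _ hk0
      field_simp
    have hgv : g ∈ stabVec q (k⁻¹ • y) := by
      change act g (k⁻¹ • y) = _
      rw [act_smul, h]
    have h5 : orderOf (⟨g, hgv⟩ : stabVec q (k⁻¹ • y)) ∣ Nat.card (stabVec q (k⁻¹ • y)) := orderOf_dvd_natCard _
    rw [Subgroup.orderOf_mk, hg, card_stabVec hF hv] at h5
    rcases hr.dvd_mul.1 h5 with h6 | h6
    · exact hrq h6
    · exact hr1 h6

/-- Fixing a vector under the square of an element of odd order. -/
theorem fix_of_sq {r : ℕ} (hodd : Odd r) {g : SU 3 F q} (hg : orderOf g = r) {u : Fin 3 → F}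
    (h : act (g⁻¹ * g⁻¹) u = u) : act g u = u := by
  have h1 : act (g * g) u = u := by
    have h2 := congrArg (act (g * g)) h
    rw [← act_mul] at h2
    have h3 : g * g * (g⁻¹ * g⁻¹) = 1 := by group
    rw [h3, act_one] at h2
    exact h2.symm
  have hpow : ∀ n : ℕ, act ((g * g) ^ n) u = u := by
    intro n
    induction n with
    | zero => simp
    | succ n ih => rw [pow_succ, act_mul, h1, ih]
  obtain ⟨s, hs⟩ := hodd
  have h4 : g = (g * g) ^ (s + 1) := by
    rw [← pow_two, ← pow_mul, show 2 * (s + 1) = 2 * s + 1 + 1 by ring, pow_succ, ← hs, ← hg, pow_orderOf_eq_one, one_mul]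
  rw [h4]
  exact hpow _

/-- An involution of `SU₃(q)`, `q` even, is a transvection. -/
theorem exists_tv_of_invol (h2 : (2 : F) = 0) {t : SU 3 F q} (ht1 : t ≠ 1) (htt : t * t = 1) :
    ∃ (x : Fin 3 → F) (hx : ⟪x, x⟫ = 0) (b : F) (hb : b + b ^ q = 0), x ≠ 0 ∧ b ≠ 0 ∧ t = tv hF hx hb := by
  obtain ⟨p, k, hp, hc, hk⟩ := exists_char_pow hF
  have hp2 : p = 2 := by
    have h3 : p ∣ 2 := by
      have := (CharP.cast_eq_zero_iff F p 2).1 (by exact_mod_cast h2)
      exact this
    exact (Nat.prime_dvd_prime_iff_eq hp Nat.prime_two).1 h3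
  subst hp2
  have hq := two_le_q hF
  have h2q : 2 ∣ q := by
    rw [hk]
    apply dvd_pow_self
    rintro rfl
    rw [pow_zero] at hk
    omega
  haveI : Fact (Nat.Prime 2) := ⟨Nat.prime_two⟩
  have hU : IsPGroup 2 (Subgroup.zpowers t) := by
    apply IsPGroup.of_card (n := 1)
    rw [Nat.card_zpowers, pow_one]
    exact orderOf_eq_prime (by rw [pow_two]; exact htt) ht1
  obtain ⟨x, hx0, hx, hfix⟩ := exists_fixed_iso 2 h2q hF (n := 3) (by norm_num) _ hU
  have hte := hfix t (Subgroup.mem_zpowers t)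
  obtain ⟨f, w, ht⟩ := exists_triple hF hx hx0
  have h3 := bb_mul hF ht (w := w) hte hte
  rw [htt] at h3
  have h4 : bb q f (1 : SU 3 F q) = 0 := by
    unfold bb
    rw [act_one, ht.hf]
  rw [h4] at h3
  have h5 : ss q f w t ^ (q + 1) = 0 := by
    rw [pow_succ]
    linear_combination h3 + (bb q f t) * h2
  have h6 : ss q f w t = 0 := (pow_eq_zero_iff (by omega)).1 h5
  refine ⟨x, hx, bb q f t, bb_trace_of_ss_zero hF ht hte h6, hx0, ?_, eq_tv_of_ss_zero hF ht hte h6⟩
  intro h0
  exact ht1 (act_one_of_ss_zero hF ht hte h6 h0)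

/-- An involution cannot normalise the subgroup generated by an element of such a prime order. -/
theorem no_invol_norm {r : ℕ} (hr : r.Prime) (hr2 : r ≠ 2) (hrq : ¬ r ∣ q) (hr1 : ¬ r ∣ q ^ 2 - 1) {g t : SU 3 F q}
    (hg : orderOf g = r) (ht1 : t ≠ 1) (htt : t * t = 1) {k : ℕ} (hk : t * g * t⁻¹ = g ^ k) : False := by
  haveI : Fact r.Prime := ⟨hr⟩
  have hodd : Odd r := hr.odd_of_ne_two hr2
  have htinv : t⁻¹ = t := inv_eq_of_mul_eq_one_left htt
  -- `k` is `±1` modulo `r`
  have h1 : g ^ (k * k) = g ^ 1 := by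
    have h3 : t * (g ^ k) * t⁻¹ = g := by
      rw [← hk]
      have : t * (t * g * t⁻¹) * t⁻¹ = (t * t) * g * (t⁻¹ * t⁻¹) := by group
      rw [this, htt, htinv, htt]
      group
    rw [← conj_pow, hk, ← pow_mul] at h3
    rw [pow_one]
    exact h3
  have h3 : ((k : ZMod r)) * k = 1 := by
    have h4 := (pow_eq_pow_iff_modEq.1 h1)
    rw [hg] at h4
    have h5 := (ZMod.natCast_eq_natCast_iff _ _ _).2 h4
    push_cast at h5
    exact h5
  have hcase : t * g * t⁻¹ = g ∨ t * g * t⁻¹ = g⁻¹ := by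
    rcases mul_self_eq_one_iff.1 h3 with h4 | h4
    · left
      rw [hk]
      have h5 : (k : ZMod r) = ((1 : ℕ) : ZMod r) := by simpa using h4
      have h6 := (ZMod.natCast_eq_natCast_iff _ _ _).1 h5
      have h7 : g ^ k = g ^ 1 := by
        apply pow_eq_pow_iff_modEq.2
        rw [hg]
        exact h6
      rw [h7, pow_one]
    · right
      rw [hk]
      have h5 : ((k + 1 : ℕ) : ZMod r) = 0 := by
        push_cast
        rw [h4]
        ring
      have h6 : r ∣ k + 1 := (ZMod.natCast_eq_zero_iff _ _).1 h5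
      have h7 : g ^ (k + 1) = 1 := by
        rw [← orderOf_dvd_iff_pow_eq_one, hg]
        exact h6
      rw [pow_succ] at h7
      exact eq_inv_of_mul_eq_one_left h7
  have hsq : ∀ u : Fin 3 → F, t * g * t⁻¹ = g⁻¹ → act t u = u → act (g * t * g⁻¹) u = u → act g u = u := by
    intro u h4 h5 h6
    apply fix_of_sq hF hodd hg
    have h7 : g⁻¹ * g⁻¹ = t * (g * t * g⁻¹) := by
      have : t * (g * t * g⁻¹) = (t * g * t⁻¹) * (t * t) * g⁻¹ := by
        group
      rw [this, h4, htt]
      group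
    rw [h7, act_mul, h6, h5]
  have hsq' : ∀ u : Fin 3 → F, t * g * t⁻¹ = g⁻¹ → act t u = -u → act (g * t * g⁻¹) u = -u → act g u = u := by
    intro u h4 h5 h6
    apply fix_of_sq hF hodd hg
    have h7 : g⁻¹ * g⁻¹ = t * (g * t * g⁻¹) := by
      have : t * (g * t * g⁻¹) = (t * g * t⁻¹) * (t * t) * g⁻¹ := by
        group
      rw [this, h4, htt]
      group
    rw [h7, act_mul, h6, act_neg, h5, neg_neg]
  have hcomm : t * g * t⁻¹ = g → g * t * g⁻¹ = t := by
    intro h4
    have h5 : t * g = g * t := by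
      have : t * g * t⁻¹ * t = g * t := by rw [h4]
      rw [← this]
      group
    rw [← h5]
    group
  have hone : ∀ u : Fin 3 → F, u ≠ 0 → act g u = u → False := by
    intro u hu h4
    exact no_eigen hF hr hrq hr1 hg hu (c := 1) (by rw [h4, one_smul])
  by_cases h2 : (2 : F) = 0
  · obtain ⟨x, hx, b, hb, hx0, hb0, rfl⟩ := exists_tv_of_invol hF h2 ht1 htt
    have hgx : ⟪act g x, act g x⟫ = 0 := by rw [h_act]; exact hx
    have hconj := conj_tv hF g hx hgx hb
    rcases hcase with h4 | h4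
    · -- the element commutes
      have h5 := hcomm h4
      rw [hconj] at h5
      obtain ⟨f, hf, hxf⟩ := exists_partner hF hx hx0
      have hfx := hermForm_symm_one hF hxf
      have h6 := congrArg (fun s => act s f) h5
      simp only [act_tv, hfx] at h6
      have h7 := add_left_cancel h6
      -- `⟪f, g x⟫ b • g x = b • x`
      have hc : ⟪f, act g x⟫ ≠ 0 := by
        intro h0
        rw [h0, mul_zero, zero_smul, mul_one] at h7
        rcases smul_eq_zero.1 h7.symm with h8 | h8
        · exact hb0 h8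
        · exact hx0 h8
      apply no_eigen hF hr hrq hr1 hg hx0 (c := ⟪f, act g x⟫⁻¹)
      have h8 : (⟪f, act g x⟫ * b) • act g x = b • x := by
        rw [mul_comm]
        rw [mul_one] at h7
        exact h7
      funext i
      have h9 := congrFun h8 i
      simp only [Pi.smul_apply, smul_eq_mul] at h9 ⊢
      rw [eq_inv_mul_iff_mul_eq₀ hc]
      apply mul_left_cancel₀ hb0
      linear_combination h9
    · -- the element inverts
      obtain ⟨u, hu0, hu⟩ := exists_perp_ne_zero (q := q) (n := 3) (k := 2) (by norm_num) ![x, act g x]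
      have h5 : ⟪u, x⟫ = 0 := hu 0
      have h6 : ⟪u, act g x⟫ = 0 := hu 1
      refine hone u hu0 (hsq u h4 ?_ ?_)
      · rw [act_tv, h5]
        simp
      · rw [hconj, act_tv, h6]
        simp
  · obtain ⟨v, hv⟩ := exists_isRefl_of_invol hF h2 ht1 htt
    have hv0 : v ≠ 0 := by
      rintro rfl
      have := hv.1
      rw [hermForm_zero_left] at this
      exact zero_ne_one this
    have hconj : IsRefl q (g * t * g⁻¹) (act g v) := hv.conj g
    rcases hcase with h4 | h4
    · have h5 := hcomm h4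
      rw [h5] at hconj
      obtain ⟨h6, -⟩ := hv.eq_smul hF h2 hconj
      exact no_eigen hF hr hrq hr1 hg hv0 h6
    · obtain ⟨u, hu0, hu⟩ := exists_perp_ne_zero (q := q) (n := 3) (k := 2) (by norm_num) ![v, act g v]
      have h5 : ⟪u, v⟫ = 0 := hu 0
      have h6 : ⟪u, act g v⟫ = 0 := hu 1
      exact hone u hu0 (hsq' u h4 (hv.act_perp hF h5) (hconj.act_perp hF h6))

end Cfsg.Agent.Lib.MinIndex.U3.Eigen
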