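import Mathlib

/-!
# Counting elements of prime order through Sylow subgroups of prime order
-/

set_option autoImplicit false
set_option linter.unusedSectionVars false
set_option linter.unusedSimpArgs false
set_option linter.unusedVariables false

namespace Cfsg.Agent.Lib.MinIndex.U3.SylowCount

variable {G : Type*} [Group G] [Finite G] {r : ℕ} [hr : Fact r.Prime]

theorem card_sylow_eq (h1 : r ∣ Nat.card G) (h2 : ¬ r ^ 2 ∣ Nat.card G) (P : Sylow r G) : Nat.card P = r := by
  rw [Sylow.card_eq_multiplicity]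
  have hne : Nat.card G ≠ 0 := Nat.card_pos.ne'
  have a1 : 1 ≤ (Nat.card G).factorization r := (hr.out.dvd_iff_one_le_factorization hne).1 h1
  have a2 : ¬ 2 ≤ (Nat.card G).factorization r := fun h => h2 ((hr.out.pow_dvd_iff_le_factorization hne).2 h)
  have : (Nat.card G).factorization r = 1 := by omega
  rw [this, pow_one]

theorem exists_gen (P : Subgroup G) (hP : Nat.card P = r) :
    ∃ g ∈ P, orderOf g = r ∧ ∀ x ∈ P, ∃ k : ℕ, x = g ^ k := by
  haveI : IsCyclic P := isCyclic_of_prime_card hP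
  obtain ⟨g, hg⟩ := IsCyclic.exists_generator (α := P)
  refine ⟨g.1, g.2, ?_, fun x hx => ?_⟩
  · rw [Subgroup.orderOf_coe, ← hP]
    exact orderOf_eq_card_of_forall_mem_zpowers hg
  · have h3 : (⟨x, hx⟩ : P) ∈ Submonoid.powers g := by
      rw [mem_powers_iff_mem_zpowers]
      exact hg _
    obtain ⟨k, hk⟩ := h3
    refine ⟨k, ?_⟩
    have := congrArg Subtype.val hk
    simpa using this.symm

theorem eq_zpowers (P : Subgroup G) (hP : Nat.card P = r) {y : G} (hy : y ∈ P) (hy1 : y ≠ 1) :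
    P = Subgroup.zpowers y := by
  have h1 : orderOf y ∣ r := by
    have := orderOf_dvd_natCard (⟨y, hy⟩ : P)
    rwa [Subgroup.orderOf_mk, hP] at this
  have h2 : orderOf y = r := by
    rcases (Nat.dvd_prime hr.out).1 h1 with h3 | h3
    · exact absurd (orderOf_eq_one_iff.1 h3) hy1
    · exact h3
  symm
  apply Subgroup.eq_of_le_of_card_ge
  · rw [Subgroup.zpowers_le]
    exact hy
  · rw [Nat.card_zpowers, h2, hP]

/-- The number of elements of order `r`. -/
theorem card_elts (h1 : r ∣ Nat.card G) (h2 : ¬ r ^ 2 ∣ Nat.card G) :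
    Nat.card (Sylow r G) * (r - 1) ≤ Nat.card {y : G // y ≠ 1 ∧ y ^ r = 1} := by
  classical
  let _ : Fintype (Sylow r G) := Fintype.ofFinite _
  have hcard := card_sylow_eq h1 h2
  let φ : (Σ P : Sylow r G, {y : (P : Subgroup G) // y ≠ 1}) → {y : G // y ≠ 1 ∧ y ^ r = 1} := fun x =>
    ⟨x.2.1.1, fun h0 => x.2.2 (Subtype.ext h0), by
      have h3 := pow_card_eq_one' (x := x.2.1)
      rw [hcard x.1] at h3
      exact congrArg Subtype.val h3⟩
  have hφ : Function.Injective φ := by
    rintro ⟨P, y, hy⟩ ⟨P', y', hy'⟩ h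
    have h3 : y.1 = y'.1 := congrArg Subtype.val h
    have hy1 : y.1 ≠ 1 := fun h0 => hy (Subtype.ext h0)
    have hy1' : y'.1 ≠ 1 := fun h0 => hy' (Subtype.ext h0)
    have h4 : (P : Subgroup G) = (P' : Subgroup G) := by
      rw [eq_zpowers (P : Subgroup G) (hcard P) y.2 hy1, eq_zpowers (P' : Subgroup G) (hcard P') y'.2 hy1', h3]
    have h5 : P = P' := Sylow.ext h4
    subst h5
    have h6 : y = y' := Subtype.ext h3
    subst h6
    rfl
  have h3 := Nat.card_le_card_of_injective φ hφ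
  rw [Nat.card_sigma] at h3
  have h4 : ∀ P : Sylow r G, Nat.card {y : (P : Subgroup G) // y ≠ 1} = r - 1 := by
    intro P
    let _ : Fintype (P : Subgroup G) := Fintype.ofFinite _
    have h5 : Nat.card {y : (P : Subgroup G) // y ≠ 1} = Fintype.card (P : Subgroup G) - 1 := by
      rw [Nat.card_eq_fintype_card]
      exact Set.card_ne_eq (1 : (P : Subgroup G))
    rw [h5, ← Nat.card_eq_fintype_card, hcard P]
  simp only [h4, Finset.sum_const, Finset.card_univ, smul_eq_mul] at h3
  rwa [Nat.card_eq_fintype_card]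

/-- The count for the exceptional order. -/
theorem count_contra (h37 : Nat.card G = 439560) [Fact (Nat.Prime 37)] [Fact (Nat.Prime 11)]
    (n37 : Nat.card (Sylow 37 G) = 3960) (n11 : Nat.card (Sylow 11 G) = 1332) {ζ : G} (hζ3 : ζ ^ 3 = 1) (hζ1 : ζ ≠ 1)
    (hζ : ∀ g : G, ζ * g = g * ζ) : False := by
  classical
  have c37 := card_elts (G := G) (r := 37) (by rw [h37]; norm_num) (by rw [h37]; norm_num)
  have c11 := card_elts (G := G) (r := 11) (by rw [h37]; norm_num) (by rw [h37]; norm_num)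
  rw [n37] at c37
  rw [n11] at c11
  have hcomm : ∀ (i : ℕ) (g : G), Commute (ζ ^ i) g := fun i g =>
    Commute.pow_left (show Commute ζ g from hζ g) i
  have hζinj : ∀ i j : Fin 3, ζ ^ (i : ℕ) = ζ ^ (j : ℕ) → i = j := by
    have hord : orderOf ζ = 3 := orderOf_eq_prime hζ3 hζ1
    intro i j h
    have h1 := pow_injOn_Iio_orderOf (x := ζ)
    rw [hord] at h1
    exact Fin.ext (h1 (by simp) (by simp) h)
  have hpow37 : ∀ (i : ℕ) (y : G), y ^ 37 = 1 → (ζ ^ i * y) ^ 37 = ζ ^ i := by
    intro i y hy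
    rw [(hcomm i y).mul_pow, hy, mul_one, ← pow_mul, mul_comm, pow_mul, show (37 : ℕ) = 3 * 12 + 1 by norm_num,
      pow_succ, pow_mul, hζ3, one_pow, one_mul]
  let f : ({y : G // y ≠ 1 ∧ y ^ 37 = 1} × Fin 3) ⊕ {y : G // y ≠ 1 ∧ y ^ 11 = 1} → G :=
    fun x => match x with
      | Sum.inl a => ζ ^ (a.2 : ℕ) * a.1.1
      | Sum.inr b => b.1
  have hf : Function.Injective f := by
    rintro (⟨⟨y, hy1, hy⟩, i⟩ | ⟨y, hy1, hy⟩) (⟨⟨y', hy1', hy'⟩, j⟩ | ⟨y', hy1', hy'⟩) h
    · change ζ ^ (i : ℕ) * y = ζ ^ (j : ℕ) * y' at h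
      have h3 := congrArg (fun z => z ^ 37) h
      simp only [hpow37 _ _ hy, hpow37 _ _ hy'] at h3
      have h4 := hζinj _ _ h3
      subst h4
      have h5 := mul_left_cancel h
      subst h5
      rfl
    · exfalso
      change ζ ^ (i : ℕ) * y = y' at h
      subst h
      have h3 := hpow37 i y hy
      have h4 : (ζ ^ (i : ℕ)) ^ 11 = 1 := by
        rw [← h3, ← pow_mul, mul_comm, pow_mul, hy', one_pow]
      have hord : orderOf ζ = 3 := orderOf_eq_prime hζ3 hζ1
      have h5 : 3 ∣ (i : ℕ) * 11 := by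
        have h8 := orderOf_dvd_of_pow_eq_one (x := ζ) (n := (i : ℕ) * 11) (by rw [pow_mul]; exact h4)
        rwa [hord] at h8
      have h6 : (i : ℕ) = 0 := by
        have := i.2
        omega
      rw [h6, pow_zero, one_mul] at hy' hy1'
      have h7 : y ^ 1 = 1 := by
        have h8 := (pow_gcd_eq_one (a := y) (m := 37) (n := 11)).2 ⟨hy, hy'⟩
        simpa using h8
      rw [pow_one] at h7
      exact hy1 h7
    · exfalso
      change y = ζ ^ (j : ℕ) * y' at h
      subst h
      have h3 := hpow37 j y' hy'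
      have h4 : (ζ ^ (j : ℕ)) ^ 11 = 1 := by
        rw [← h3, ← pow_mul, mul_comm, pow_mul, hy, one_pow]
      have hord : orderOf ζ = 3 := orderOf_eq_prime hζ3 hζ1
      have h5 : 3 ∣ (j : ℕ) * 11 := by
        have h8 := orderOf_dvd_of_pow_eq_one (x := ζ) (n := (j : ℕ) * 11) (by rw [pow_mul]; exact h4)
        rwa [hord] at h8
      have h6 : (j : ℕ) = 0 := by
        have := j.2
        omega
      rw [h6, pow_zero, one_mul] at hy hy1
      have h7 : y' ^ 1 = 1 := by
        have h8 := (pow_gcd_eq_one (a := y') (m := 37) (n := 11)).2 ⟨hy', hy⟩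
        simpa using h8
      rw [pow_one] at h7
      exact hy1' h7
    · change y = y' at h
      subst h
      rfl
  have h3 := Nat.card_le_card_of_injective f hf
  rw [Nat.card_sum, Nat.card_prod, h37] at h3
  simp only [Nat.card_eq_fintype_card (α := Fin 3), Fintype.card_fin] at h3
  omega

end Cfsg.Agent.Lib.MinIndex.U3.SylowCount
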