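import Mathlib
import Cfsg.Agent.Lib.MinIndex.U3.Eigen
import Cfsg.Agent.Lib.MinIndex.U3.SylowCount

/-!
# Subgroups without transvections: the remaining small values of `q`
-/

set_option autoImplicit false
set_option linter.unusedSectionVars false
set_option linter.unusedSimpArgs false
set_option linter.unusedVariables false
set_option linter.style.haveILetI false

open scoped Matrix MatrixGroups
open Cfsg
open Cfsg.Agent.Lib.Classical.Herm.Basic Cfsg.Agent.Lib.Classical.Herm.Form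
open Cfsg.Agent.Lib.Classical.Herm.GU Cfsg.Agent.Lib.Classical.Herm.SU
open Cfsg.Agent.Lib.Classical.Herm.Tv Cfsg.Agent.Lib.Classical.Herm.Comm
open Cfsg.Agent.Lib.Classical.Herm.Unip Cfsg.Agent.Lib.Classical.Herm.SU3Sylow
open Cfsg.Agent.Lib.Classical.Herm.SU3Invol Cfsg.Agent.Lib.Classical.Herm.Subfield
open Cfsg.Agent.Lib.MinIndex.UFinal Cfsg.Agent.Lib.MinIndex.U3.Base Cfsg.Agent.Lib.MinIndex.U3.Points
open Cfsg.Agent.Lib.MinIndex.U3.Line Cfsg.Agent.Lib.MinIndex.U3.LineMain Cfsg.Agent.Lib.MinIndex.U3.Local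
open Cfsg.Agent.Lib.MinIndex.U3.EvenCase Cfsg.Agent.Lib.MinIndex.U3.Kzero Cfsg.Agent.Lib.MinIndex.U3.OddCase
open Cfsg.Agent.Lib.MinIndex.U3.Eigen Cfsg.Agent.Lib.MinIndex.U3.SylowCount

namespace Cfsg.Agent.Lib.MinIndex.U3.Small

theorem num3 {n N : ℕ} (h : n * N = 224) (h7 : 7 ∣ N) (hn : n ≡ 1 [MOD 7]) : 2 ∣ N := by
  by_contra hcon
  obtain ⟨M, rfl⟩ := h7
  have h1 : n * M = 32 := by nlinarith
  have hM : M ≤ 32 := Nat.le_of_dvd (by norm_num) (Dvd.intro_left _ h1)
  unfold Nat.ModEq at hn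
  interval_cases M <;> omega

theorem num8 {n N : ℕ} (h : n * N = 36936) (h19 : 19 ∣ N) (hn : n ≡ 1 [MOD 19]) : 2 ∣ N := by
  by_contra hcon
  obtain ⟨M, rfl⟩ := h19
  have h1 : n * M = 1944 := by nlinarith
  have hodd : Nat.Coprime M 8 := by
    have h2 : ¬ 2 ∣ M := fun h3 => hcon (h3.trans (dvd_mul_left _ _))
    have h3 : Nat.Coprime 2 M := (Nat.Prime.coprime_iff_not_dvd Nat.prime_two).2 h2
    exact (Nat.Coprime.pow_left 3 h3).symm
  have hd : M ∣ 243 := by
    have h2 : M ∣ 8 * 243 := by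
      rw [show 8 * 243 = 1944 by norm_num, ← h1]
      exact dvd_mul_left _ _
    exact hodd.dvd_of_dvd_mul_left h2
  have hM : M ≤ 243 := Nat.le_of_dvd (by norm_num) hd
  unfold Nat.ModEq at hn
  interval_cases M <;> omega

theorem num11 {n N : ℕ} (h : n * N = 439560) (h37 : 37 ∣ N) (hn : n ≡ 1 [MOD 37]) : 2 ∣ N ∨ n = 3960 := by
  by_cases hcon : 2 ∣ N
  · exact Or.inl hcon
  right
  obtain ⟨M, rfl⟩ := h37
  have h1 : n * M = 11880 := by nlinarith
  have hodd : Nat.Coprime M 8 := by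
    have h2 : ¬ 2 ∣ M := fun h3 => hcon (h3.trans (dvd_mul_left _ _))
    have h3 : Nat.Coprime 2 M := (Nat.Prime.coprime_iff_not_dvd Nat.prime_two).2 h2
    exact (Nat.Coprime.pow_left 3 h3).symm
  have hd : M ∣ 1485 := by
    have h2 : M ∣ 8 * 1485 := by
      rw [show 8 * 1485 = 11880 by norm_num, ← h1]
      exact dvd_mul_left _ _
    exact hodd.dvd_of_dvd_mul_left h2
  have hmem : M ∈ Nat.divisors 1485 := Nat.mem_divisors.2 ⟨hd, by norm_num⟩
  have hM : M = 1 ∨ M = 3 ∨ M = 5 ∨ M = 9 ∨ M = 11 ∨ M = 15 ∨ M = 27 ∨ M = 33 ∨ M = 45 ∨ M = 55 ∨ M = 99 ∨ M = 135 ∨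
      M = 165 ∨ M = 297 ∨ M = 495 ∨ M = 1485 := by
    simpa [Nat.divisors_ofNat] using hmem
  unfold Nat.ModEq at hn
  rcases hM with rfl | rfl | rfl | rfl | rfl | rfl | rfl | rfl | rfl | rfl | rfl | rfl | rfl | rfl | rfl | rfl <;> omega

/-- The numbers attached to a Sylow subgroup. -/
theorem sylow_numbers {G : Type*} [Group G] [Finite G] {r : ℕ} [hr : Fact r.Prime] (P : Sylow r G) :
    Nat.card (Sylow r G) * Nat.card (Subgroup.normalizer ((P : Subgroup G) : Set G)) = Nat.card G ∧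
      Nat.card (Sylow r G) ≡ 1 [MOD r] ∧ Nat.card P ∣ Nat.card (Subgroup.normalizer ((P : Subgroup G) : Set G)) := by
  refine ⟨?_, card_sylow_modEq_one r G, Subgroup.card_dvd_of_le Subgroup.le_normalizer⟩
  rw [P.card_eq_index_normalizer]
  exact Subgroup.index_mul_card _

variable {F : Type*} [Field F] [Fintype F] {q : ℕ}

local notation "⟪" x ", " y "⟫" => hermForm _ _ q x y

variable (hF : Fintype.card F = q ^ 2)

include hF

/-- An element of such a prime order: the normaliser of a Sylow subgroup in `H` has odd order. -/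
theorem parity_contra {H : Subgroup (SU 3 F q)} {r : ℕ} [hr : Fact r.Prime] (hr2 : r ≠ 2) (hrq : ¬ r ∣ q)
    (hr1 : ¬ r ∣ q ^ 2 - 1) (h1 : r ∣ Nat.card H) (h2 : ¬ r ^ 2 ∣ Nat.card H) (P : Sylow r H)
    (he : 2 ∣ Nat.card (Subgroup.normalizer ((P : Subgroup H) : Set H))) : False := by
  have hP := card_sylow_eq h1 h2 P
  obtain ⟨g, hgP, hgo, hgen⟩ := exists_gen (P : Subgroup H) hP
  obtain ⟨t, ht⟩ := exists_prime_orderOf_dvd_card' (G := Subgroup.normalizer ((P : Subgroup H) : Set H)) (p := 2) he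
  have ht1 : ((t : H) : SU 3 F q) ≠ 1 := by
    intro h0
    have h3 : t = 1 := Subtype.ext (Subtype.ext h0)
    rw [h3, orderOf_one] at ht
    omega
  have htt : ((t : H) : SU 3 F q) * t = 1 := by
    have h3 := pow_orderOf_eq_one t
    rw [ht, pow_two] at h3
    have h4 := congrArg (fun x : Subgroup.normalizer ((P : Subgroup H) : Set H) => ((x : H) : SU 3 F q)) h3
    exact h4
  have hmem : (t : H) * g * (t : H)⁻¹ ∈ (P : Subgroup H) := (Subgroup.mem_normalizer_iff.1 t.2 g).1 hgP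
  obtain ⟨k, hk⟩ := hgen _ hmem
  have hk' : ((t : H) : SU 3 F q) * (g : SU 3 F q) * ((t : H) : SU 3 F q)⁻¹ = (g : SU 3 F q) ^ k := by
    have := congrArg (fun x : H => (x : SU 3 F q)) hk
    simpa using this
  have hgo' : orderOf (g : SU 3 F q) = r := by
    rw [Subgroup.orderOf_coe, hgo]
  exact no_invol_norm hF hr.out hr2 hrq hr1 hgo' ht1 htt hk'

theorem small3 {H : Subgroup (SU 3 F q)} (hq : q = 3) (hcard : Nat.card H = 224) : False := by
  haveI : Fact (Nat.Prime 7) := ⟨by norm_num⟩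
  obtain ⟨P⟩ : Nonempty (Sylow 7 H) := inferInstance
  have h1 : 7 ∣ Nat.card H := by rw [hcard]; norm_num
  have h2 : ¬ 7 ^ 2 ∣ Nat.card H := by rw [hcard]; norm_num
  obtain ⟨a, b, c⟩ := sylow_numbers P
  rw [card_sylow_eq h1 h2 P] at c
  rw [hcard] at a
  refine parity_contra hF (by norm_num) (by rw [hq]; norm_num) (by rw [hq]; norm_num) h1 h2 P (num3 a c b)

theorem small8 {H : Subgroup (SU 3 F q)} (hq : q = 8) (hcard : Nat.card H = 36936) : False := by
  haveI : Fact (Nat.Prime 19) := ⟨by norm_num⟩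
  obtain ⟨P⟩ : Nonempty (Sylow 19 H) := inferInstance
  have h1 : 19 ∣ Nat.card H := by rw [hcard]; norm_num
  have h2 : ¬ 19 ^ 2 ∣ Nat.card H := by rw [hcard]; norm_num
  obtain ⟨a, b, c⟩ := sylow_numbers P
  rw [card_sylow_eq h1 h2 P] at c
  rw [hcard] at a
  refine parity_contra hF (by norm_num) (by rw [hq]; norm_num) (by rw [hq]; norm_num) h1 h2 P (num8 a c b)

variable {e f w : Fin 3 → F} (ht : IsTriple q e f w) {H : Subgroup (SU 3 F q)}

include ht

/-- The normaliser of the unipotent part. -/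
theorem norm_eq (hN : NoTv q hF H) {u₀ : SU 3 F q} (hu₀ : u₀ ∈ H) (hue : act u₀ e = e) (hne : u₀ ≠ 1) :
    Subgroup.normalizer (((Re q e).subgroupOf H : Subgroup H) : Set H) = (lineStab 3 q e (e_ne ht)).subgroupOf H := by
  have he0 := e_ne ht
  ext g
  rw [Subgroup.mem_normalizer_iff, Subgroup.mem_subgroupOf]
  constructor
  · intro h
    have h1 : (⟨u₀, hu₀⟩ : H) ∈ (Re q e).subgroupOf H := (mem_Re_iff hF ht.he he0).2 hue
    have h2 := (h ⟨u₀, hu₀⟩).1 h1
    have h3 : act (g.1 * u₀ * g.1⁻¹) e = e := h2.1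
    -- `u₀` fixes `x = g⁻¹ e`
    set x := act g.1⁻¹ e with hx
    have hux : act u₀ x = x := by
      have h4 := congrArg (act g.1⁻¹) h3
      rw [act_mul, act_mul, act_inv_act] at h4
      exact h4
    have hxx : ⟪x, x⟫ = 0 := by rw [hx, h_act]; exact ht.he
    have hx0 : x ≠ 0 := act_ne_zero _ he0
    by_cases hex : ⟪e, x⟫ = 0
    · obtain ⟨l, hl, h4⟩ := iso_eq_smul_of_perp hF ht.he he0 hxx hx0 hex
      refine (lineStab 3 q e he0).inv_mem_iff.1 ?_
      exact ⟨l, hl, h4⟩
    · exfalso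
      -- a hyperbolic pair fixed by `u₀`
      set c := ⟪e, x⟫ with hc
      set x' := ((c⁻¹) ^ q) • x with hx'
      have hex' : ⟪e, x'⟫ = 1 := by
        rw [hx', hermForm_smul_right, pow_q_pow_q hF, ← hc, inv_mul_cancel₀ hex]
      have hx'x' : ⟪x', x'⟫ = 0 := by
        rw [hx', hermForm_smul_left, hermForm_smul_right, hxx, mul_zero, mul_zero]
      obtain ⟨w', ht'⟩ := exists_triple_of_pair hF ht.he hx'x' hex'
      have hux' : act u₀ x' = x' := by
        rw [hx', act_smul, hux]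
      have h4 := form_f_w_fix hF ht' hue
      rw [hux', ht'.hfw hF] at h4
      have h5 : ss q x' w' u₀ ^ q = 0 := by
        linear_combination h4
      have h6 : ss q x' w' u₀ = 0 := (pow_eq_zero_iff (by have := two_le_q hF; omega)).1 h5
      exact hne (eq_one_of_ss hF ht' hN hu₀ hue h6)
  · rintro ⟨l, hl, hgl⟩ h'
    have hinv : act g.1⁻¹ e = l⁻¹ • e := by
      have h1 := act_inv_act g.1 e
      rw [hgl, act_smul] at h1
      funext i
      have h2 := congrFun h1 i
      simp only [Pi.smul_apply, smul_eq_mul] at h2 ⊢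
      field_simp
      linear_combination h2
    have h1 : ∀ k : H, k ∈ (Re q e).subgroupOf H ↔ act k.1 e = e := by
      intro k
      rw [Subgroup.mem_subgroupOf]
      exact mem_Re_iff hF ht.he he0
    change h' ∈ (Re q e).subgroupOf H ↔ g * h' * g⁻¹ ∈ (Re q e).subgroupOf H
    rw [h1, h1]
    change _ ↔ act (g.1 * h'.1 * g.1⁻¹) e = e
    rw [act_mul, act_mul, hinv, act_smul]
    constructor
    · intro h2
      rw [h2, act_smul, hgl, smul_smul, inv_mul_cancel₀ hl, one_smul]
    · intro h2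
      have h3 := congrArg (act g.1⁻¹) h2
      rw [act_smul, act_smul, act_inv_act, hinv] at h3
      have h4 : act h'.1 e = l • (l⁻¹ • act h'.1 e) := by
        rw [smul_smul, mul_inv_cancel₀ hl, one_smul]
      rw [h4, h3, smul_smul, mul_inv_cancel₀ hl, one_smul]

/-- The exceptional value `q = 11`. -/
theorem small11 (hq : q = 11) (hN : NoTv q hF H) (hZ : Subgroup.center (SU 3 F q) ≤ H) (hd : H.index ≤ q ^ 3)
    (hHL : Nat.card ↥(H ⊓ lineStab 3 q e (e_ne ht)) = 330) (hA : Nat.card ↥(H ⊓ Re q e) = 11) : False := by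
  have he0 := e_ne ht
  have hq3 : 3 ≤ q := by omega
  have hcard : Nat.card H = 439560 := by
    rw [card_H_eq hF ht.he he0 H hq3 hd, hHL, hq]
    norm_num
  haveI : Fact (Nat.Prime 37) := ⟨by norm_num⟩
  haveI : Fact (Nat.Prime 11) := ⟨by norm_num⟩
  haveI : Fact (Nat.Prime 3) := ⟨by norm_num⟩
  -- the primes `37`
  obtain ⟨P⟩ : Nonempty (Sylow 37 H) := inferInstance
  have h1 : 37 ∣ Nat.card H := by rw [hcard]; norm_num
  have h2 : ¬ 37 ^ 2 ∣ Nat.card H := by rw [hcard]; norm_num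
  obtain ⟨a, b, c⟩ := sylow_numbers P
  rw [card_sylow_eq h1 h2 P] at c
  rw [hcard] at a
  have n37 : Nat.card (Sylow 37 H) = 3960 := by
    rcases num11 a c b with h3 | h3
    · exact (parity_contra hF (by norm_num) (by rw [hq]; norm_num) (by rw [hq]; norm_num) h1 h2 P h3).elim
    · exact h3
  -- the prime `11`
  have hcardA : Nat.card ((Re q e).subgroupOf H) = 11 := by
    have h3 := Subgroup.subgroupOf_map_subtype (Re q e) H
    rw [← hA, inf_comm, ← h3]
    exact (Subgroup.card_map_of_injective H.subtype_injective).symm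
  have h11 : 11 ∣ Nat.card H := by rw [hcard]; norm_num
  have h11' : ¬ 11 ^ 2 ∣ Nat.card H := by rw [hcard]; norm_num
  have hfact : (Nat.card H).factorization 11 = 1 := by
    have hne : Nat.card H ≠ 0 := Nat.card_pos.ne'
    have a1 : 1 ≤ (Nat.card H).factorization 11 :=
      ((Fact.out : Nat.Prime 11).dvd_iff_one_le_factorization hne).1 h11
    have a2 : ¬ 2 ≤ (Nat.card H).factorization 11 :=
      fun h => h11' (((Fact.out : Nat.Prime 11).pow_dvd_iff_le_factorization hne).2 h)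
    omega
  let Q : Sylow 11 H := Sylow.ofCard ((Re q e).subgroupOf H) (by rw [hcardA, hfact, pow_one])
  have hQ : (Q : Subgroup H) = (Re q e).subgroupOf H := Sylow.coe_ofCard _ _
  obtain ⟨u, hu⟩ : ∃ u : (Re q e).subgroupOf H, u ≠ 1 := by
    have h3 : 1 < Nat.card ((Re q e).subgroupOf H) := by omega
    haveI := (Finite.one_lt_card_iff_nontrivial).1 h3
    exact exists_ne 1
  have hu1 : u.1.1 ≠ 1 := by
    intro h0
    exact hu (Subtype.ext (Subtype.ext h0))
  have hue : act u.1.1 e = e := (mem_Re_iff hF ht.he he0).1 u.2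
  have hnorm := norm_eq hF ht hN u.1.2 hue hu1
  have n11 : Nat.card (Sylow 11 H) = 1332 := by
    rw [Q.card_eq_index_normalizer]
    have h3 : Subgroup.normalizer ((Q : Subgroup H) : Set H) = (lineStab 3 q e he0).subgroupOf H := by
      rw [hQ]
      exact hnorm
    change (Subgroup.normalizer ((Q : Subgroup H) : Set H)).index = _
    rw [h3]
    have h4 := Subgroup.card_mul_index ((lineStab 3 q e he0).subgroupOf H)
    have h5 : Nat.card ((lineStab 3 q e he0).subgroupOf H) = 330 := by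
      have h6 := Subgroup.subgroupOf_map_subtype (lineStab 3 q e he0) H
      rw [← hHL, inf_comm, ← h6]
      exact (Subgroup.card_map_of_injective H.subtype_injective).symm
    rw [h5, hcard] at h4
    omega
  -- the centre
  have hc3 : Nat.card (Subgroup.center (SU 3 F q)) = 3 := by
    rw [card_center_SU hF (n := 3) (by norm_num), hq]
    norm_num
  obtain ⟨z, hz⟩ := exists_prime_orderOf_dvd_card' (G := Subgroup.center (SU 3 F q)) (p := 3) (by rw [hc3])
  have hz3 : z ^ 3 = 1 := by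
    have := pow_orderOf_eq_one z
    rwa [hz] at this
  have hz1 : z ≠ 1 := by
    rintro rfl
    rw [orderOf_one] at hz
    omega
  let ζ : H := ⟨z.1, hZ z.2⟩
  refine count_contra (G := H) (ζ := ζ) hcard n37 n11 ?_ ?_ ?_
  · apply Subtype.ext
    have := congrArg Subtype.val hz3
    simpa using this
  · intro h0
    have h3 : z.1 = 1 := congrArg Subtype.val h0
    exact hz1 (Subtype.ext h3)
  · intro g
    apply Subtype.ext
    exact (Subgroup.mem_center_iff.1 z.2 g.1).symm

end Cfsg.Agent.Lib.MinIndex.U3.Small
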