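import Mathlib
import Cfsg.Agent.Lib.MinIndex.U3.Small

/-!
# Subgroups without transvections
-/

set_option autoImplicit false
set_option linter.unusedSectionVars false
set_option linter.unusedSimpArgs false
set_option linter.unusedVariables false
set_option linter.style.haveILetI false

open scoped Matrix MatrixGroups
open Cfsg
open Cfsg.Agent.Lib.Classical.Herm.Basic Cfsg.Agent.Lib.Classical.Herm.Form
open Cfsg.Agent.Lib.Classical.Herm.GU Cfsg.Agent.Lib.Classical.Herm.SU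
open Cfsg.Agent.Lib.Classical.Herm.Tv Cfsg.Agent.Lib.Classical.Herm.Comm
open Cfsg.Agent.Lib.Classical.Herm.Unip Cfsg.Agent.Lib.Classical.Herm.SU3Sylow
open Cfsg.Agent.Lib.Classical.Herm.SU3Invol Cfsg.Agent.Lib.Classical.Herm.Subfield
open Cfsg.Agent.Lib.MinIndex.UFinal Cfsg.Agent.Lib.MinIndex.U3.Base Cfsg.Agent.Lib.MinIndex.U3.Points
open Cfsg.Agent.Lib.MinIndex.U3.Line Cfsg.Agent.Lib.MinIndex.U3.LineMain Cfsg.Agent.Lib.MinIndex.U3.Local
open Cfsg.Agent.Lib.MinIndex.U3.EvenCase Cfsg.Agent.Lib.MinIndex.U3.Kzero Cfsg.Agent.Lib.MinIndex.U3.OddCase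
open Cfsg.Agent.Lib.MinIndex.U3.Eigen Cfsg.Agent.Lib.MinIndex.U3.SylowCount Cfsg.Agent.Lib.MinIndex.U3.Small

namespace Cfsg.Agent.Lib.MinIndex.U3.CaseOne

variable {F : Type*} [Field F] [Fintype F] {q : ℕ}

local notation "⟪" x ", " y "⟫" => hermForm _ _ q x y

variable (hF : Fintype.card F = q ^ 2)

include hF

/-- An isotropic vector exists. -/
theorem exists_iso : ∃ e : Fin 3 → F, e ≠ 0 ∧ ⟪e, e⟫ = 0 := by
  obtain ⟨v, -, hv⟩ := exists_perp_norm hF (n := 3) (k := 0) (by norm_num) (fun i => i.elim0)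
    (fun z => ⟨fun i => i.elim0, fun i => i.elim0⟩) (c := 1) (one_pow q)
  obtain ⟨x, hx0, hx, -⟩ := exists_iso_perp hF hv
  exact ⟨x, hx0, hx⟩

/-- `q` odd means `2 ≠ 0`. -/
theorem odd_of_two_ne (h2 : (2 : F) ≠ 0) : Odd q := by
  by_contra hcon
  obtain ⟨p, k, hp, hc, hk⟩ := exists_char_pow hF
  have h3 : 2 ∣ q := (Nat.not_odd_iff_even.1 hcon).two_dvd
  rw [hk] at h3
  have h4 := (Nat.prime_dvd_prime_iff_eq Nat.prime_two hp).1 (Nat.prime_two.dvd_of_dvd_pow h3)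
  subst h4
  exact h2 (by exact_mod_cast CharP.cast_eq_zero F 2)

/-- There is no proper subgroup of small index without transvections. -/
theorem case_one {H : Subgroup (SU 3 F q)} (hq3 : 3 ≤ q) (hq5 : q ≠ 5) (hN : NoTv q hF H)
    (hZ : Subgroup.center (SU 3 F q) ≤ H) (hd : H.index ≤ q ^ 3) : False := by
  obtain ⟨e, he0, he⟩ := exists_iso hF
  have hT : ∀ x y : Fin 3 → F, ⟪x, x⟫ = 0 → x ≠ 0 → ⟪y, y⟫ = 0 → y ≠ 0 → ∃ h ∈ H, ∃ c : F, c ≠ 0 ∧ act h x = c • y :=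
    fun x y hx hx0 hy hy0 => trans_vec hF he he0 H hq3 hd hx hx0 hy hy0
  by_cases h2 : (2 : F) = 0
  · obtain ⟨f, w, ht⟩ := exists_triple hF he he0
    exact case_even hF ht hq3 h2 hN hT hd
  · have hodd := odd_of_two_ne hF h2
    obtain ⟨p, k, hp, hc, hk⟩ := exists_char_pow hF
    haveI : Fact p.Prime := ⟨hp⟩
    haveI := hc
    have hpq : p ∣ q := by
      rw [hk]
      apply dvd_pow_self
      rintro rfl
      rw [pow_zero] at hk
      omega
    have heven : 2 ∣ Nat.card H := by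
      rw [card_H_eq hF he he0 H hq3 hd]
      apply Dvd.dvd.mul_right
      exact (hodd.pow.add_one).two_dvd
    obtain ⟨τ, hτ, w, hr, hwe⟩ := exists_refl_perp hF h2 he he0 hT heven
    obtain ⟨f, ht⟩ := exists_triple_of_perp hF he he0 hr.1 hwe
    rcases case_odd_main hF ht p hpq hodd hq3 hq5 hN hd hT hτ hr with ⟨h3, h4⟩ | ⟨h3, h4, h5⟩
    · exact small3 hF h3 h4
    · exact small11 hF ht h3 hN hZ hd h4 h5

end Cfsg.Agent.Lib.MinIndex.U3.CaseOne
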