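import Mathlib
import Cfsg.Agent.Lib.MinIndex.U3.CaseOne
import Cfsg.Agent.Lib.Classical.Herm.Gen

/-!
# Subgroups with transvections: generation and transitivity
-/

set_option autoImplicit false
set_option linter.unusedSectionVars false
set_option linter.unusedSimpArgs false
set_option linter.unusedVariables false
set_option linter.style.haveILetI false

open scoped Matrix MatrixGroups
open Cfsg
open Cfsg.Agent.Lib.Classical.Herm.Basic Cfsg.Agent.Lib.Classical.Herm.Form
open Cfsg.Agent.Lib.Classical.Herm.GU Cfsg.Agent.Lib.Classical.Herm.SU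
open Cfsg.Agent.Lib.Classical.Herm.Tv Cfsg.Agent.Lib.Classical.Herm.Comm
open Cfsg.Agent.Lib.Classical.Herm.Unip Cfsg.Agent.Lib.Classical.Herm.SU3Sylow
open Cfsg.Agent.Lib.Classical.Herm.SU3Invol Cfsg.Agent.Lib.Classical.Herm.Subfield
open Cfsg.Agent.Lib.Classical.Herm.Gen
open Cfsg.Agent.Lib.MinIndex.UFinal Cfsg.Agent.Lib.MinIndex.U3.Base Cfsg.Agent.Lib.MinIndex.U3.Points
open Cfsg.Agent.Lib.MinIndex.U3.Line Cfsg.Agent.Lib.MinIndex.U3.LineMain Cfsg.Agent.Lib.MinIndex.U3.Local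
open Cfsg.Agent.Lib.MinIndex.U3.EvenCase Cfsg.Agent.Lib.MinIndex.U3.Kzero Cfsg.Agent.Lib.MinIndex.U3.OddCase
open Cfsg.Agent.Lib.MinIndex.U3.Eigen Cfsg.Agent.Lib.MinIndex.U3.SylowCount Cfsg.Agent.Lib.MinIndex.U3.Small

namespace Cfsg.Agent.Lib.MinIndex.U3.CaseTwoA

variable {F : Type*} [Field F] [Fintype F] {q : ℕ}

local notation "⟪" x ", " y "⟫" => hermForm _ _ q x y

variable (hF : Fintype.card F = q ^ 2)

include hF

/-- A subgroup transitive on the isotropic points and containing all transvections at one point is everything. -/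
theorem top_of_all_tv {H : Subgroup (SU 3 F q)} (hq3 : 3 ≤ q) {e : Fin 3 → F} (he : ⟪e, e⟫ = 0)
    (hT : ∀ x y : Fin 3 → F, ⟪x, x⟫ = 0 → x ≠ 0 → ⟪y, y⟫ = 0 → y ≠ 0 → ∃ h ∈ H, ∃ c : F, c ≠ 0 ∧ act h x = c • y)
    (he0 : e ≠ 0) (hall : ∀ (b : F) (hb : b + b ^ q = 0), tv hF he hb ∈ H) : H = ⊤ := by
  rw [eq_top_iff, ← T_eq_top hF (n := 3) (le_refl 3) (by omega)]
  rw [T, Subgroup.closure_le]
  rintro A ⟨v, c, hv, hA⟩
  by_cases hv0 : v = 0
  · have h1 : A = 1 := by
      apply ext_act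
      intro x
      have h2 : act A x = x + (c * ⟪x, v⟫) • v := by
        change mat A *ᵥ x = _
        rw [hA]
        exact unitaryTransvection_mulVec v c x
      rw [h2, hv0, act_one]
      simp
    rw [h1]
    exact H.one_mem
  · have hc : c + c ^ q = 0 := by
      apply trace_zero_of_preserves hF hv hv0
      rw [← hA]
      exact A.2
    have h1 := eq_tv hF hv hc hA
    obtain ⟨h, hh, k, hk, h2⟩ := hT e v he he0 hv hv0
    set N := k ^ q * k with hN
    have hN0 : N ≠ 0 := mul_ne_zero (pow_ne_zero _ hk) hk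
    have hNq : N ^ q = N := by
      rw [hN, mul_pow, pow_q_pow_q hF, mul_comm]
    have hb : c / N + (c / N) ^ q = 0 := by
      rw [div_pow, hNq]
      field_simp
      linear_combination hc
    have h3 : A = h * tv hF he hb * h⁻¹ := by
      apply ext_act
      intro x
      rw [act_conj, h2, h1, act_tv, hermForm_smul_right, smul_smul]
      congr 2
      rw [hN]
      field_simp
    rw [SetLike.mem_coe, h3]
    exact H.mul_mem (H.mul_mem hh (hall _ hb)) (H.inv_mem hh)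

/-- Powers of a transvection. -/
theorem act_tv_pow {x : Fin 3 → F} (hx : ⟪x, x⟫ = 0) {c : F} (hc : c + c ^ q = 0) (n : ℕ) (z : Fin 3 → F) :
    act (tv hF hx hc ^ n) z = z + ((n : F) * (c * ⟪z, x⟫)) • x := by
  induction n generalizing z with
  | zero => simp
  | succ n ih =>
    rw [pow_succ, act_mul, ih, act_tv]
    have h1 : ⟪z + (c * ⟪z, x⟫) • x, x⟫ = ⟪z, x⟫ := by
      rw [hermForm_add_left, hermForm_smul_left, hx, mul_zero, add_zero]
    rw [h1]
    funext i
    simp only [Pi.add_apply, Pi.smul_apply, smul_eq_mul]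
    push_cast
    ring

theorem tv_pow_char (p : ℕ) [CharP F p] {x : Fin 3 → F} (hx : ⟪x, x⟫ = 0) {c : F} (hc : c + c ^ q = 0) :
    tv hF hx hc ^ p = 1 := by
  apply ext_act
  intro z
  rw [act_tv_pow, CharP.cast_eq_zero F p, act_one]
  simp

/-- The fixed points of a nontrivial transvection among the isotropic points. -/
theorem perp_of_fix {x v : Fin 3 → F} (hx : ⟪x, x⟫ = 0) (hx0 : x ≠ 0) {c l : F} (hc : c + c ^ q = 0) (hc0 : c ≠ 0)
    (h : v = l • act (tv hF hx hc) v) : ⟪v, x⟫ = 0 := by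
  by_contra h0
  rw [act_tv] at h
  have h1 := congrArg (fun z => ⟪z, x⟫) h
  simp only [hermForm_smul_left, hermForm_add_left, hx, mul_zero, add_zero] at h1
  have hl : l = 1 := by
    apply mul_right_cancel₀ h0
    rw [← h1, one_mul]
  rw [hl, one_smul] at h
  have h2 : (c * ⟪v, x⟫) • x = 0 := by
    have : v + (c * ⟪v, x⟫) • x = v + 0 := by rw [add_zero]; exact h.symm
    exact add_left_cancel this
  rcases smul_eq_zero.1 h2 with h3 | h3
  · rcases mul_eq_zero.1 h3 with h4 | h4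
    · exact hc0 h4
    · exact h0 h4
  · exact hx0 h3

variable {e f w : Fin 3 → F} (ht : IsTriple q e f w) {H : Subgroup (SU 3 F q)}

include ht

/-- The stabiliser in `H` of the vector `w` is transitive on the isotropic points of `w^⊥`. -/
theorem trans_S (p : ℕ) [hpp : Fact p.Prime] [CharP F p]
    (hte : ∀ (x : Fin 3 → F) (hx : ⟪x, x⟫ = 0), x ≠ 0 → ∃ (c : F) (hc : c + c ^ q = 0), c ≠ 0 ∧ tv hF hx hc ∈ H)
    (x : Fin 3 → F) (hx : ⟪x, x⟫ = 0) (hx0 : x ≠ 0) (hxw : ⟪x, w⟫ = 0) :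
    ∃ h ∈ H ⊓ stabVec q w, ∃ c : F, c ≠ 0 ∧ act h e = c • x := by
  classical
  by_contra hcon
  push Not at hcon
  have he0 := e_ne ht
  set S := H ⊓ stabVec q w with hS
  have htvS : ∀ (v : Fin 3 → F) (hv : ⟪v, v⟫ = 0) (c : F) (hc : c + c ^ q = 0), ⟪w, v⟫ = 0 → tv hF hv hc ∈ H →
      tv hF hv hc ∈ S := by
    intro v hv c hc hwv hm
    refine ⟨hm, ?_⟩
    change act _ w = w
    rw [act_tv, hwv]
    simp
  let X := SU 3 F q ⧸ lineStab 3 q e he0
  let O : Set X := {ω | ∃ s ∈ S, ((s : SU 3 F q) : X) = ω}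
  have hOst : ∀ t ∈ S, ∀ ω ∈ O, t • ω ∈ O := by
    rintro t ht' ω ⟨s, hs, rfl⟩
    exact ⟨t * s, S.mul_mem ht' hs, rfl⟩
  let fE : (t : SU 3 F q) → t ∈ S → Function.End O := fun t ht' o => ⟨t • o.1, hOst t ht' o.1 o.2⟩
  have hfE : ∀ (t : SU 3 F q) (ht' : t ∈ S), t ^ p = 1 → (fE t ht') ^ p ^ 1 = 1 := by
    intro t ht' h1
    have h2 : ∀ (n : ℕ) (o : O), (((fE t ht') ^ n) o).1 = t ^ n • o.1 := by
      intro n o
      induction n with
      | zero => rw [pow_zero, pow_zero, one_smul]; rfl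
      | succ n ih =>
        rw [pow_succ', pow_succ', mul_smul, ← ih]
        rfl
    funext o
    apply Subtype.ext
    rw [pow_one, h2 p o, h1, one_smul]
    rfl
  let _ : Fintype O := Fintype.ofFinite _
  -- the transvection at `x` has no fixed point on `O`
  obtain ⟨c, hc, hc0, hcH⟩ := hte x hx hx0
  have hS1 := htvS x hx c hc (hermForm_symm_zero hF hxw) hcH
  have hm0 := Equiv.Perm.card_fixedPoints_modEq (f := fE _ hS1) (p := p) (n := 1) (hfE _ hS1 (tv_pow_char hF p hx hc))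
  have hfix0 : Fintype.card (Function.fixedPoints (fE _ hS1)) = 0 := by
    rw [Fintype.card_eq_zero_iff]
    refine ⟨?_⟩
    rintro ⟨⟨ω, s, hs, rfl⟩, ho⟩
    have h1 : (tv hF hx hc) • ((s : SU 3 F q) : X) = (s : SU 3 F q) := congrArg Subtype.val ho
    have h2 : ((tv hF hx hc * s : SU 3 F q) : X) = (s : SU 3 F q) := h1
    rw [coset_eq_iff] at h2
    obtain ⟨l, hl, h3⟩ := h2
    rw [act_mul] at h3
    have h4 := perp_of_fix hF hx hx0 hc hc0 h3
    obtain ⟨l', hl', h5⟩ := iso_eq_smul_of_perp hF hx hx0 (by rw [h_act]; exact ht.he) (act_ne_zero s he0)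
      (hermForm_symm_zero hF h4)
    have h6 : x = l'⁻¹ • act s e := by
      rw [h5, smul_smul, inv_mul_cancel₀ hl', one_smul]
    exact hcon s hs l' hl' h5
  -- the transvection at `e` has exactly one fixed point on `O`
  obtain ⟨c', hc', hc0', hcH'⟩ := hte e ht.he he0
  have hS2 := htvS e ht.he c' hc' ht.hwe hcH'
  have hm1 := Equiv.Perm.card_fixedPoints_modEq (f := fE _ hS2) (p := p) (n := 1) (hfE _ hS2 (tv_pow_char hF p ht.he hc'))
  have hfix1 : Fintype.card (Function.fixedPoints (fE _ hS2)) = 1 := by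
    rw [Fintype.card_eq_one_iff]
    have h10 : ((1 : SU 3 F q) : X) ∈ O := ⟨1, S.one_mem, rfl⟩
    have htL : (tv hF ht.he hc') ∈ lineStab 3 q e he0 := by
      refine ⟨1, one_ne_zero, ?_⟩
      rw [act_tv, ht.he]
      simp
    refine ⟨⟨⟨_, h10⟩, ?_⟩, ?_⟩
    · apply Subtype.ext
      change (tv hF ht.he hc') • ((1 : SU 3 F q) : X) = _
      change ((tv hF ht.he hc' * 1 : SU 3 F q) : X) = _
      rw [mul_one, eq_comm, QuotientGroup.eq]
      simpa using htL
    · rintro ⟨⟨ω, s, hs, rfl⟩, ho⟩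
      apply Subtype.ext
      apply Subtype.ext
      have h1 : (tv hF ht.he hc') • ((s : SU 3 F q) : X) = (s : SU 3 F q) := congrArg Subtype.val ho
      have h2 : ((tv hF ht.he hc' * s : SU 3 F q) : X) = (s : SU 3 F q) := h1
      rw [coset_eq_iff] at h2
      obtain ⟨l, hl, h3⟩ := h2
      rw [act_mul] at h3
      have h4 := perp_of_fix hF ht.he he0 hc' hc0' h3
      obtain ⟨l', hl', h5⟩ := iso_eq_smul_of_perp hF ht.he he0 (by rw [h_act]; exact ht.he) (act_ne_zero s he0)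
        (hermForm_symm_zero hF h4)
      change ((s : SU 3 F q) : X) = ((1 : SU 3 F q) : X)
      rw [eq_comm, coset_eq_iff]
      exact ⟨l', hl', by rw [act_one]; exact h5⟩
  rw [hfix0] at hm0
  rw [hfix1] at hm1
  have h0 := hm0.symm.trans hm1
  have hp1 := (Fact.out : p.Prime).one_lt
  unfold Nat.ModEq at h0
  rw [Nat.zero_mod, Nat.mod_eq_of_lt hp1] at h0
  exact zero_ne_one h0

end Cfsg.Agent.Lib.MinIndex.U3.CaseTwoA
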