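import Mathlib
import Cfsg.Agent.Lib.MinIndex.U3.CaseTwoA

/-!
# Subgroups with transvections: the stabiliser of a nonisotropic vector
-/

set_option autoImplicit false
set_option linter.unusedSectionVars false
set_option linter.unusedSimpArgs false
set_option linter.unusedVariables false
set_option linter.style.haveILetI false

open scoped Matrix MatrixGroups
open Cfsg
open Cfsg.Agent.Lib.Classical.Herm.Basic Cfsg.Agent.Lib.Classical.Herm.Form
open Cfsg.Agent.Lib.Classical.Herm.GU Cfsg.Agent.Lib.Classical.Herm.SU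
open Cfsg.Agent.Lib.Classical.Herm.Tv Cfsg.Agent.Lib.Classical.Herm.Comm
open Cfsg.Agent.Lib.Classical.Herm.Unip Cfsg.Agent.Lib.Classical.Herm.SU3Sylow
open Cfsg.Agent.Lib.Classical.Herm.SU3Invol Cfsg.Agent.Lib.Classical.Herm.Subfield
open Cfsg.Agent.Lib.MinIndex.UFinal Cfsg.Agent.Lib.MinIndex.U3.Base Cfsg.Agent.Lib.MinIndex.U3.Points
open Cfsg.Agent.Lib.MinIndex.U3.Line Cfsg.Agent.Lib.MinIndex.U3.LineMain Cfsg.Agent.Lib.MinIndex.U3.Local
open Cfsg.Agent.Lib.MinIndex.U3.EvenCase Cfsg.Agent.Lib.MinIndex.U3.Kzero Cfsg.Agent.Lib.MinIndex.U3.OddCase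
open Cfsg.Agent.Lib.MinIndex.U3.Eigen Cfsg.Agent.Lib.MinIndex.U3.SylowCount Cfsg.Agent.Lib.MinIndex.U3.Small
open Cfsg.Agent.Lib.MinIndex.U3.CaseOne Cfsg.Agent.Lib.MinIndex.U3.CaseTwoA

namespace Cfsg.Agent.Lib.MinIndex.U3.CaseTwoB

/-- Excluding the subfield case of Dickson's theorem numerically. -/
theorem num_psl {p k q a κ δ : ℕ} (hp : p.Prime) (hk : q = p ^ k) (h4 : 4 ≤ q) (ha2 : 2 ≤ a) (haq : a < q)
    (hδ : δ ∣ q - 1) (hκ : κ ∣ δ * a) {q' m : ℕ} (h2 : 2 ≤ q') (hq' : q' ^ m = q ^ 2)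
    (h3 : q' ∣ (q + 1) * κ) (h5 : (q + 1) * κ ∣ q' * (q' ^ 2 - 1)) : False := by
  have hm : m ≠ 0 := by
    rintro rfl
    rw [pow_zero] at hq'
    nlinarith
  have hk0 : k ≠ 0 := by
    rintro rfl
    rw [pow_zero] at hk
    omega
  have hpq : p ∣ q := by
    rw [hk]
    exact dvd_pow_self p hk0
  have hcop1 : Nat.Coprime p (q + 1) :=
    (Nat.Prime.coprime_iff_not_dvd hp).2 (fun h => hp.one_lt.ne' (Nat.dvd_one.1 ((Nat.dvd_add_right hpq).1 h)))
  have hcop2 : Nat.Coprime p (q - 1) := by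
    refine (Nat.Prime.coprime_iff_not_dvd hp).2 (fun h => hp.one_lt.ne' (Nat.dvd_one.1 ?_))
    have h6 : q - 1 + 1 = q := by omega
    exact (Nat.dvd_add_right h).1 (by rw [h6]; exact hpq)
  obtain ⟨j, -, hj⟩ : ∃ j ≤ k * 2, q' = p ^ j := by
    apply (Nat.dvd_prime_pow hp).1
    rw [pow_mul, ← hk, ← hq']
    exact dvd_pow_self q' hm
  have hc1 : Nat.Coprime q' (q + 1) := by
    rw [hj]
    exact Nat.Coprime.pow_left j hcop1
  have hc2 : Nat.Coprime q' δ := by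
    rw [hj]
    exact Nat.Coprime.pow_left j (Nat.Coprime.coprime_dvd_right hδ hcop2)
  have h6 : q' ∣ κ := hc1.dvd_of_dvd_mul_left h3
  have h7 : q' ∣ a := hc2.dvd_of_dvd_mul_left (h6.trans hκ)
  have h8 : q' ≤ a := Nat.le_of_dvd (by omega) h7
  have hq'q : q' < q := by omega
  have h9 : q + 1 ∣ q' * (q' ^ 2 - 1) := (Dvd.intro _ rfl).trans h5
  have h10 : q + 1 ∣ q' ^ 2 - 1 := hc1.symm.dvd_of_dvd_mul_left h9
  have h11 : 1 < q' ^ 2 := by nlinarith
  have h12 : q + 1 ≤ q' ^ 2 - 1 := Nat.le_of_dvd (by omega) h10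
  obtain ⟨r, hr⟩ := h10
  have hr' : ((q' : ℤ)) ^ 2 - 1 = ((q : ℤ) + 1) * r := by
    have h13 : ((q' ^ 2 - 1 : ℕ) : ℤ) = ((q' ^ 2 : ℕ) : ℤ) - 1 := by
      push_cast [Nat.cast_sub h11.le]
      ring
    rw [hr] at h13
    push_cast at h13
    linarith
  rcases (by omega : m = 1 ∨ m = 2 ∨ m = 3 ∨ 4 ≤ m) with rfl | rfl | rfl | hm4
  · rw [pow_one] at hq'
    nlinarith
  · have := Nat.pow_lt_pow_left hq'q (by norm_num : 2 ≠ 0)
    omega
  · -- `q + 1 ∣ q' - 1`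
    have hq3' : ((q' : ℤ)) ^ 3 = (q : ℤ) ^ 2 := by exact_mod_cast hq'
    have hd : ((q : ℤ) + 1) ∣ ((q' : ℤ) - 1) := ⟨(q : ℤ) - 1 - q' * r, by
      linear_combination hq3' - (q' : ℤ) * hr'⟩
    have h13 := Int.le_of_dvd (by have : (2 : ℤ) ≤ q' := by exact_mod_cast h2
                                  linarith) hd
    have h14 : (q' : ℤ) < q := by exact_mod_cast hq'q
    linarith
  · have h13 : q' ^ 4 ≤ q' ^ m := Nat.pow_le_pow_right (by omega) hm4
    rw [hq'] at h13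
    have h14 : (q' ^ 2) ^ 2 ≤ q ^ 2 := by
      calc (q' ^ 2) ^ 2 = q' ^ 4 := by ring
        _ ≤ q ^ 2 := h13
    have h15 : q' ^ 2 ≤ q := (Nat.pow_le_pow_iff_left (by norm_num)).1 h14
    omega

/-- The exceptional cases of Dickson's theorem, numerically. -/
theorem num_exc {p k q a κ δ : ℕ} (hp : p.Prime) (hk : q = p ^ k) (h4 : 4 ≤ q) (ha2 : 2 ≤ a) (haq : a < q)
    (hadq : a ∣ q) (hδ : δ ∣ q - 1) (hκ : κ ∣ δ * a) (hακ : a ∣ κ)
    (hK : (q + 1) * κ = 12 ∨ (q + 1) * κ = 24 ∨ (q + 1) * κ = 60) : q = 9 ∧ 2 ∣ κ := by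
  have hκ0 : κ ≠ 0 := by
    rintro rfl
    simp at hK
  have hκ2 : 2 ≤ κ := ha2.trans (Nat.le_of_dvd (Nat.pos_of_ne_zero hκ0) hακ)
  have hq29 : q ≤ 29 := by
    rcases hK with h | h | h <;> nlinarith
  have h14 : q ≠ 14 := by
    intro h
    rw [h] at hk
    have a1 : 2 ∣ p ^ k := by rw [← hk]; norm_num
    have a2 : 7 ∣ p ^ k := by rw [← hk]; norm_num
    have a3 := (Nat.prime_dvd_prime_iff_eq (by norm_num) hp).1 (Nat.prime_two.dvd_of_dvd_pow a1)
    have a4 := (Nat.prime_dvd_prime_iff_eq (by norm_num) hp).1 ((by norm_num : Nat.Prime 7).dvd_of_dvd_pow a2)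
    omega
  obtain ⟨r, hr⟩ := hadq
  interval_cases q
  · exfalso
    have ha : a = 2 := by
      interval_cases a <;> omega
    subst ha
    have hκ12 : κ = 12 := by omega
    subst hκ12
    have hδ3 : δ ≤ 3 := Nat.le_of_dvd (by norm_num) hδ
    interval_cases δ <;> omega
  all_goals first
    | (constructor <;> omega)
    | (exfalso; interval_cases a <;> omega)

variable {F : Type*} [Field F] [Fintype F] {q : ℕ}

local notation "⟪" x ", " y "⟫" => hermForm _ _ q x y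

variable (hF : Fintype.card F = q ^ 2) {e f w : Fin 3 → F} (ht : IsTriple q e f w) {H : Subgroup (SU 3 F q)}

include ht

omit ht in
theorem stabVec_le_line (hw : w ≠ 0) : stabVec q w ≤ lineStab 3 q w hw :=
  fun g hg => ⟨1, one_ne_zero, by rw [one_smul]; exact hg⟩

theorem ss_of_stab {u : SU 3 F q} (hu : u ∈ stabVec q w) : ss q f w u = 0 := by
  unfold ss
  rw [(mem_stabVec.1 hu : act u w = w), ht.hwf]

include hF

theorem bb_inj_aux {u v : SU 3 F q} (hu : act u e = e) (hv : act v e = e) (hsu : ss q f w u = 0)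
    (hsv : ss q f w v = 0) (h : bb q f u = bb q f v) : u = v := by
  apply ext_act
  intro x
  rw [act_of_ss_zero hF ht hu hsu, act_of_ss_zero hF ht hv hsv, h]

/-- The coordinate `b` on the transvection subgroup. -/
noncomputable def bbMap : ↥((H ⊓ stabVec q w) ⊓ Re q e) → {y : F // y + y ^ q = 0} :=
  fun u => ⟨bb q f u.1, bb_trace_of_ss_zero hF ht u.2.2.1 (ss_of_stab ht u.2.1.2)⟩

theorem bbMap_inj : Function.Injective (bbMap hF ht (H := H)) := by
  intro u v h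
  apply Subtype.ext
  exact bb_inj_aux hF ht u.2.2.1 v.2.2.1 (ss_of_stab ht u.2.1.2) (ss_of_stab ht v.2.1.2) (congrArg Subtype.val h)

theorem card_Bz_le : Nat.card ↥((H ⊓ stabVec q w) ⊓ Re q e) ≤ q := by
  have h1 := Nat.card_le_card_of_injective _ (bbMap_inj hF ht (H := H))
  rwa [card_T hF] at h1

theorem all_of_card_eq (h : Nat.card ↥((H ⊓ stabVec q w) ⊓ Re q e) = q) (b : F) (hb : b + b ^ q = 0) :
    tv hF ht.he hb ∈ H := by
  have h1 : Function.Surjective (bbMap hF ht (H := H)) := by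
    haveI : Finite {y : F // y + y ^ q = 0} := inferInstance
    haveI : Finite ↥((H ⊓ stabVec q w) ⊓ Re q e) := inferInstance
    refine (Function.Injective.bijective_of_nat_card_le (bbMap_inj hF ht (H := H)) ?_).2
    rw [card_T hF, h]
  obtain ⟨u, hu⟩ := h1 ⟨b, hb⟩
  have h2 : bb q f u.1 = b := congrArg Subtype.val hu
  have h3 : u.1 = tv hF ht.he hb := by
    apply ext_act
    intro x
    rw [act_of_ss_zero hF ht u.2.2.1 (ss_of_stab ht u.2.1.2), h2, act_tv]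
  rw [← h3]
  exact u.2.1.1

/-- The alternative for a subgroup containing transvections. -/
theorem alt (p k : ℕ) [hpp : Fact p.Prime] [CharP F p] (hk : q = p ^ k) (hq3 : 3 ≤ q)
    (hT : ∀ x y : Fin 3 → F, ⟪x, x⟫ = 0 → x ≠ 0 → ⟪y, y⟫ = 0 → y ≠ 0 → ∃ h ∈ H, ∃ c : F, c ≠ 0 ∧ act h x = c • y)
    (hN : ¬ NoTv q hF H) (hne : H ≠ ⊤) :
    (Nat.card ↥((H ⊓ stabVec q w) ⊓ Re q e) = 2 ∧ (2 : F) = 0 ∧ 2 < q) ∨
      (q = 9 ∧ 2 ∣ Nat.card ↥(H ⊓ stabVec q w)) := by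
  have hp := hpp.out
  set S := H ⊓ stabVec q w with hS
  have hSle : S ≤ lineStab 3 q w (w_ne ht) := inf_le_right.trans (stabVec_le_line _)
  have hte : ∀ (x : Fin 3 → F) (hx : ⟪x, x⟫ = 0), x ≠ 0 → ∃ (c : F) (hc : c + c ^ q = 0), c ≠ 0 ∧ tv hF hx hc ∈ H :=
    fun x hx hx0 => exists_tv_of_trans hF hT hN hx hx0
  have htr := trans_S hF ht p hte
  obtain ⟨a, ha⟩ : ∃ a, a = Nat.card ↥(S ⊓ Re q e) := ⟨_, rfl⟩
  have hale : a ≤ q := by
    rw [ha]
    exact card_Bz_le hF ht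
  have hane : a ≠ q := by
    intro h
    apply hne
    exact top_of_all_tv hF hq3 ht.he hT (e_ne ht) (all_of_card_eq hF ht (by rw [← hS, ← ha, h]))
  have haq : a < q := by omega
  have ha2 : 2 ≤ a := by
    obtain ⟨c, hc, hc0, hm⟩ := hte e ht.he (e_ne ht)
    have hwt : act (tv hF ht.he hc) w = w := by
      rw [act_tv, ht.hwe]
      simp
    have het : act (tv hF ht.he hc) e = e := by
      rw [act_tv, ht.he]
      simp
    have hm' : tv hF ht.he hc ∈ S ⊓ Re q e := ⟨⟨hm, hwt⟩, (mem_Re_iff hF ht.he (e_ne ht)).2 het⟩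
    have hne1 : tv hF ht.he hc ≠ 1 := by
      intro h1
      have h3 := act_tv hF ht.he hc f
      rw [h1, act_one, ht.hfe hF, mul_one] at h3
      have h4 : c • e = 0 := by
        have : f + c • e = f + 0 := by rw [add_zero]; exact h3.symm
        exact add_left_cancel this
      rcases smul_eq_zero.1 h4 with h5 | h5
      · exact hc0 h5
      · exact e_ne ht h5
    by_contra hlt
    have hle1 : Nat.card ↥(S ⊓ Re q e) ≤ 1 := by omega
    haveI : Subsingleton ↥(S ⊓ Re q e) := (Finite.card_le_one_iff_subsingleton).1 hle1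
    have h5 : (⟨_, hm'⟩ : ↥(S ⊓ Re q e)) = 1 := Subsingleton.elim _ _
    exact hne1 (congrArg Subtype.val h5)
  have hadq : a ∣ q := by
    obtain ⟨j, hj⟩ := IsPGroup.iff_card.1 ((isPGroup_Re (q := q) p e).to_le (inf_le_right : S ⊓ Re q e ≤ Re q e))
    rw [← ha] at hj
    rw [hj, hk]
    rw [hj, hk] at hale
    exact pow_dvd_pow p ((Nat.pow_le_pow_iff_right hp.one_lt).1 hale)
  have hq4 : 4 ≤ q := by
    obtain ⟨r, hr⟩ := hadq
    have hr2 : 2 ≤ r := by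
      by_contra h
      interval_cases r <;> omega
    nlinarith
  -- the character on the stabiliser of the point
  set E := S ⊓ lineStab 3 q e (e_ne ht) with hE
  have hEle : E ≤ lineStab 3 q w (w_ne ht) := inf_le_left.trans hSle
  have hERe : E ⊓ Re q e = S ⊓ Re q e := by
    ext g
    constructor
    · rintro ⟨⟨h1, -⟩, h3⟩
      exact ⟨h1, h3⟩
    · rintro ⟨h1, h3⟩
      exact ⟨⟨h1, 1, one_ne_zero, by rw [one_smul]; exact h3.1⟩, h3⟩
  have hlam := card_lam hF ht E inf_le_right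
  rw [hERe, ← ha] at hlam
  obtain ⟨δ, hδ⟩ : ∃ δ, δ = Nat.card (lamOn ht E inf_le_right).range := ⟨_, rfl⟩
  rw [← hδ] at hlam
  have hδd : δ ∣ q - 1 := by
    rw [hδ]
    apply card_dvd_of_exponent
    rintro x ⟨⟨g, hg⟩, rfl⟩
    apply Units.ext
    rw [Units.val_pow_eq_pow_val, lamOn_apply hF ht, Units.val_one]
    have hgS : g ∈ stabVec q w := hg.1.2
    have hgL := hg.2
    have h3 := act_e_of_mem hF ht hgL
    obtain ⟨l, hl⟩ : ∃ l, l = ⟪act g e, f⟫ := ⟨_, rfl⟩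
    simp only
    rw [← hl] at h3 ⊢
    have hl0 : l ≠ 0 := by
      intro h0
      rw [h0, zero_smul] at h3
      exact act_ne_zero g (e_ne ht) h3
    have h4 := rel_m hF ht g hl0 h3
    rw [(mem_stabVec.1 hgS : act g w = w), ht.hww, one_mul] at h4
    have h5 : l ^ (q - 1) * l = l := by
      rw [← pow_succ, Nat.sub_add_cancel (by omega)]
      exact h4.symm
    exact mul_right_cancel₀ hl0 (by rw [h5, one_mul])
  -- the image in `PSL₂`
  obtain ⟨κ, hκ⟩ : ∃ κ, κ = Nat.card (Kof hF ht E hEle) := ⟨_, rfl⟩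
  have hκE : κ ∣ Nat.card E := by
    rw [hκ]
    exact Dvd.intro _ (card_Kof hF ht E hEle)
  have hκd : κ ∣ δ * a := by
    rw [hlam]
    exact hκE
  have hακ : a ∣ κ := by
    have hle : S ⊓ Re q e ≤ E := by
      rintro g ⟨h1, h3⟩
      exact ⟨h1, 1, one_ne_zero, by rw [one_smul]; exact h3.1⟩
    have h3 := Subgroup.card_dvd_of_le (Kof_mono hF ht hEle hle)
    rw [← hκ] at h3
    have h4 := card_Kof hF ht (S ⊓ Re q e) (hle.trans hEle)
    have h5 : (S ⊓ Re q e) ⊓ Sc hF ht = ⊥ := by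
      rw [Subgroup.eq_bot_iff_forall]
      rintro u ⟨⟨⟨h6, h7⟩, h8⟩, h9⟩
      obtain ⟨hg, h10⟩ := (mem_Sc hF ht).1 h9
      obtain ⟨h11, -, -⟩ := (phi_eq_one_iff ht hF _).1 h10
      exact act_one_of_ss_zero hF ht h8.1 (ss_of_stab ht h7) h11
    rw [h5, Subgroup.card_bot, mul_one, ← ha] at h4
    rw [h4] at h3
    exact h3
  obtain ⟨h1, h3⟩ : Nat.card (Kof hF ht S hSle) = (q + 1) * κ ∧ (κ ≤ 2 ∨
      (Nat.card (Kof hF ht S hSle) = 12 ∨ Nat.card (Kof hF ht S hSle) = 24 ∨ Nat.card (Kof hF ht S hSle) = 60) ∨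
      ∃ q' m : ℕ, 2 ≤ q' ∧ q' ^ m = q ^ 2 ∧ q' ∣ Nat.card (Kof hF ht S hSle) ∧
        Nat.card (Kof hF ht S hSle) ∣ q' * (q' ^ 2 - 1)) := by
    rw [hκ]
    exact line_main hF ht p hq4 hSle htr
  have hκ0 : κ ∣ Nat.card S := hκE.trans (Subgroup.card_dvd_of_le inf_le_left)
  rcases h3 with h3 | h3 | ⟨q', m, h9, h10, h11, h12⟩
  · left
    have hκ0' : κ ≠ 0 := by
      intro h0
      rw [h0] at hκ
      exact Nat.card_pos.ne hκ
    have ha3 : a ≤ κ := Nat.le_of_dvd (Nat.pos_of_ne_zero hκ0') hακ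
    have ha4 : a = 2 := by omega
    refine ⟨by rw [← ha4, ha], ?_, by omega⟩
    rw [ha4] at hadq
    have h5 : 2 ∣ p ^ k := by rw [← hk]; exact hadq
    have h6 := (Nat.prime_dvd_prime_iff_eq Nat.prime_two hp).1 (Nat.prime_two.dvd_of_dvd_pow h5)
    have h7 := CharP.cast_eq_zero F p
    rw [← h6] at h7
    exact_mod_cast h7
  · right
    rw [h1] at h3
    obtain ⟨h5, h6⟩ := num_exc hp hk hq4 ha2 haq hadq hδd hκd hακ h3
    exact ⟨h5, h6.trans hκ0⟩
  · exfalso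
    rw [h1] at h11 h12
    exact num_psl hp hk hq4 ha2 haq hδd hκd h9 h10 h11 h12

omit ht in
/-- All reflections generate. -/
theorem top_of_refl (h2 : (2 : F) ≠ 0) (hq3 : 3 ≤ q) (he : ⟪e, e⟫ = 0) (he0 : e ≠ 0)
    (hT : ∀ x y : Fin 3 → F, ⟪x, x⟫ = 0 → x ≠ 0 → ⟪y, y⟫ = 0 → y ≠ 0 → ∃ h ∈ H, ∃ c : F, c ≠ 0 ∧ act h x = c • y)
    (hall : ∀ v : Fin 3 → F, ⟪v, v⟫ = 1 → ∃ τ ∈ H, IsRefl q τ v) : H = ⊤ := by
  obtain ⟨f, w, ht⟩ := exists_triple hF he he0
  have hwc : ∀ c : F, ⟪w + c • e, w + c • e⟫ = 1 := by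
    intro c
    simp only [hermForm_add_left, hermForm_add_right hF, hermForm_smul_left, hermForm_smul_right, ht.hww, ht.hwe,
      ht.hew hF, ht.he]
    ring
  obtain ⟨τ₀, hτ₀, hr₀⟩ := hall w ht.hww
  have hu : ∀ c : F, ∃ u ∈ H, act u e = e ∧ ss q f w u = c := by
    intro c
    obtain ⟨τ, hτ, hr⟩ := hall (w + (c / 2) • e) (hwc _)
    have h0e : act τ₀ e = -e := IsRefl.act_perp hF hr₀ (ht.hew hF)
    have h1e : act τ e = -e := IsRefl.act_perp hF hr (by
      rw [hermForm_add_right hF, hermForm_smul_right, ht.he, ht.hew hF]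
      ring)
    have h0w : act τ₀ w = w := IsRefl.act_self hF hr₀
    have hfix : act (τ * τ₀) e = e := by
      rw [act_mul, h0e]
      have : -e = (-1 : F) • e := by simp
      rw [this, act_smul, h1e]
      simp
    refine ⟨τ * τ₀, H.mul_mem hτ hτ₀, hfix, ?_⟩
    unfold ss
    rw [act_mul, h0w, hr.2]
    simp only [hermForm_add_left, hermForm_neg_left, hermForm_smul_left, hermForm_smul_right,
      hermForm_add_right hF, ht.hww, ht.hwe, ht.hwf, ht.hef, mul_one, mul_zero, add_zero, zero_add]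
    field_simp
    ring
  refine top_of_all_tv hF hq3 he hT he0 ?_
  intro b hb
  obtain ⟨a, ha⟩ := exists_sub_pow_eq hF (c := b) (by linear_combination hb)
  obtain ⟨u, huH, hue, hus⟩ := hu a
  obtain ⟨v, hvH, hve, hvs⟩ := hu 1
  obtain ⟨h3, h4⟩ := comm_coords hF ht hue hve
  rw [hus, hvs, one_pow, mul_one, one_mul, ha] at h4
  have h5 : act (u * v * u⁻¹ * v⁻¹) e = e := by
    rw [act_mul, act_mul, act_mul, act_fix_inv hF ht hve, act_fix_inv hF ht hue, hve, hue]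
  have h6 : u * v * u⁻¹ * v⁻¹ = tv hF he hb := by
    apply ext_act
    intro x
    rw [act_of_ss_zero hF ht h5 h3, h4, act_tv]
  rw [← h6]
  exact H.mul_mem (H.mul_mem (H.mul_mem huH hvH) (H.inv_mem huH)) (H.inv_mem hvH)

end Cfsg.Agent.Lib.MinIndex.U3.CaseTwoB
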