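import Mathlib
import Cfsg.Agent.Lib.MinIndex.U3.CaseTwoB
import Cfsg.Agent.Lib.Classical.Herm.Rigid

/-!
# Subgroups with transvections: characteristic two
-/

set_option autoImplicit false
set_option linter.unusedSectionVars false
set_option linter.unusedSimpArgs false
set_option linter.unusedVariables false
set_option linter.style.haveILetI false

open scoped Matrix MatrixGroups
open Cfsg
open Cfsg.Agent.Lib.Classical.Herm.Basic Cfsg.Agent.Lib.Classical.Herm.Form
open Cfsg.Agent.Lib.Classical.Herm.GU Cfsg.Agent.Lib.Classical.Herm.SU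
open Cfsg.Agent.Lib.Classical.Herm.Tv Cfsg.Agent.Lib.Classical.Herm.Comm
open Cfsg.Agent.Lib.Classical.Herm.Unip Cfsg.Agent.Lib.Classical.Herm.SU3Sylow
open Cfsg.Agent.Lib.Classical.Herm.SU3Invol Cfsg.Agent.Lib.Classical.Herm.Subfield
open Cfsg.Agent.Lib.Classical.Herm.Rigid
open Cfsg.Agent.Lib.MinIndex.UFinal Cfsg.Agent.Lib.MinIndex.U3.Base Cfsg.Agent.Lib.MinIndex.U3.Points
open Cfsg.Agent.Lib.MinIndex.U3.Line Cfsg.Agent.Lib.MinIndex.U3.LineMain Cfsg.Agent.Lib.MinIndex.U3.Local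
open Cfsg.Agent.Lib.MinIndex.U3.EvenCase Cfsg.Agent.Lib.MinIndex.U3.Kzero Cfsg.Agent.Lib.MinIndex.U3.OddCase
open Cfsg.Agent.Lib.MinIndex.U3.Eigen Cfsg.Agent.Lib.MinIndex.U3.SylowCount Cfsg.Agent.Lib.MinIndex.U3.Small
open Cfsg.Agent.Lib.MinIndex.U3.CaseOne Cfsg.Agent.Lib.MinIndex.U3.CaseTwoA Cfsg.Agent.Lib.MinIndex.U3.CaseTwoB

namespace Cfsg.Agent.Lib.MinIndex.U3.CaseTwoC

variable {F : Type*} [Field F] [Fintype F] {q : ℕ}

local notation "⟪" x ", " y "⟫" => hermForm _ _ q x y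

variable (hF : Fintype.card F = q ^ 2) {e f w : Fin 3 → F} (ht : IsTriple q e f w) {H : Subgroup (SU 3 F q)}

include hF ht

theorem bb_tv {c : F} (hc : c + c ^ q = 0) : bb q f (tv hF ht.he hc) = c := by
  unfold bb
  rw [act_tv, hermForm_add_left, hermForm_smul_left, ht.hef, ht.hfe hF, ht.hf]
  ring

theorem exists_z (hB : Nat.card ↥((H ⊓ stabVec q w) ⊓ Re q e) = 2) :
    ∃ z ∈ H, act z e = e ∧ ss q f w z = 0 ∧ z ≠ 1 ∧ ∀ u ∈ H, act u e = e → ss q f w u = 0 → u = 1 ∨ u = z := by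
  obtain ⟨y, hy, huniq⟩ := (Nat.card_eq_two_iff' (1 : ↥((H ⊓ stabVec q w) ⊓ Re q e))).1 hB
  refine ⟨y.1, y.2.1.1, y.2.2.1, ss_of_stab ht y.2.1.2, fun h => hy (Subtype.ext h), ?_⟩
  intro u hu hue hus
  by_cases h1 : u = 1
  · exact Or.inl h1
  · right
    have hw : act u w = w := by
      rw [act_w_fix hF ht hue, hus]
      simp
    have hm : u ∈ (H ⊓ stabVec q w) ⊓ Re q e := ⟨⟨hu, hw⟩, (mem_Re_iff hF ht.he (e_ne ht)).2 hue⟩
    have h3 := huniq ⟨u, hm⟩ (fun h => h1 (congrArg Subtype.val h))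
    exact congrArg Subtype.val h3

section Z

variable {z : SU 3 F q} (hzH : z ∈ H) (hze : act z e = e) (hzs : ss q f w z = 0) (hz1 : z ≠ 1)
  (huniq : ∀ u ∈ H, act u e = e → ss q f w u = 0 → u = 1 ∨ u = z)

include hzH hze hzs hz1 huniq

theorem bb_z_ne : bb q f z ≠ 0 := fun h => hz1 (act_one_of_ss_zero hF ht hze hzs h)

/-- The character on the point stabiliser takes norm one values. -/
theorem lam_pow {g : SU 3 F q} (hg : g ∈ H) {l : F} (hl : l ≠ 0) (h : act g e = l • e) : l ^ (q + 1) = 1 := by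
  obtain ⟨h1, h3⟩ := ss_conj hF ht (w := w) g hl h hze
  rw [hzs, mul_zero] at h3
  have h4 : ss q f w (g * z * g⁻¹) = 0 := (mul_eq_zero.1 h3).resolve_right (pow_ne_zero _ hl)
  have hmem := H.mul_mem (H.mul_mem hg hzH) (H.inv_mem hg)
  have h5 : g * z * g⁻¹ = z := by
    rcases huniq _ hmem h1 h4 with h6 | h6
    · exact absurd (conj_eq_one_iff.1 h6) hz1
    · exact h6
  have hc := bb_trace_of_ss_zero hF ht hze hzs
  have hzt := eq_tv_of_ss_zero hF ht hze hzs
  have h7 := conj_tv_smul hF ht.he h hc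
  rw [← hzt, h5] at h7
  have h8 := congrArg (bb q f) h7
  rw [bb_tv hF ht] at h8
  have h9 := bb_z_ne hF ht hzH hze hzs hz1 huniq
  apply mul_left_cancel₀ h9
  rw [pow_succ]
  linear_combination -h8

/-- The norm of the coordinate `s` is constant. -/
theorem ss_norm (h2 : (2 : F) = 0) {u : SU 3 F q} (hu : u ∈ H) (hue : act u e = e) (hs : ss q f w u ≠ 0) :
    ss q f w u ^ q * ss q f w u = bb q f z := by
  have h3 := ss_mul hF ht hue hue
  have h5 : ss q f w (u * u) = 0 := by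
    rw [h3]
    linear_combination (ss q f w u) * h2
  have h4 := bb_mul hF ht (w := w) hue hue
  rcases huniq _ (H.mul_mem hu hu) (act_fix_mul hF ht hue hue) h5 with h6 | h6
  · exfalso
    rw [h6] at h4
    have h7 : bb q f (1 : SU 3 F q) = 0 := by
      unfold bb
      rw [act_one, ht.hf]
    rw [h7] at h4
    have h8 : ss q f w u ^ q * ss q f w u = 0 := by
      linear_combination -h4 + (ss q f w u ^ q * ss q f w u - bb q f u) * h2
    exact mul_ne_zero (pow_ne_zero _ hs) hs h8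
  · rw [h6] at h4
    linear_combination -h4 + (ss q f w u ^ q * ss q f w u - bb q f u) * h2

/-- Ratios of the coordinates are cube roots of unity. -/
theorem y_cube (h2 : (2 : F) = 0) {u v : SU 3 F q} (hu : u ∈ H) (hue : act u e = e) (hv : v ∈ H) (hve : act v e = e)
    (hs : ss q f w u ≠ 0) (hs' : ss q f w v ≠ 0) : (ss q f w v / ss q f w u) ^ 3 = 1 := by
  by_cases heq : ss q f w v = ss q f w u
  · rw [heq, div_self hs, one_pow]
  have hn := ss_norm hF ht hzH hze hzs hz1 huniq h2 hu hue hs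
  have hn' := ss_norm hF ht hzH hze hzs hz1 huniq h2 hv hve hs'
  have hss := ss_mul hF ht hue hve
  have hne : ss q f w u + ss q f w v ≠ 0 := by
    intro h0
    apply heq
    linear_combination h0 - (ss q f w u) * h2
  have hn'' := ss_norm hF ht hzH hze hzs hz1 huniq h2 (H.mul_mem hu hv) (act_fix_mul hF ht hue hve)
    (by rw [hss]; exact hne)
  rw [hss, pow_q_add hF] at hn''
  obtain ⟨s, hsdef⟩ : ∃ s, s = ss q f w u := ⟨_, rfl⟩
  obtain ⟨y, hy⟩ : ∃ y, y = ss q f w v / ss q f w u := ⟨_, rfl⟩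
  rw [← hy]
  have hv' : ss q f w v = y * s := by
    rw [hy, hsdef]
    field_simp
  rw [← hsdef] at hn hn'' hs
  rw [hv', mul_pow] at hn'
  rw [hv', mul_pow] at hn''
  set b := bb q f z with hb
  have ht0 : s ^ q * s ≠ 0 := mul_ne_zero (pow_ne_zero _ hs) hs
  have hB : y ^ q * y = 1 := by
    apply mul_right_cancel₀ ht0
    linear_combination hn' - hn
  have hA : y ^ q + y + 1 = 0 := by
    apply mul_right_cancel₀ ht0
    linear_combination hn'' - hn - (s ^ q * s) * hB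
  linear_combination (y - 1) * y * hA - (y - 1) * hB

end Z

/-- The coordinate `s` as a homomorphism. -/
noncomputable def ssHom (H : Subgroup (SU 3 F q)) : ↥(H ⊓ Re q e) →* Multiplicative F :=
  MonoidHom.mk' (fun u => Multiplicative.ofAdd (ss q f w u.1)) (fun a b => by
    rw [← ofAdd_add]
    congr 1
    exact ss_mul hF ht a.2.2.1 b.2.2.1)

theorem ssHom_apply (u : ↥(H ⊓ Re q e)) : ssHom hF ht H u = Multiplicative.ofAdd (ss q f w u.1) := rfl

theorem card_A_eq (hB : Nat.card ↥((H ⊓ stabVec q w) ⊓ Re q e) = 2) :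
    Nat.card ↥(H ⊓ Re q e) = 2 * Nat.card (ssHom hF ht H).range := by
  have h1 := Subgroup.card_mul_index (ssHom hF ht H).ker
  rw [Subgroup.index_ker] at h1
  have h2 : ((ssHom hF ht H).ker).map (H ⊓ Re q e).subtype = (H ⊓ stabVec q w) ⊓ Re q e := by
    ext g
    constructor
    · rintro ⟨⟨g', hg'⟩, h3, rfl⟩
      have h4 : ss q f w g' = 0 := by
        have h5 := MonoidHom.mem_ker.1 h3
        rw [ssHom_apply] at h5
        exact ofAdd_eq_one.1 h5
      have hw : act g' w = w := by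
        rw [act_w_fix hF ht hg'.2.1, h4]
        simp
      exact ⟨⟨hg'.1, hw⟩, hg'.2⟩
    · rintro ⟨⟨h3, h4⟩, h5⟩
      refine ⟨⟨g, h3, h5⟩, ?_, rfl⟩
      rw [SetLike.mem_coe, MonoidHom.mem_ker, ssHom_apply]
      exact ofAdd_eq_one.2 (ss_of_stab ht h4)
  have h3 : Nat.card (ssHom hF ht H).ker = 2 := by
    rw [← hB, ← h2]
    exact (Subgroup.card_map_of_injective (H ⊓ Re q e).subtype_injective).symm
  rw [h3] at h1
  exact h1.symm

section Z2

variable {z : SU 3 F q} (hzH : z ∈ H) (hze : act z e = e) (hzs : ss q f w z = 0) (hz1 : z ≠ 1)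
  (huniq : ∀ u ∈ H, act u e = e → ss q f w u = 0 → u = 1 ∨ u = z)

include hzH hze hzs hz1 huniq

theorem card_range_le (h2 : (2 : F) = 0) {u₀ : SU 3 F q} (hu₀ : u₀ ∈ H) (hue : act u₀ e = e) (hs₀ : ss q f w u₀ ≠ 0) :
    Nat.card (ssHom hF ht H).range ≤ 4 := by
  classical
  have hy : ∀ r : (ssHom hF ht H).range, Multiplicative.toAdd r.1 ≠ 0 →
      (Multiplicative.toAdd r.1 / ss q f w u₀) ^ 3 = 1 := by
    rintro ⟨_, a, rfl⟩ h
    exact y_cube hF ht hzH hze hzs hz1 huniq h2 hu₀ hue a.2.1 a.2.2.1 hs₀ h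
  let φ : (ssHom hF ht H).range → Option {y : F // y ^ 3 = 1} := fun r =>
    if h : Multiplicative.toAdd r.1 = 0 then none else some ⟨Multiplicative.toAdd r.1 / ss q f w u₀, hy r h⟩
  have hφ : Function.Injective φ := by
    intro r r' h
    apply Subtype.ext
    apply Multiplicative.toAdd.injective
    simp only [φ] at h
    split_ifs at h with h3 h4 h4
    · rw [h3, h4]
    · simp only [Option.some.injEq, Subtype.mk.injEq] at h
      field_simp at h
      exact h
  have h3 := Nat.card_le_card_of_injective φ hφ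
  rw [Finite.card_option] at h3
  have h4 := card_pow_eq_one_le (F := F) (n := 3) (by norm_num)
  omega

end Z2

/-- The even characteristic case. -/
theorem case_even_tv (hq3 : 3 ≤ q) (h2 : (2 : F) = 0) (hB : Nat.card ↥((H ⊓ stabVec q w) ⊓ Re q e) = 2)
    (hd : H.index ≤ q ^ 3) : False := by
  obtain ⟨z, hzH, hze, hzs, hz1, huniq⟩ := exists_z hF ht hB
  have he0 := e_ne ht
  -- the order of the point stabiliser
  have hlam := card_lam hF ht (H ⊓ lineStab 3 q e he0) inf_le_right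
  have hInf : (H ⊓ lineStab 3 q e he0) ⊓ Re q e = H ⊓ Re q e := by
    ext g
    constructor
    · rintro ⟨⟨h1, -⟩, h3⟩
      exact ⟨h1, h3⟩
    · rintro ⟨h1, h3⟩
      exact ⟨⟨h1, 1, one_ne_zero, by rw [one_smul]; exact h3.1⟩, h3⟩
  rw [hInf] at hlam
  obtain ⟨a', ha'⟩ : ∃ a', a' = Nat.card ↥(H ⊓ Re q e) := ⟨_, rfl⟩
  obtain ⟨E, hE⟩ : ∃ E, E = Nat.card (lamOn ht (H ⊓ lineStab 3 q e he0) inf_le_right).range := ⟨_, rfl⟩
  rw [← ha', ← hE] at hlam
  have hval : ∀ g ∈ H ⊓ lineStab 3 q e he0, ⟪act g e, f⟫ ^ (q + 1) = 1 := by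
    rintro g ⟨hg, hgL⟩
    have h3 := act_e_of_mem hF ht hgL
    have hl0 : ⟪act g e, f⟫ ≠ 0 := by
      intro h0
      rw [h0, zero_smul] at h3
      exact act_ne_zero g he0 h3
    exact lam_pow hF ht hzH hze hzs hz1 huniq hg hl0 h3
  have hEd : E ∣ q + 1 := by
    rw [hE]
    apply card_dvd_of_exponent
    rintro x ⟨⟨g, hg⟩, rfl⟩
    apply Units.ext
    rw [Units.val_pow_eq_pow_val, lamOn_apply hF ht, Units.val_one]
    exact hval g hg
  have hE1 : E ≤ q + 1 := Nat.le_of_dvd (by omega) hEd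
  have hci := card_inf_mul hF ht.he he0 H hq3 hd
  have hcard : q ^ 2 - 1 ≤ E * a' := by
    rw [hlam]
    have h3 : H.index ≠ 0 := Subgroup.index_ne_zero_of_finite
    have hq0 : 0 < q ^ 3 := by positivity
    apply Nat.le_of_mul_le_mul_left _ hq0
    rw [← hci, mul_comm]
    exact Nat.mul_le_mul_right _ hd
  have hq21 : q ^ 2 - 1 = (q - 1) * (q + 1) := by
    obtain ⟨m, rfl⟩ : ∃ m, q = m + 1 := ⟨q - 1, by omega⟩
    simp only [Nat.add_sub_cancel]
    have : (m + 1) ^ 2 = m * (m + 1 + 1) + 1 := by ring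
    omega
  have ha1 : q - 1 ≤ a' := by
    have h3 : (q - 1) * (q + 1) ≤ a' * (q + 1) := by
      rw [← hq21]
      calc q ^ 2 - 1 ≤ E * a' := hcard
        _ ≤ (q + 1) * a' := Nat.mul_le_mul_right _ hE1
        _ = a' * (q + 1) := mul_comm _ _
    exact Nat.le_of_mul_le_mul_right h3 (by omega)
  have hA := card_A_eq hF ht hB
  rw [← ha'] at hA
  -- the prime
  obtain ⟨p, k, hp, hc, hk⟩ := exists_char_pow hF
  have hp2 : p = 2 := by
    have h3 : p ∣ 2 := (CharP.cast_eq_zero_iff F p 2).1 (by exact_mod_cast h2)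
    exact (Nat.prime_dvd_prime_iff_eq hp Nat.prime_two).1 h3
  rw [hp2] at hk
  have hk2 : 2 ≤ k := by
    by_contra h
    interval_cases k <;> omega
  have hq4 : 4 ≤ q := by
    rw [hk]
    exact (Nat.pow_le_pow_right (by norm_num) hk2 : 2 ^ 2 ≤ 2 ^ k)
  -- some element with nonzero coordinate
  obtain ⟨u₀, hu₀, hue, hs₀⟩ : ∃ u₀ ∈ H, act u₀ e = e ∧ ss q f w u₀ ≠ 0 := by
    by_contra hcon
    push Not at hcon
    have h3 : (ssHom hF ht H).range = ⊥ := by
      rw [Subgroup.eq_bot_iff_forall]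
      rintro _ ⟨a, rfl⟩
      rw [ssHom_apply]
      exact ofAdd_eq_one.2 (hcon a.1 a.2.1 a.2.2.1)
    rw [h3, Subgroup.card_bot] at hA
    omega
  have hr := card_range_le hF ht hzH hze hzs hz1 huniq h2 hu₀ hue hs₀
  have ha8 : a' ≤ 8 := by omega
  have hq9 : q ≤ 9 := by omega
  have hk3 : k ≤ 3 := by
    by_contra h
    have : 2 ^ 4 ≤ 2 ^ k := Nat.pow_le_pow_right (by norm_num) (by omega)
    omega
  have hq48 : q = 4 ∨ q = 8 := by
    interval_cases k <;> omega
  rcases hq48 with h4 | h8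
  · -- `q = 4`
    have hE5 : E = 1 ∨ E = 5 := by
      rw [h4] at hEd
      exact (Nat.dvd_prime (by norm_num)).1 hEd
    have hE5' : E = 5 := by
      rcases hE5 with h | h
      · rw [h, h4] at hcard
        omega
      · exact h
    obtain ⟨g, hg, hgne⟩ : ∃ g ∈ H ⊓ lineStab 3 q e he0, ⟪act g e, f⟫ ≠ 1 := by
      by_contra hcon
      push Not at hcon
      have h3 : (lamOn ht (H ⊓ lineStab 3 q e he0) inf_le_right).range = ⊥ := by
        rw [Subgroup.eq_bot_iff_forall]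
        rintro _ ⟨⟨g, hg⟩, rfl⟩
        apply Units.ext
        rw [lamOn_apply hF ht, Units.val_one]
        exact hcon g hg
      rw [h3, Subgroup.card_bot] at hE
      omega
    have h3 := act_e_of_mem hF ht hg.2
    obtain ⟨l, hl⟩ : ∃ l, l = ⟪act g e, f⟫ := ⟨_, rfl⟩
    rw [← hl] at h3 hgne
    have hl0 : l ≠ 0 := by
      intro h0
      rw [h0, zero_smul] at h3
      exact act_ne_zero g he0 h3
    have hl5 := lam_pow hF ht hzH hze hzs hz1 huniq hg.1 hl0 h3
    rw [h4] at hl5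
    obtain ⟨h5, h6⟩ := ss_conj hF ht (w := w) g hl0 h3 hue
    have hlq : l ^ q = l ^ 4 := by rw [h4]
    rw [hlq] at h6
    have hmem := H.mul_mem (H.mul_mem hg.1 hu₀) (H.inv_mem hg.1)
    have hs' : ss q f w (g * u₀ * g⁻¹) ≠ 0 := by
      intro h0
      rw [h0, zero_mul] at h6
      exact mul_ne_zero (pow_ne_zero _ hl0) hs₀ h6.symm
    have hy := y_cube hF ht hzH hze hzs hz1 huniq h2 hu₀ hue hmem h5 hs₀ hs'
    obtain ⟨s, hs⟩ : ∃ s, s = ss q f w u₀ := ⟨_, rfl⟩
    obtain ⟨s', hs1⟩ : ∃ s', s' = ss q f w (g * u₀ * g⁻¹) := ⟨_, rfl⟩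
    rw [← hs, ← hs1] at hy h6 
    rw [← hs] at hs₀
    have hy' : s' ^ 3 = s ^ 3 := by
      rw [div_pow] at hy
      field_simp at hy
      exact hy
    have h7 : l ^ 6 = 1 := by
      have h8 : s' ^ 3 * (l ^ 4) ^ 3 = (l ^ 2) ^ 3 * s ^ 3 := by
        rw [← mul_pow, h6, mul_pow]
      rw [hy'] at h8
      have h9 : s ^ 3 ≠ 0 := pow_ne_zero _ hs₀
      have h10 : l ^ 6 ≠ 0 := pow_ne_zero _ hl0
      apply mul_left_cancel₀ h10
      apply mul_right_cancel₀ h9
      linear_combination h8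
    apply hgne
    have h10 : l ^ 5 = 1 := hl5
    calc l = l ^ 6 / l ^ 5 := by
          field_simp
      _ = 1 := by rw [h7, h10, one_div_one]
  · -- `q = 8`
    have ha8' : a' = 8 := by omega
    have hE9 : E = 9 := by
      have h3 : E ∣ 9 := by
        rw [h8] at hEd
        exact hEd
      have h5 : E ≤ 9 := Nat.le_of_dvd (by norm_num) h3
      rw [h8, ha8'] at hcard
      have h6 : 8 ≤ E := by omega
      interval_cases E <;> omega
    have h3 := card_H_eq hF ht.he he0 H hq3 hd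
    rw [← hlam, hE9, ha8'] at h3
    have h5 : (q ^ 3 + 1) * (9 * 8) = 36936 := by rw [h8]; norm_num
    rw [h5] at h3
    exact small8 hF h8 h3

end Cfsg.Agent.Lib.MinIndex.U3.CaseTwoC
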