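import Mathlib
import Cfsg.Agent.Lib.MinIndex.U3.CaseTwoC

/-!
# The minimal index of a proper subgroup of `PSU₃(q)`
-/

set_option autoImplicit false
set_option linter.unusedSectionVars false
set_option linter.unusedSimpArgs false
set_option linter.unusedVariables false
set_option linter.style.haveILetI false

open scoped Matrix MatrixGroups
open Cfsg
open Cfsg.Agent.Lib.Classical.Herm.Basic Cfsg.Agent.Lib.Classical.Herm.Form
open Cfsg.Agent.Lib.Classical.Herm.GU Cfsg.Agent.Lib.Classical.Herm.SU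
open Cfsg.Agent.Lib.Classical.Herm.Tv Cfsg.Agent.Lib.Classical.Herm.Comm
open Cfsg.Agent.Lib.Classical.Herm.Unip Cfsg.Agent.Lib.Classical.Herm.SU3Sylow
open Cfsg.Agent.Lib.Classical.Herm.SU3Invol Cfsg.Agent.Lib.Classical.Herm.Subfield
open Cfsg.Agent.Lib.MinIndex.UFinal Cfsg.Agent.Lib.MinIndex.U3.Base Cfsg.Agent.Lib.MinIndex.U3.Points
open Cfsg.Agent.Lib.MinIndex.U3.Line Cfsg.Agent.Lib.MinIndex.U3.LineMain Cfsg.Agent.Lib.MinIndex.U3.Local
open Cfsg.Agent.Lib.MinIndex.U3.EvenCase Cfsg.Agent.Lib.MinIndex.U3.Kzero Cfsg.Agent.Lib.MinIndex.U3.OddCase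
open Cfsg.Agent.Lib.MinIndex.U3.Eigen Cfsg.Agent.Lib.MinIndex.U3.SylowCount Cfsg.Agent.Lib.MinIndex.U3.Small
open Cfsg.Agent.Lib.MinIndex.U3.CaseOne Cfsg.Agent.Lib.MinIndex.U3.CaseTwoA Cfsg.Agent.Lib.MinIndex.U3.CaseTwoB
open Cfsg.Agent.Lib.MinIndex.U3.CaseTwoC

namespace Cfsg.Agent.Lib.MinIndex.U3.Final

variable {F : Type*} [Field F] [Fintype F] {q : ℕ}

local notation "⟪" x ", " y "⟫" => hermForm _ _ q x y

variable (hF : Fintype.card F = q ^ 2)

include hF

/-- An involution fixing a unit vector is the reflection in that vector. -/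
theorem refl_of_two_dvd {H : Subgroup (SU 3 F q)} (h2 : (2 : F) ≠ 0) {w : Fin 3 → F} (hw : ⟪w, w⟫ = 1)
    (hd : 2 ∣ Nat.card ↥(H ⊓ stabVec q w)) : ∃ τ ∈ H, IsRefl q τ w := by
  haveI : Fact (Nat.Prime 2) := ⟨Nat.prime_two⟩
  obtain ⟨t, ht⟩ := exists_prime_orderOf_dvd_card' (G := ↥(H ⊓ stabVec q w)) 2 hd
  have ht1 : t.1 ≠ 1 := by
    intro h
    have h1 : t = 1 := Subtype.ext h
    rw [h1, orderOf_one] at ht
    omega
  have htt : t.1 * t.1 = 1 := by
    have h1 := pow_orderOf_eq_one t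
    rw [ht, pow_two] at h1
    exact congrArg Subtype.val h1
  obtain ⟨v, hv⟩ := exists_isRefl_of_invol hF h2 ht1 htt
  refine ⟨t.1, t.2.1, ?_⟩
  have hfix : act t.1 w = w := t.2.2
  rw [hv.2] at hfix
  have h3 : w = ⟪w, v⟫ • v := by
    funext i
    have h4 := congrFun hfix i
    simp only [Pi.add_apply, Pi.neg_apply, Pi.smul_apply, smul_eq_mul] at h4 ⊢
    apply mul_left_cancel₀ h2
    linear_combination -h4
  obtain ⟨c, hc⟩ : ∃ c, c = ⟪w, v⟫ := ⟨_, rfl⟩
  rw [← hc] at h3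
  have h4 : c ^ (q + 1) = 1 := by
    have h5 : ⟪c • v, c • v⟫ = 1 := by
      rw [← h3]
      exact hw
    rw [hermForm_smul_left, hermForm_smul_right, hv.1] at h5
    rw [pow_succ]
    linear_combination h5
  have h6 := IsRefl.of_smul hF hv h4
  rw [← h3] at h6
  exact h6

/-- The main theorem for `SU₃(q)`. -/
theorem su3_top (hq3 : 3 ≤ q) (hq5 : q ≠ 5) {H : Subgroup (SU 3 F q)} (hZ : Subgroup.center (SU 3 F q) ≤ H)
    (hd : H.index ≤ q ^ 3) : H = ⊤ := by
  by_contra hne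
  obtain ⟨e, he0, he⟩ := exists_iso hF
  have hT : ∀ x y : Fin 3 → F, ⟪x, x⟫ = 0 → x ≠ 0 → ⟪y, y⟫ = 0 → y ≠ 0 → ∃ h ∈ H, ∃ c : F, c ≠ 0 ∧ act h x = c • y :=
    fun x y hx hx0 hy hy0 => trans_vec hF he he0 H hq3 hd hx hx0 hy hy0
  by_cases hN : NoTv q hF H
  · exact case_one hF hq3 hq5 hN hZ hd
  obtain ⟨p, k, hp, hc, hk⟩ := exists_char_pow hF
  haveI : Fact p.Prime := ⟨hp⟩
  haveI := hc
  by_cases h2 : (2 : F) = 0
  · obtain ⟨f, w, ht⟩ := exists_triple hF he he0
    rcases alt hF ht p k hk hq3 hT hN hne with ⟨h3, -, -⟩ | ⟨h3, -⟩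
    · exact case_even_tv hF ht hq3 h2 h3 hd
    · have hp2 : p = 2 := by
        have h4 : p ∣ 2 := (CharP.cast_eq_zero_iff F p 2).1 (by exact_mod_cast h2)
        exact (Nat.prime_dvd_prime_iff_eq hp Nat.prime_two).1 h4
      rw [hp2, h3] at hk
      have h4 : 2 ∣ 9 := by
        rw [hk]
        apply dvd_pow_self
        rintro rfl
        norm_num at hk
      omega
  · apply hne
    refine top_of_refl hF h2 hq3 he he0 hT ?_
    intro v hv
    obtain ⟨x, hx0, hx, hxv⟩ := exists_iso_perp hF hv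
    obtain ⟨f, ht⟩ := exists_triple_of_perp hF hx hx0 hv (hermForm_symm_zero hF hxv)
    rcases alt hF ht p k hk hq3 hT hN hne with ⟨-, h3, -⟩ | ⟨-, h3⟩
    · exact absurd h3 h2
    · exact refl_of_two_dvd hF h2 hv h3

/-- The minimal index of a proper subgroup of `PSU₃(q)`. -/
theorem main (hq3 : 3 ≤ q) (hq5 : q ≠ 5) :
    (∀ H : Subgroup (Cfsg.PSU 3 F q), H ≠ ⊤ → q ^ 3 + 1 ≤ H.index) ∧
      ∃ H : Subgroup (Cfsg.PSU 3 F q), H.index = q ^ 3 + 1 := by
  constructor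
  · intro H hH
    by_contra hlt
    have hf : Function.Surjective (QuotientGroup.mk' (Subgroup.center (SU 3 F q))) := QuotientGroup.mk'_surjective _
    have hidx : (H.comap (QuotientGroup.mk' (Subgroup.center (SU 3 F q)))).index = H.index :=
      Subgroup.index_comap_of_surjective H hf
    have hZ : Subgroup.center (SU 3 F q) ≤ H.comap (QuotientGroup.mk' (Subgroup.center (SU 3 F q))) := by
      intro z hz
      rw [Subgroup.mem_comap]
      have : QuotientGroup.mk' (Subgroup.center (SU 3 F q)) z = 1 := (QuotientGroup.eq_one_iff z).2 hz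
      rw [this]
      exact H.one_mem
    have htop := su3_top hF hq3 hq5 hZ (by rw [hidx]; omega)
    apply hH
    rw [eq_top_iff]
    intro x _
    obtain ⟨y, rfl⟩ := hf x
    have : y ∈ H.comap (QuotientGroup.mk' (Subgroup.center (SU 3 F q))) := by rw [htop]; trivial
    exact this
  · obtain ⟨e, he0, he⟩ := exists_iso hF
    refine ⟨(lineStab 3 q e he0).map (QuotientGroup.mk' (Subgroup.center (SU 3 F q))), ?_⟩
    rw [Subgroup.index_map_eq _ (QuotientGroup.mk'_surjective _) (by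
      rw [QuotientGroup.ker_mk']
      exact center_le_lineStab hF e he0), index_L hF he he0]

end Cfsg.Agent.Lib.MinIndex.U3.Final
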